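/-
An abstract consequence of Dickson's theorem: a set of unit vectors of a ternary quadratic space
over a prime field, closed under reflections and containing two orthogonal vectors and a
generic vector, is either everything or the generic vector has one of finitely many first
coordinates.
-/
import Cfsg.Agent.Lib.Classical.SL2.EvenList

set_option autoImplicit false
set_option linter.unusedSectionVars false
set_option linter.style.haveILetI false
set_option linter.unusedVariables false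

open scoped MatrixGroups
open Matrix OnePoint

namespace Cfsg.Agent.Lib.OmFrame.Dick

open Cfsg.Agent.Lib.Classical.SL2.Moebius Cfsg.Agent.Lib.Classical.SL2.Rational
open Cfsg.Agent.Lib.Classical.SL2.Klein Cfsg.Agent.Lib.Classical.SL2.SubfieldCase
open Cfsg.Agent.Lib.Classical.SL2.Dickson Cfsg.Agent.Lib.Classical.SL2.Precise
open Cfsg.Agent.Lib.Classical.SL2.Tori Cfsg.Agent.Lib.Classical.SL2.SubLat
open Cfsg.Agent.Lib.Classical.SL2.Coatom Cfsg.Agent.Lib.Classical.SL2.SubMax
open Cfsg.Agent.Lib.Classical.SL2.EvenList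
open Cfsg.Agent.Lib.Classical

section Entries

variable {E : Type*} [Field E]

/-- The scalar `-1`. -/
noncomputable abbrev sc : GL (Fin 2) E := GeneralLinearGroup.scalar (Fin 2) (-1 : Eˣ)

lemma mul_sc_apply (M : GL (Fin 2) E) (i j : Fin 2) : (M * (sc : GL (Fin 2) E)) i j = - M i j := by
  rw [mul_scalar_apply]
  simp

lemma sc_comm (M : GL (Fin 2) E) : sc * M = M * sc := by
  apply gl_ext <;> rw [mul_sc_apply, gl_mul_apply] <;> simp [GeneralLinearGroup.coe_scalar]

lemma anti_apply {A B : GL (Fin 2) E} (h : A * B = B * A * sc) (i j : Fin 2) :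
    A i 0 * B 0 j + A i 1 * B 1 j = - (B i 0 * A 0 j + B i 1 * A 1 j) := by
  rw [← gl_mul_apply, ← gl_mul_apply, h, mul_sc_apply]

/-- Conjugates of anticommuting elements anticommute. -/
lemma anti_conj {A B : GL (Fin 2) E} (h : A * B = B * A * sc) (c : GL (Fin 2) E) :
    (c⁻¹ * A * c) * (c⁻¹ * B * c) = (c⁻¹ * B * c) * (c⁻¹ * A * c) * sc := by
  have h1 : (c⁻¹ * A * c) * (c⁻¹ * B * c) = c⁻¹ * (A * B) * c := by group
  have h2 : (c⁻¹ * B * c) * (c⁻¹ * A * c) = c⁻¹ * (B * A) * c := by group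
  rw [h1, h2, h, mul_assoc (c⁻¹ * (B * A)), ← sc_comm c, ← mul_assoc, ← mul_assoc, ← mul_assoc]

/-- Anticommuting elements have no common fixed point. -/
lemma no_common_fix [DecidableEq E] (h2 : (2 : E) ≠ 0) {A B : GL (Fin 2) E}
    (h : A * B = B * A * sc) {ω : OnePoint E} (hA : A • ω = ω) (hB : B • ω = ω) : False := by
  obtain ⟨c, hc⟩ := exists_smul_infty ω
  have h3 := anti_conj h c
  have hA' := conj_fix_infty hc hA
  have hB' := conj_fix_infty hc hB
  have h00 := anti_apply h3 0 0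
  rw [hA', hB'] at h00
  have h4 := (diag_ne_zero hA').1
  have h5 := (diag_ne_zero hB').1
  apply mul_ne_zero h2 (mul_ne_zero h4 h5)
  linear_combination h00

/-- Diagonal or antidiagonal. -/
def Dg (M : GL (Fin 2) E) : Prop := (M 1 0 = 0 ∧ M 0 1 = 0) ∨ (M 0 0 = 0 ∧ M 1 1 = 0)

lemma dg_of_pair [DecidableEq E] {c g : GL (Fin 2) E} {a b : OnePoint E}
    (ha : c • (∞ : OnePoint E) = a) (hb : c • ((0 : E) : OnePoint E) = b)
    (h : (g • a = a ∧ g • b = b) ∨ (g • a = b ∧ g • b = a)) : Dg (c⁻¹ * g * c) := by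
  rcases h with ⟨h1, h2⟩ | ⟨h1, h2⟩
  · left
    constructor
    · exact conj_fix_infty ha h1
    · have h3 : (c⁻¹ * g * c) • ((0 : E) : OnePoint E) = ((0 : E) : OnePoint E) := by
        rw [mul_smul, mul_smul, hb, h2, inv_smul_eq_iff, hb]
      rw [smul_coe] at h3
      split_ifs at h3 with h4
      · exact absurd h3 (OnePoint.infty_ne_coe _)
      · rw [OnePoint.coe_eq_coe] at h3
        simp only [mul_zero, zero_add] at h3 h4
        rw [div_eq_zero_iff] at h3
        exact h3.resolve_right h4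
  · right
    constructor
    · have h3 : (c⁻¹ * g * c) • (∞ : OnePoint E) = ((0 : E) : OnePoint E) := by
        rw [mul_smul, mul_smul, ha, h1, inv_smul_eq_iff, hb]
      rw [smul_infty] at h3
      split_ifs at h3 with h4
      · exact absurd h3 (OnePoint.infty_ne_coe _)
      · rw [OnePoint.coe_eq_coe, div_eq_zero_iff] at h3
        exact h3.resolve_right h4
    · have h3 : (c⁻¹ * g * c) • ((0 : E) : OnePoint E) = (∞ : OnePoint E) := by
        rw [mul_smul, mul_smul, hb, h2, inv_smul_eq_iff, ha]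
      rw [smul_coe] at h3
      split_ifs at h3 with h4
      · simpa using h4
      · exact absurd h3.symm (OnePoint.infty_ne_coe _)

/-- No diagonal-or-antidiagonal configuration with a generic third element. -/
lemma dg_contra (h2 : (2 : E) ≠ 0) {A B W : GL (Fin 2) E} (hA : Dg A) (hB : Dg B) (hW : Dg W)
    (hAB : A * B = B * A * sc) {x y z : E} (hx : x ≠ 0) (hy : y ≠ 0) (hz : z ≠ 0)
    (hWe : ∀ i j, W i j = x * A i j + y * B i j + z * (A * B) i j) : False := by
  have dA := gl_det A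
  have dB := gl_det B
  have dW := gl_det W
  have h00 := anti_apply hAB 0 0
  have h01 := anti_apply hAB 0 1
  have h10 := anti_apply hAB 1 0
  have h11 := anti_apply hAB 1 1
  have w00 := hWe 0 0
  have w01 := hWe 0 1
  have w10 := hWe 1 0
  have w11 := hWe 1 1
  simp only [gl_mul_apply] at w00 w01 w10 w11
  rcases hA with ⟨a1, a2⟩ | ⟨a1, a2⟩ <;> rcases hB with ⟨b1, b2⟩ | ⟨b1, b2⟩ <;>
    simp only [a1, a2, b1, b2, mul_zero, zero_mul, add_zero, zero_add, sub_zero, zero_sub, ne_eq,
      neg_eq_zero] at *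
  · -- (D,D)
    have e1 : A 0 0 ≠ 0 := left_ne_zero_of_mul dA
    have e2 : B 0 0 ≠ 0 := left_ne_zero_of_mul dB
    apply mul_ne_zero h2 (mul_ne_zero e1 e2)
    linear_combination h00
  · -- (D,O)
    have e1 : A 0 0 ≠ 0 := left_ne_zero_of_mul dA
    have e2 : B 0 1 ≠ 0 := left_ne_zero_of_mul dB
    have e3 : B 1 0 ≠ 0 := right_ne_zero_of_mul dB
    have e4 : A 1 1 = - A 0 0 := by
      apply mul_right_cancel₀ e2
      linear_combination h01
    rcases hW with ⟨c1, c2⟩ | ⟨c1, c2⟩
    · rw [c1] at w10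
      rw [c2] at w01
      have e5 : y + z * A 0 0 = 0 := by
        apply mul_right_cancel₀ e2
        linear_combination -w01
      have e6 : y - z * A 0 0 = 0 := by
        apply mul_right_cancel₀ e3
        linear_combination -w10 - z * B 1 0 * e4
      apply mul_ne_zero h2 hy
      linear_combination e5 + e6
    · rw [c1] at w00
      exact mul_ne_zero hx e1 (by linear_combination -w00)
  · -- (O,D)
    have e1 : B 0 0 ≠ 0 := left_ne_zero_of_mul dB
    have e2 : A 0 1 ≠ 0 := left_ne_zero_of_mul dA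
    have e3 : A 1 0 ≠ 0 := right_ne_zero_of_mul dA
    have e4 : B 1 1 = - B 0 0 := by
      apply mul_left_cancel₀ e2
      linear_combination h01
    rcases hW with ⟨c1, c2⟩ | ⟨c1, c2⟩
    · rw [c1] at w10
      rw [c2] at w01
      have e5 : x - z * B 0 0 = 0 := by
        apply mul_right_cancel₀ e2
        linear_combination -w01 - z * A 0 1 * e4
      have e6 : x + z * B 0 0 = 0 := by
        apply mul_right_cancel₀ e3
        linear_combination -w10
      apply mul_ne_zero h2 hx
      linear_combination e5 + e6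
    · rw [c1] at w00
      exact mul_ne_zero hy e1 (by linear_combination -w00)
  · -- (O,O)
    have e1 : A 0 1 ≠ 0 := left_ne_zero_of_mul dA
    have e2 : A 1 0 ≠ 0 := right_ne_zero_of_mul dA
    have e3 : B 0 1 ≠ 0 := left_ne_zero_of_mul dB
    have e4 : B 1 0 ≠ 0 := right_ne_zero_of_mul dB
    rcases hW with ⟨c1, c2⟩ | ⟨c1, c2⟩
    · rw [c1] at w10
      rw [c2] at w01
      have e5 : B 0 1 * A 1 0 = B 1 0 * A 0 1 := by
        apply mul_left_cancel₀ hy
        linear_combination (A 1 0) * w01 * (-1) + (A 0 1) * w10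
      apply mul_ne_zero h2 (mul_ne_zero e1 e4)
      linear_combination h00 - e5
    · rw [c1] at w00
      exact mul_ne_zero hz (mul_ne_zero e1 e4) (by linear_combination -w00)

/-- Powers of a `2×2` matrix. -/
def alpha (τ δ : E) : ℕ → E
  | 0 => 0
  | 1 => 1
  | n + 2 => τ * alpha τ δ (n + 1) - δ * alpha τ δ n

lemma pow_entries_tr (g : GL (Fin 2) E) (n : ℕ) (i j : Fin 2) :
    (g ^ (n + 1)) i j = alpha (g 0 0 + g 1 1) (g 0 0 * g 1 1 - g 0 1 * g 1 0) (n + 1) * g i j -
      (if i = j then (g 0 0 * g 1 1 - g 0 1 * g 1 0) *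
        alpha (g 0 0 + g 1 1) (g 0 0 * g 1 1 - g 0 1 * g 1 0) n else 0) := by
  induction n generalizing i j with
  | zero =>
    simp [alpha]
  | succ n ih =>
    have e : g ^ (n + 1 + 1) = g * g ^ (n + 1) := by rw [pow_succ' g (n + 1)]
    rw [e, gl_mul_apply, ih, ih]
    rw [show alpha (g 0 0 + g 1 1) (g 0 0 * g 1 1 - g 0 1 * g 1 0) (n + 1 + 1) =
      (g 0 0 + g 1 1) * alpha (g 0 0 + g 1 1) (g 0 0 * g 1 1 - g 0 1 * g 1 0) (n + 1) -
      (g 0 0 * g 1 1 - g 0 1 * g 1 0) * alpha (g 0 0 + g 1 1) (g 0 0 * g 1 1 - g 0 1 * g 1 0) n from rfl]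
    generalize alpha (g 0 0 + g 1 1) (g 0 0 * g 1 1 - g 0 1 * g 1 0) (n + 1) = u
    generalize alpha (g 0 0 + g 1 1) (g 0 0 * g 1 1 - g 0 1 * g 1 0) n = v
    fin_cases i <;> fin_cases j <;> simp <;> ring

/-- A non-scalar matrix with a power scalar has a vanishing `alpha`. -/
lemma alpha_eq_zero {g : GL (Fin 2) E} (hg : ProjGenLinGroup.mk g ≠ 1) {n : ℕ}
    (h : ProjGenLinGroup.mk g ^ (n + 1) = 1) :
    alpha (g 0 0 + g 1 1) (g 0 0 * g 1 1 - g 0 1 * g 1 0) (n + 1) = 0 := by
  rw [← map_pow] at h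
  obtain ⟨h1, h2, h3⟩ := entries_of_scalar h
  rw [pow_entries_tr] at h1 h2 h3
  rw [pow_entries_tr] at h3
  simp only [zero_ne_one, one_ne_zero, if_false, if_true, sub_zero] at h1 h2 h3
  by_contra h0
  apply hg
  apply scalar_of_entries
  · exact (mul_eq_zero.1 h1).resolve_left h0
  · exact (mul_eq_zero.1 h2).resolve_left h0
  · apply mul_left_cancel₀ h0
    linear_combination h3

end Entries

section Forms

variable {F : Type*} [Field F]

/-- The ternary form. -/
def nrm (φ : F) (t : F × F × F) : F := t.1 ^ 2 + t.2.1 ^ 2 + φ * t.2.2 ^ 2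

/-- Its bilinear form. -/
def bil (φ : F) (t s : F × F × F) : F := t.1 * s.1 + t.2.1 * s.2.1 + φ * (t.2.2 * s.2.2)

/-- The reflection in the unit vector `t`. -/
def rfl3 (φ : F) (t s : F × F × F) : F × F × F :=
  (s.1 - 2 * bil φ s t * t.1, s.2.1 - 2 * bil φ s t * t.2.1, s.2.2 - 2 * bil φ s t * t.2.2)

def T00 (φ a b : F) (t : F × F × F) : F := t.2.1 * a + t.2.2 * (φ * b)
def T01 (φ a b : F) (t : F × F × F) : F := t.1 + t.2.1 * b - t.2.2 * a
def T10 (φ a b : F) (t : F × F × F) : F := -φ * t.1 + t.2.1 * (φ * b) - t.2.2 * (φ * a)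

/-- `G` is the matrix of `t`. -/
structure IsT (φ a b : F) (G : GL (Fin 2) F) (t : F × F × F) : Prop where
  h00 : G 0 0 = T00 φ a b t
  h01 : G 0 1 = T01 φ a b t
  h10 : G 1 0 = T10 φ a b t
  h11 : G 1 1 = - T00 φ a b t

lemma det_T {φ a b : F} (hab : a ^ 2 + φ * b ^ 2 = -φ) (t : F × F × F) :
    -(T00 φ a b t) ^ 2 - T01 φ a b t * T10 φ a b t = φ * nrm φ t := by
  obtain ⟨x, y, z⟩ := t
  simp only [T00, T01, T10, nrm]
  linear_combination (-y ^ 2 - φ * z ^ 2) * hab

lemma exists_isT {φ a b : F} (hφ : φ ≠ 0) (hab : a ^ 2 + φ * b ^ 2 = -φ) {t : F × F × F}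
    (ht : nrm φ t ≠ 0) : ∃ G, IsT φ a b G t := by
  have hd : T00 φ a b t * (- T00 φ a b t) - T01 φ a b t * T10 φ a b t ≠ 0 := by
    have := det_T hab t
    intro h
    exact mul_ne_zero hφ ht (by rw [← this]; linear_combination h)
  exact ⟨glOf _ _ _ _ hd, rfl, rfl, rfl, rfl⟩

/-- `T(t) T(s) = - T(s') T(t)` with `s'` the reflection of `s`. -/
lemma T_conj {φ a b : F} (hab : a ^ 2 + φ * b ^ 2 = -φ) {t s : F × F × F} (ht : nrm φ t = 1)
    {G G' G'' : GL (Fin 2) F} (h : IsT φ a b G t) (h' : IsT φ a b G' s)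
    (h'' : IsT φ a b G'' (rfl3 φ t s)) : G * G' = G'' * G * sc := by
  obtain ⟨x, y, z⟩ := t
  obtain ⟨x', y', z'⟩ := s
  have e00 := h.h00
  have e01 := h.h01
  have e10 := h.h10
  have e11 := h.h11
  have f00 := h'.h00
  have f01 := h'.h01
  have f10 := h'.h10
  have f11 := h'.h11
  have g00 := h''.h00
  have g01 := h''.h01
  have g10 := h''.h10
  have g11 := h''.h11
  simp only [T00, T01, T10, rfl3, bil, nrm] at *
  apply gl_ext <;> rw [mul_sc_apply, gl_mul_apply, gl_mul_apply] <;>
    simp only [e00, e01, e10, e11, f00, f01, f10, f11, g00, g01, g10, g11]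
  all_goals grind

lemma T_inj {φ a b : F} (hφ : φ ≠ 0) (hab : a ^ 2 + φ * b ^ 2 = -φ) (h2 : (2 : F) ≠ 0) {t : F × F × F}
    (h0 : T00 φ a b t = 0) (h1 : T01 φ a b t = 0) (h3 : T10 φ a b t = 0) : t = (0, 0, 0) := by
  obtain ⟨x, y, z⟩ := t
  simp only [T00, T01, T10] at h0 h1 h3
  have e1 : y * b - z * a = 0 := by
    apply mul_left_cancel₀ (mul_ne_zero h2 hφ)
    linear_combination h3 + φ * h1
  have e2 : x = 0 := by linear_combination h1 - e1
  have e3 : y = 0 := by
    apply mul_left_cancel₀ hφ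
    grind
  have e4 : z = 0 := by
    apply mul_left_cancel₀ hφ
    grind
  simp [e2, e3, e4]

lemma T_sq_one {φ a b : F} (hab : a ^ 2 + φ * b ^ 2 = -φ) {t : F × F × F} (ht : nrm φ t = 1)
    {G : GL (Fin 2) F} (h : IsT φ a b G t) : ProjGenLinGroup.mk G * ProjGenLinGroup.mk G = 1 := by
  rw [← map_mul]
  have hd := det_T hab t
  rw [ht, mul_one] at hd
  apply scalar_of_entries <;> simp only [gl_mul_apply, h.h00, h.h01, h.h10, h.h11]
  · ring
  · ring
  · ring

lemma T_conj' {φ a b : F} (hab : a ^ 2 + φ * b ^ 2 = -φ) {t s : F × F × F} (ht : nrm φ t = 1)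
    {G G' G'' : GL (Fin 2) F} (h : IsT φ a b G t) (h' : IsT φ a b G' s)
    (h'' : IsT φ a b G'' (rfl3 φ t s)) :
    ProjGenLinGroup.mk G * ProjGenLinGroup.mk G' * (ProjGenLinGroup.mk G)⁻¹ = ProjGenLinGroup.mk G'' := by
  rw [mul_inv_eq_iff_eq_mul, ← map_mul, ← map_mul, T_conj hab ht h h' h'', map_mul]
  simp [sc]

lemma nrm_rfl3 {φ : F} {t s : F × F × F} (ht : nrm φ t = 1) : nrm φ (rfl3 φ t s) = nrm φ s := by
  obtain ⟨x, y, z⟩ := t
  obtain ⟨x', y', z'⟩ := s
  simp only [nrm, rfl3, bil] at *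
  grind

/-- A form with a non-zero discriminant represents `1`. -/
lemma exists_vec [Fintype F] (hodd : Fintype.card F % 2 = 1) (h2 : (2 : F) ≠ 0) {φ u v w : F}
    (hφ : φ ≠ 0) (hd : -u ^ 2 - v * w = φ) :
    ∃ v₁ v₂ : F, -w * v₁ ^ 2 + 2 * u * v₁ * v₂ + v * v₂ ^ 2 = 1 := by
  by_cases hv : v = 0
  · have hu : u ≠ 0 := by
      rintro rfl
      apply hφ
      rw [← hd, hv]
      ring
    refine ⟨1, (1 + w) / (2 * u), ?_⟩
    rw [hv]
    field_simp
    ring
  · have h1 : Polynomial.degree (Polynomial.X ^ 2 : Polynomial F) = 2 := Polynomial.degree_X_pow 2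
    have h0 : Polynomial.degree (Polynomial.C φ * Polynomial.X ^ 2 : Polynomial F) = 2 :=
      Polynomial.degree_C_mul_X_pow 2 hφ
    have h3 : Polynomial.degree (Polynomial.C φ * Polynomial.X ^ 2 - Polynomial.C v : Polynomial F) = 2 := by
      rw [Polynomial.degree_sub_eq_left_of_degree_lt (by
        rw [h0]
        exact lt_of_le_of_lt Polynomial.degree_C_le (by norm_num)), h0]
    obtain ⟨e, f, h⟩ := FiniteField.exists_root_sum_quadratic h1 h3 hodd
    simp only [Polynomial.eval_mul, Polynomial.eval_C, Polynomial.eval_pow, Polynomial.eval_X,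
      Polynomial.eval_sub] at h
    refine ⟨f, (e - u * f) / v, ?_⟩
    field_simp
    rw [← hd] at h
    linear_combination h

end Forms

section Main

variable {F : Type*} [Field F] {φ a b : F}

/-- The generators. -/
def gens (φ a b : F) (S : Set (F × F × F)) : Set (ProjGenLinGroup (Fin 2) F) :=
  {g | ∃ t ∈ S, ∃ G, IsT φ a b G t ∧ g = ProjGenLinGroup.mk G}

lemma conj_closure (hφ : φ ≠ 0) (hab : a ^ 2 + φ * b ^ 2 = -φ) {S : Set (F × F × F)}
    (hSn : ∀ t ∈ S, nrm φ t = 1) (hSr : ∀ t ∈ S, ∀ s ∈ S, rfl3 φ t s ∈ S)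
    {g : ProjGenLinGroup (Fin 2) F} (hg : g ∈ Subgroup.closure (gens φ a b S)) :
    ∀ s ∈ S, ∀ G', IsT φ a b G' s → ∃ s' ∈ S, ∃ G'', IsT φ a b G'' s' ∧
      g * ProjGenLinGroup.mk G' * g⁻¹ = ProjGenLinGroup.mk G'' := by
  have key : ∀ x ∈ gens φ a b S, ∀ s ∈ S, ∀ G', IsT φ a b G' s → ∃ s' ∈ S, ∃ G'', IsT φ a b G'' s' ∧
      x * ProjGenLinGroup.mk G' * x⁻¹ = ProjGenLinGroup.mk G'' := by
    rintro x ⟨t, ht, G, hG, rfl⟩ s hs G' hG'
    have h1 := hSr t ht s hs
    obtain ⟨G'', hG''⟩ := exists_isT hφ hab (t := rfl3 φ t s) (by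
      rw [hSn _ h1]; exact one_ne_zero)
    exact ⟨_, h1, G'', hG'', T_conj' hab (hSn t ht) hG hG' hG''⟩
  have hinv : ∀ x ∈ gens φ a b S, x⁻¹ = x := by
    rintro x ⟨t, ht, G, hG, rfl⟩
    exact inv_eq_of_mul_eq_one_left (T_sq_one hab (hSn t ht) hG)
  induction hg using Subgroup.closure_induction_left with
  | one =>
    intro s hs G' hG'
    exact ⟨s, hs, G', hG', by simp⟩
  | mul_left x hx y hy ih =>
    intro s hs G' hG'
    obtain ⟨s₁, hs₁, G₁, hG₁, e₁⟩ := ih s hs G' hG'
    obtain ⟨s₂, hs₂, G₂, hG₂, e₂⟩ := key x hx s₁ hs₁ G₁ hG₁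
    refine ⟨s₂, hs₂, G₂, hG₂, ?_⟩
    rw [← e₂, ← e₁]
    group
  | inv_mul_cancel x hx y hy ih =>
    intro s hs G' hG'
    obtain ⟨s₁, hs₁, G₁, hG₁, e₁⟩ := ih s hs G' hG'
    obtain ⟨s₂, hs₂, G₂, hG₂, e₂⟩ := key x hx s₁ hs₁ G₁ hG₁
    refine ⟨s₂, hs₂, G₂, hG₂, ?_⟩
    rw [← e₂, ← e₁]
    conv_lhs => rw [hinv x hx]
    group

/-- If the closure contains `PSL₂` then all the unit vectors are in `S`. -/
lemma all_of_Lp [Fintype F] [DecidableEq F] (hodd : Fintype.card F % 2 = 1) (h2 : (2 : F) ≠ 0)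
    (hφ : φ ≠ 0) (hab : a ^ 2 + φ * b ^ 2 = -φ) {S : Set (F × F × F)}
    (hSn : ∀ t ∈ S, nrm φ t = 1) (hSr : ∀ t ∈ S, ∀ s ∈ S, rfl3 φ t s ∈ S)
    (h1 : ((1 : F), (0 : F), (0 : F)) ∈ S)
    (hL : Lp F ≤ Subgroup.closure (gens φ a b S)) {t : F × F × F} (ht : nrm φ t = 1) : t ∈ S := by
  obtain ⟨X, hX⟩ := exists_isT hφ hab (t := t) (by rw [ht]; exact one_ne_zero)
  have hd := det_T hab t
  rw [ht, mul_one] at hd
  obtain ⟨v₁, v₂, hv⟩ := exists_vec hodd h2 hφ hd
  have hdet : (T00 φ a b t * v₁ + T01 φ a b t * v₂) * v₂ - v₁ * (T10 φ a b t * v₁ - T00 φ a b t * v₂) ≠ 0 := by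
    have : (T00 φ a b t * v₁ + T01 φ a b t * v₂) * v₂ - v₁ * (T10 φ a b t * v₁ - T00 φ a b t * v₂) = 1 := by
      linear_combination hv
    rw [this]
    exact one_ne_zero
  let P : GL (Fin 2) F := glOf _ _ _ _ hdet
  have hP : ProjGenLinGroup.mk P ∈ Lp F := by
    rw [mk_mem_Lp_iff, Matrix.det_fin_two]
    refine ⟨1, ?_⟩
    change (T00 φ a b t * v₁ + T01 φ a b t * v₂) * v₂ - v₁ * (T10 φ a b t * v₁ - T00 φ a b t * v₂) = 1 * 1
    linear_combination hv
  obtain ⟨A, hA⟩ := exists_isT hφ hab (t := ((1 : F), (0 : F), (0 : F))) (by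
    rw [hSn _ h1]; exact one_ne_zero)
  obtain ⟨s', hs', G'', hG'', e⟩ := conj_closure hφ hab hSn hSr (hL hP) _ h1 A hA
  have e2 : ProjGenLinGroup.mk P * ProjGenLinGroup.mk A * (ProjGenLinGroup.mk P)⁻¹ = ProjGenLinGroup.mk X := by
    rw [mul_inv_eq_iff_eq_mul, ← map_mul, ← map_mul]
    congr 1
    have a00 := hA.h00
    have a01 := hA.h01
    have a10 := hA.h10
    have a11 := hA.h11
    simp only [T00, T01, T10] at a00 a01 a10 a11
    apply gl_ext <;> rw [gl_mul_apply, gl_mul_apply] <;>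
      simp only [a00, a01, a10, a11, hX.h00, hX.h01, hX.h10, hX.h11] <;>
      simp only [P, glOf_00, glOf_01, glOf_10, glOf_11] <;> grind
  rw [e2] at e
  obtain ⟨u, hu⟩ := ProjGenLinGroup.mk_eq_mk_iff.1 e
  have hs'n := hSn _ hs'
  have hsum : (s'.1 - t.1 * u, s'.2.1 - t.2.1 * u, s'.2.2 - t.2.2 * u) = ((0 : F), (0 : F), (0 : F)) := by
    apply T_inj hφ hab h2
    · have := congrArg (fun M : GL (Fin 2) F => M 0 0) hu
      simp only [mul_scalar_apply, hX.h00, hG''.h00] at this
      simp only [T00] at this ⊢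
      linear_combination -this
    · have := congrArg (fun M : GL (Fin 2) F => M 0 1) hu
      simp only [mul_scalar_apply, hX.h01, hG''.h01] at this
      simp only [T01] at this ⊢
      linear_combination -this
    · have := congrArg (fun M : GL (Fin 2) F => M 1 0) hu
      simp only [mul_scalar_apply, hX.h10, hG''.h10] at this
      simp only [T10] at this ⊢
      linear_combination -this
  simp only [Prod.mk.injEq] at hsum
  obtain ⟨e1, e3, e4⟩ := hsum
  have hu2 : (u : F) ^ 2 = 1 := by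
    obtain ⟨x, y, z⟩ := t
    obtain ⟨x', y', z'⟩ := s'
    simp only [nrm] at ht hs'n e1 e3 e4
    have e1' : x' = x * u := by linear_combination e1
    have e3' : y' = y * u := by linear_combination e3
    have e4' : z' = z * u := by linear_combination e4
    rw [e1', e3', e4'] at hs'n
    linear_combination hs'n - (u : F) ^ 2 * ht
  have hu3 : ((u : F) - 1) * ((u : F) + 1) = 0 := by linear_combination hu2
  rcases mul_eq_zero.1 hu3 with hu4 | hu4
  · have hu5 : (u : F) = 1 := by linear_combination hu4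
    rw [hu5, mul_one] at e1 e3 e4
    have : t = s' := by
      ext
      · linear_combination -e1
      · linear_combination -e3
      · linear_combination -e4
    rw [this]
    exact hs'
  · have hu5 : (u : F) = -1 := by linear_combination hu4
    rw [hu5] at e1 e3 e4
    have h5 := hSr s' hs' s' hs'
    have hb : bil φ s' s' = 1 := by
      rw [← hs'n]
      simp only [bil, nrm]
      ring
    have : t = rfl3 φ s' s' := by
      simp only [rfl3, hb]
      ext
      · linear_combination e1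
      · linear_combination e3
      · linear_combination e4
    rw [this]
    exact h5

set_option maxRecDepth 100000 in
lemma A4_pow' : ∀ x : alternatingGroup (Fin 4), x = 1 ∨ x ^ 2 = 1 ∨ x ^ 3 = 1 := by decide

set_option maxRecDepth 100000 in
lemma S4_pow' : ∀ x : Equiv.Perm (Fin 4), x = 1 ∨ x ^ 2 = 1 ∨ x ^ 3 = 1 ∨ x ^ 4 = 1 := by decide

lemma conj_lin {E : Type*} [Field E] (c A B W : GL (Fin 2) E) {x y z : E}
    (hWe : ∀ i j, W i j = x * A i j + y * B i j + z * (A i 0 * B 0 j + A i 1 * B 1 j)) (i j : Fin 2) :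
    (c⁻¹ * W * c) i j = x * (c⁻¹ * A * c) i j + y * (c⁻¹ * B * c) i j +
      z * ((c⁻¹ * A * c) i 0 * (c⁻¹ * B * c) 0 j + (c⁻¹ * A * c) i 1 * (c⁻¹ * B * c) 1 j) := by
  rw [← gl_mul_apply (c⁻¹ * A * c)]
  have e : (c⁻¹ * A * c) * (c⁻¹ * B * c) = c⁻¹ * (A * B) * c := by group
  rw [e]
  simp only [gl_mul_apply, hWe]
  ring

lemma anti_map {E : Type*} [Field E] [Algebra F E] {A B : GL (Fin 2) F} (h : A * B = B * A * sc) :
    (GeneralLinearGroup.map (algebraMap F E) A) * (GeneralLinearGroup.map (algebraMap F E) B) =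
      (GeneralLinearGroup.map (algebraMap F E) B) * (GeneralLinearGroup.map (algebraMap F E) A) * sc := by
  have e : ∀ i j, (GeneralLinearGroup.map (algebraMap F E) A * GeneralLinearGroup.map (algebraMap F E) B) i j =
      ((GeneralLinearGroup.map (algebraMap F E) B) * (GeneralLinearGroup.map (algebraMap F E) A) * (sc : GL (Fin 2) E)) i j := by
    intro i j
    rw [mul_sc_apply, gl_mul_apply, gl_mul_apply]
    simp only [map_entry]
    rw [← map_mul, ← map_mul, ← map_mul, ← map_mul, ← map_add, ← map_add, anti_apply h, map_neg]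
  apply gl_ext <;> exact e _ _

/-- **The abstract Dickson theorem.** -/
theorem dickson_frame {p : ℕ} [Fact p.Prime] [CharP F p] [Fintype F] [DecidableEq F]
    (hcard : Fintype.card F = p) (hp2 : p ≠ 2) (hp3 : p ≠ 3) (hφ : φ ≠ 0)
    (hab : a ^ 2 + φ * b ^ 2 = -φ) {S : Set (F × F × F)}
    (hSn : ∀ t ∈ S, nrm φ t = 1) (hSr : ∀ t ∈ S, ∀ s ∈ S, rfl3 φ t s ∈ S)
    (h1 : ((1 : F), (0 : F), (0 : F)) ∈ S) (h2' : ((0 : F), (1 : F), (0 : F)) ∈ S)
    {x y z : F} (hw : (x, y, z) ∈ S) (hx : x ≠ 0) (hy : y ≠ 0) (hz : z ≠ 0) :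
    (∀ t, nrm φ t = 1 → t ∈ S) ∨ (4 * x ^ 2 - 1) * (2 * x ^ 2 - 1) * (16 * x ^ 4 - 12 * x ^ 2 + 1) = 0 := by
  classical
  let E := AlgebraicClosure F
  haveI : CharP E p := charP_of_injective_algebraMap (algebraMap F E).injective p
  have hpp := (Fact.out : p.Prime)
  have h2F : (2 : F) ≠ 0 := by
    intro h
    have h3 : ((2 : ℕ) : F) = 0 := by exact_mod_cast h
    rw [CharP.cast_eq_zero_iff F p 2] at h3
    exact hp2 ((Nat.prime_dvd_prime_iff_eq hpp Nat.prime_two).1 h3)
  have h2E : (2 : E) ≠ 0 := by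
    intro h
    apply h2F
    apply (algebraMap F E).injective
    rw [map_zero, map_ofNat]
    exact h
  have hodd : Fintype.card F % 2 = 1 := by
    rw [hcard]
    rcases hpp.eq_two_or_odd with h | h
    · exact absurd h hp2
    · exact h
  have hn1 := hSn _ h1
  have hn2 := hSn _ h2'
  have hnw := hSn _ hw
  obtain ⟨A, hA⟩ := exists_isT hφ hab (t := ((1 : F), (0 : F), (0 : F))) (by rw [hn1]; exact one_ne_zero)
  obtain ⟨B, hB⟩ := exists_isT hφ hab (t := ((0 : F), (1 : F), (0 : F))) (by rw [hn2]; exact one_ne_zero)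
  obtain ⟨W, hW⟩ := exists_isT hφ hab (t := (x, y, z)) (by rw [hnw]; exact one_ne_zero)
  have hAU : ProjGenLinGroup.mk A ∈ Subgroup.closure (gens φ a b S) :=
    Subgroup.subset_closure ⟨_, h1, A, hA, rfl⟩
  have hBU : ProjGenLinGroup.mk B ∈ Subgroup.closure (gens φ a b S) :=
    Subgroup.subset_closure ⟨_, h2', B, hB, rfl⟩
  have hWU : ProjGenLinGroup.mk W ∈ Subgroup.closure (gens φ a b S) :=
    Subgroup.subset_closure ⟨_, hw, W, hW, rfl⟩
  have hanti : A * B = B * A * sc := by
    have e : rfl3 φ ((1 : F), (0 : F), (0 : F)) ((0 : F), (1 : F), (0 : F)) = ((0 : F), (1 : F), (0 : F)) := by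
      simp [rfl3, bil]
    exact T_conj hab hn1 hA hB (e.symm ▸ hB)
  have a00 := hA.h00
  have a01 := hA.h01
  have a10 := hA.h10
  have a11 := hA.h11
  have b00 := hB.h00
  have b01 := hB.h01
  have b10 := hB.h10
  have b11 := hB.h11
  have w00 := hW.h00
  have w01 := hW.h01
  have w10 := hW.h10
  have w11 := hW.h11
  simp only [T00, T01, T10, mul_zero, zero_mul, zero_add, add_zero, sub_zero, neg_zero, mul_one, one_mul] at a00 a01 a10 a11 b00 b01 b10 b11
  simp only [T00, T01, T10] at w00 w01 w10 w11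
  -- the generic vector in `E`
  have hWe : ∀ i j, W i j = x * A i j + y * B i j + z * (A i 0 * B 0 j + A i 1 * B 1 j) := by
    intro i j
    fin_cases i <;> fin_cases j <;> simp only [Fin.zero_eta, Fin.mk_one, Fin.isValue] <;>
      simp only [a00, a01, a10, a11, b00, b01, b10, b11, w00, w01, w10, w11] <;> ring
  set AE := GeneralLinearGroup.map (algebraMap F E) A with hAE
  set BE := GeneralLinearGroup.map (algebraMap F E) B with hBE
  set WE := GeneralLinearGroup.map (algebraMap F E) W with hWE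
  have hantiE : AE * BE = BE * AE * sc := anti_map hanti
  have hWeE : ∀ i j, WE i j = algebraMap F E x * AE i j + algebraMap F E y * BE i j +
      algebraMap F E z * (AE i 0 * BE 0 j + AE i 1 * BE 1 j) := by
    intro i j
    simp only [hAE, hBE, hWE, map_entry]
    rw [hWe]
    simp only [map_add, map_mul]
  have hinj := (algebraMap F E).injective
  have hxE : algebraMap F E x ≠ 0 := by simpa using hx
  have hyE : algebraMap F E y ≠ 0 := by simpa using hy
  have hzE : algebraMap F E z ≠ 0 := by simpa using hz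
  have hU3 : ∀ g ∈ Subgroup.closure (gens φ a b S), ∀ (hall : ∀ u : Subgroup.closure (gens φ a b S),
      u = 1 ∨ u ^ 2 = 1 ∨ u ^ 3 = 1 ∨ u ^ 4 = 1 ∨ u ^ 5 = 1),
      g = 1 ∨ g ^ 2 = 1 ∨ g ^ 3 = 1 ∨ g ^ 4 = 1 ∨ g ^ 5 = 1 := by
    intro g hg hall
    rcases hall ⟨g, hg⟩ with h | h | h | h | h
    · left
      exact congrArg Subtype.val h
    · right; left
      exact congrArg Subtype.val h
    · right; right; left
      exact congrArg Subtype.val h
    · right; right; right; left
      exact congrArg Subtype.val h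
    · right; right; right; right
      exact congrArg Subtype.val h
  rcases precise_pgl (E := E) (p := p) (Subgroup.closure (gens φ a b S)) with
    ⟨ω, hω⟩ | ⟨a', b', hab', -, hpair⟩ | ⟨-, hiso⟩ | ⟨hp, -⟩ | ⟨C, F₀, -, hC⟩
  · -- a fixed point
    exfalso
    exact no_common_fix h2E hantiE (hω _ hAU) (hω _ hBU)
  · -- a pair
    exfalso
    obtain ⟨c, hc1, hc2⟩ := exists_smul_infty_zero hab'
    have dA := dg_of_pair hc1 hc2 (hpair _ hAU)
    have dB := dg_of_pair hc1 hc2 (hpair _ hBU)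
    have dW := dg_of_pair hc1 hc2 (hpair _ hWU)
    have h3 := anti_conj hantiE c
    refine dg_contra h2E dA dB dW h3 hxE hyE hzE ?_
    intro i j
    rw [gl_mul_apply (c⁻¹ * AE * c)]
    exact conj_lin c AE BE WE hWeE i j
  · -- polyhedral
    right
    have hall : ∀ u : Subgroup.closure (gens φ a b S),
        u = 1 ∨ u ^ 2 = 1 ∨ u ^ 3 = 1 ∨ u ^ 4 = 1 ∨ u ^ 5 = 1 := by
      intro u
      rcases hiso with ⟨⟨e⟩⟩ | ⟨⟨e⟩⟩ | ⟨⟨e⟩⟩
      · rcases A4_pow' (e u) with h | h | h
        · left; exact e.injective (by rw [h, map_one])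
        · right; left; exact e.injective (by rw [map_pow, h, map_one])
        · right; right; left; exact e.injective (by rw [map_pow, h, map_one])
      · rcases S4_pow' (e u) with h | h | h | h
        · left; exact e.injective (by rw [h, map_one])
        · right; left; exact e.injective (by rw [map_pow, h, map_one])
        · right; right; left; exact e.injective (by rw [map_pow, h, map_one])
        · right; right; right; left; exact e.injective (by rw [map_pow, h, map_one])
      · rcases A5_pow (e u) with h | h | h | h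
        · left; exact e.injective (by rw [h, map_one])
        · right; left; exact e.injective (by rw [map_pow, h, map_one])
        · right; right; left; exact e.injective (by rw [map_pow, h, map_one])
        · right; right; right; right; exact e.injective (by rw [map_pow, h, map_one])
    have hZU : ProjGenLinGroup.mk (A * W) ∈ Subgroup.closure (gens φ a b S) := by
      rw [map_mul]
      exact Subgroup.mul_mem _ hAU hWU
    have hZne : ProjGenLinGroup.mk (A * W) ≠ 1 := by
      intro h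
      obtain ⟨e1, e2, e3⟩ := entries_of_scalar h
      simp only [gl_mul_apply, a00, a01, a10, a11, w00, w01, w10, w11] at e1 e2 e3
      have e4 : y * a + z * (φ * b) = 0 := by linear_combination -e2
      have e5 : y * b - z * a = 0 := by
        apply mul_left_cancel₀ (mul_ne_zero h2F hφ)
        linear_combination e3
      have e6 : y = 0 := by
        apply mul_left_cancel₀ hφ
        grind
      exact hy e6
    have htr : (A * W) 0 0 + (A * W) 1 1 = -2 * φ * x := by
      simp only [gl_mul_apply, a00, a01, a10, a11, w00, w01, w10, w11]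
      ring
    have hdet : (A * W) 0 0 * (A * W) 1 1 - (A * W) 0 1 * (A * W) 1 0 = φ ^ 2 := by
      have hd := det_T hab (x, y, z)
      rw [hnw, mul_one] at hd
      simp only [T00, T01, T10] at hd
      simp only [gl_mul_apply, a00, a01, a10, a11, w00, w01, w10, w11]
      linear_combination φ * hd
    have hφ2 : φ ^ 2 ≠ 0 := pow_ne_zero 2 hφ
    rcases hU3 _ hZU hall with h | h | h | h | h
    · exact absurd h hZne
    · exfalso
      have := alpha_eq_zero hZne (n := 1) h
      rw [htr, hdet] at this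
      simp only [alpha] at this
      apply mul_ne_zero (mul_ne_zero h2F hφ) hx
      linear_combination -this
    · have := alpha_eq_zero hZne (n := 2) h
      rw [htr, hdet] at this
      simp only [alpha] at this
      have e : 4 * x ^ 2 - 1 = 0 := by
        apply mul_left_cancel₀ hφ2
        linear_combination this
      rw [e, zero_mul, zero_mul]
    · have := alpha_eq_zero hZne (n := 3) h
      rw [htr, hdet] at this
      simp only [alpha] at this
      have e : 2 * x ^ 2 - 1 = 0 := by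
        apply mul_left_cancel₀ (mul_ne_zero (pow_ne_zero 3 hφ) (mul_ne_zero (mul_ne_zero h2F h2F) hx))
        linear_combination -this
      rw [e, mul_zero, zero_mul]
    · have := alpha_eq_zero hZne (n := 4) h
      rw [htr, hdet] at this
      simp only [alpha] at this
      have e : 16 * x ^ 4 - 12 * x ^ 2 + 1 = 0 := by
        apply mul_left_cancel₀ (pow_ne_zero 4 hφ)
        linear_combination this
      rw [e, mul_zero]
  · exact absurd hp hp3
  · -- subfield case
    left
    have hF₀ : F₀ = ⊤ := by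
      obtain ⟨m, hm, hc⟩ := exists_card_pow F₀
      rw [hcard] at hc
      have := (Nat.Prime.pow_eq_iff hpp).1 hc
      apply eq_top_of_card
      rw [hcard]
      exact this.1
    intro t ht
    refine all_of_Lp hodd h2F hφ hab hSn hSr h1 ?_ ht
    subst hF₀
    rcases hC with hC | hC
    · rw [hC, φ₀_top, map_conj_top]
      exact le_top
    · rw [hC, φ₁_top, map_conj_Lp]

end Main

end Cfsg.Agent.Lib.OmFrame.Dick
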