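/-
Closed systems of unit vectors in a coordinate space over a prime field.
-/
import Cfsg.Agent.Lib.OmFrame.Dick

set_option autoImplicit false
set_option linter.unusedSectionVars false
set_option linter.style.haveILetI false
set_option linter.unusedVariables false

open Matrix

namespace Cfsg.Agent.Lib.OmFrame.Vec

open Cfsg.Agent.Lib.OmFrame.Dick

variable {ι F : Type*} [Fintype ι] [DecidableEq ι] [Field F]

/-- The reflection in a unit vector. -/
def R (a b : ι → F) : ι → F := b - (2 * (a ⬝ᵥ b)) • a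

/-- A closed system of unit vectors. -/
structure CS (Λ : Set (ι → F)) : Prop where
  unit : ∀ a ∈ Λ, a ⬝ᵥ a = 1
  frame : ∀ i, Pi.single i 1 ∈ Λ
  refl : ∀ a ∈ Λ, ∀ b ∈ Λ, R a b ∈ Λ
  perm : ∀ σ : Equiv.Perm ι, Equiv.Perm.sign σ = 1 → ∀ a ∈ Λ, (a ∘ σ) ∈ Λ

/-- The zero-sum condition. -/
def HasZ (Λ : Set (ι → F)) : Prop :=
  ∃ x ∈ Λ, ∃ B : Finset ι, ∑ i ∈ B, x i ^ 2 = 0 ∧ ∃ i ∈ B, x i ≠ 0

/-- The polynomial of the polyhedral groups. -/
def P0 (t : F) : F := (4 * t - 1) * (2 * t - 1) * (16 * t ^ 2 - 12 * t + 1)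

lemma dot_self_eq (a : ι → F) : a ⬝ᵥ a = ∑ i, a i ^ 2 := by
  simp [dotProduct, sq]

lemma R_apply (a b : ι → F) (i : ι) : R a b i = b i - 2 * (a ⬝ᵥ b) * a i := by
  simp [R]

lemma R_self {a : ι → F} (h : a ⬝ᵥ a = 1) : R a a = -a := by
  ext i
  simp only [R_apply, h, Pi.neg_apply]
  ring

variable {Λ : Set (ι → F)}

lemma CS.neg (h : CS Λ) {a : ι → F} (ha : a ∈ Λ) : -a ∈ Λ := by
  rw [← R_self (h.unit a ha)]
  exact h.refl a ha a ha

/-- The flip of a coordinate. -/
lemma CS.flip (h : CS Λ) {a : ι → F} (ha : a ∈ Λ) (u : ι) :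
    (fun i => if i = u then - a i else a i) ∈ Λ := by
  have h1 := h.refl _ (h.frame u) a ha
  convert h1 using 1
  ext i
  rw [R_apply, single_one_dotProduct]
  by_cases hi : i = u
  · subst hi
    simp
    ring
  · simp [hi]

/-- A coordinate with square one in a vector with at least two coordinates. -/
lemma CS.coord_one (h : CS Λ) {x : ι → F} (hx : x ∈ Λ) {i j : ι} (hij : j ≠ i) (hi : x i ^ 2 = 1)
    (hj : x j ≠ 0) : HasZ Λ := by
  refine ⟨x, hx, Finset.univ.erase i, ?_, j, by simp [hij], hj⟩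
  rw [Finset.sum_erase_eq_sub (Finset.mem_univ i), ← dot_self_eq, h.unit x hx, hi, sub_self]

/-- In a prime field every element is a natural number. -/
lemma natCast_surj {p : ℕ} [Fact p.Prime] [CharP F p] [Fintype F] (hcard : Fintype.card F = p) (a : F) :
    ∃ n : ℕ, (n : F) = a := by
  have hpp := (Fact.out : p.Prime)
  haveI : NeZero p := ⟨hpp.ne_zero⟩
  let f : ZMod p →+* F := ZMod.castHom (dvd_refl p) F
  have hbij : Function.Bijective f :=
    (Fintype.bijective_iff_injective_and_card f).2 ⟨f.injective, by rw [ZMod.card, hcard]⟩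
  obtain ⟨x, rfl⟩ := hbij.2 a
  refine ⟨x.val, ?_⟩
  have : ((x.val : ℕ) : ZMod p) = x := ZMod.natCast_zmod_val x
  conv_rhs => rw [← this]
  exact (map_natCast f x.val).symm

/-- A binary form with non-zero coefficients is universal. -/
lemma exists_binary [Fintype F] (hodd : Fintype.card F % 2 = 1) {s φ : F} (hs : s ≠ 0) (hφ : φ ≠ 0) (c : F) :
    ∃ u v : F, s * u ^ 2 + φ * v ^ 2 = c := by
  have h1 : Polynomial.degree (Polynomial.C s * Polynomial.X ^ 2 : Polynomial F) = 2 :=
    Polynomial.degree_C_mul_X_pow 2 hs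
  have h0 : Polynomial.degree (Polynomial.C φ * Polynomial.X ^ 2 : Polynomial F) = 2 :=
    Polynomial.degree_C_mul_X_pow 2 hφ
  have h3 : Polynomial.degree (Polynomial.C φ * Polynomial.X ^ 2 - Polynomial.C c : Polynomial F) = 2 := by
    rw [Polynomial.degree_sub_eq_left_of_degree_lt (by
      rw [h0]
      exact lt_of_le_of_lt Polynomial.degree_C_le (by norm_num)), h0]
  obtain ⟨e, f, h⟩ := FiniteField.exists_root_sum_quadratic h1 h3 hodd
  simp only [Polynomial.eval_mul, Polynomial.eval_C, Polynomial.eval_pow, Polynomial.eval_X,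
    Polynomial.eval_sub] at h
  exact ⟨e, f, by linear_combination h⟩

section Conv

variable {x y : ι → F}

/-- The transvection as a product of two reflections. -/
lemma R_R (hxx : x ⬝ᵥ x = 1) (hxy : x ⬝ᵥ y = 1) (hyy : y ⬝ᵥ y = 1) (u : ι → F) :
    R x (R y u) = u + (2 * (x ⬝ᵥ u)) • (x - y) - (2 * ((x - y) ⬝ᵥ u)) • x -
      (2 * ((x - y) ⬝ᵥ u)) • (x - y) := by
  have e1 : x ⬝ᵥ (u - (2 * (y ⬝ᵥ u)) • y) = x ⬝ᵥ u - 2 * (y ⬝ᵥ u) := by
    rw [dotProduct_sub, dotProduct_smul, hxy, smul_eq_mul, mul_one]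
  have e2 : (x - y) ⬝ᵥ u = x ⬝ᵥ u - y ⬝ᵥ u := sub_dotProduct x y u
  ext i
  simp only [R, e1, e2, Pi.sub_apply, Pi.add_apply, Pi.smul_apply, smul_eq_mul]
  ring

/-- The unipotent family. -/
def Ek (x y : ι → F) (k : F) (t : ι → F) : ι → F :=
  t + (2 * k * (x ⬝ᵥ t)) • (x - y) - (2 * k * ((x - y) ⬝ᵥ t)) • x - (2 * k ^ 2 * ((x - y) ⬝ᵥ t)) • (x - y)

lemma Ek_succ (hxx : x ⬝ᵥ x = 1) (hxy : x ⬝ᵥ y = 1) (hyy : y ⬝ᵥ y = 1) (k : F) (t : ι → F) :
    R x (R y (Ek x y k t)) = Ek x y (k + 1) t := by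
  rw [R_R hxx hxy hyy]
  have z1 : x ⬝ᵥ (x - y) = 0 := by rw [dotProduct_sub, hxx, hxy, sub_self]
  have z2 : (x - y) ⬝ᵥ x = 0 := by rw [dotProduct_comm, z1]
  have z3 : (x - y) ⬝ᵥ (x - y) = 0 := by
    rw [dotProduct_sub, z2, sub_dotProduct, hyy, hxy]
    ring
  have e1 : x ⬝ᵥ Ek x y k t = x ⬝ᵥ t - 2 * k * ((x - y) ⬝ᵥ t) := by
    unfold Ek
    generalize x - y = z at z1 z2 z3 ⊢
    simp only [dotProduct_sub, dotProduct_add, dotProduct_smul, z1, hxx, smul_eq_mul]
    ring
  have e2 : (x - y) ⬝ᵥ Ek x y k t = (x - y) ⬝ᵥ t := by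
    unfold Ek
    generalize x - y = z at z1 z2 z3 ⊢
    simp only [dotProduct_sub, dotProduct_add, dotProduct_smul, z2, z3, smul_eq_mul]
    ring
  rw [e1, e2]
  ext i
  simp only [Ek, Pi.sub_apply, Pi.add_apply, Pi.smul_apply, smul_eq_mul]
  ring

lemma Ek_mem (h : CS Λ) (hx : x ∈ Λ) (hy : y ∈ Λ) (hxy : x ⬝ᵥ y = 1) {t : ι → F} (ht : t ∈ Λ) (n : ℕ) :
    Ek x y (n : F) t ∈ Λ := by
  induction n with
  | zero =>
    simpa [Ek] using ht
  | succ n ih =>
    rw [Nat.cast_succ, ← Ek_succ (h.unit x hx) hxy (h.unit y hy)]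
    exact h.refl _ hx _ (h.refl _ hy _ ih)

/-- Two unit vectors with inner product one. -/
lemma CS.conv {p : ℕ} [Fact p.Prime] [CharP F p] [Fintype F] (hcard : Fintype.card F = p) (h2 : (2 : F) ≠ 0)
    (h : CS Λ) (hx : x ∈ Λ) (hy : y ∈ Λ) (hxy : x ⬝ᵥ y = 1) (hne : x ≠ y) : HasZ Λ := by
  have hxx := h.unit x hx
  have hyy := h.unit y hy
  obtain ⟨l, hl⟩ : ∃ l, (x - y) l ≠ 0 := by
    by_contra hc
    push Not at hc
    exact hne (sub_eq_zero.1 (funext hc))
  obtain ⟨n, hn⟩ := natCast_surj hcard ((x - y) l)⁻¹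
  have hw := Ek_mem h hx hy hxy (h.frame l) n
  rw [hn] at hw
  set z := x - y with hz
  have z1 : x ⬝ᵥ z = 0 := by rw [hz, dotProduct_sub, hxx, hxy, sub_self]
  have z2 : z ⬝ᵥ x = 0 := by rw [dotProduct_comm, z1]
  have z3 : z ⬝ᵥ z = 0 := by
    rw [hz, dotProduct_sub, ← hz, z2, hz, sub_dotProduct, hyy, hxy]
    ring
  set w := Ek x y (z l)⁻¹ (Pi.single l 1) with hwdef
  have wl : w l = -1 := by
    simp only [hwdef, Ek, ← hz, Pi.sub_apply, Pi.add_apply, Pi.smul_apply, smul_eq_mul,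
      dotProduct_single_one, Pi.single_eq_same]
    field_simp
    ring
  have hzw : z ⬝ᵥ w = z l := by
    simp only [hwdef, Ek, ← hz, dotProduct_sub, dotProduct_add, dotProduct_smul, z2, z3, smul_eq_mul,
      dotProduct_single_one]
    ring
  by_contra hc
  have hall : ∀ j, j ≠ l → w j = 0 := by
    intro j hj
    by_contra h0
    exact hc (h.coord_one hw hj (by rw [wl]; ring) h0)
  have h3 : z ⬝ᵥ w = z l * w l := by
    simp only [dotProduct]
    apply Finset.sum_eq_single l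
    · intro j _ hj
      rw [hall j hj, mul_zero]
    · simp
  rw [hzw, wl] at h3
  apply mul_ne_zero h2 hl
  linear_combination h3

end Conv

section LemmaD

variable {p : ℕ} [Fact p.Prime] [CharP F p] [Fintype F]

/-- The embedding of the ternary space. -/
def Psi (i j : ι) (f : ι → F) (t : F × F × F) : ι → F :=
  t.1 • Pi.single i 1 + t.2.1 • Pi.single j 1 + t.2.2 • f

/-- The vector with two coordinates removed. -/
def cut (i j : ι) (w : ι → F) : ι → F := fun k => if k = i ∨ k = j then 0 else w k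

lemma cut_dot_single_left {i j : ι} {w : ι → F} : cut i j w ⬝ᵥ Pi.single i 1 = 0 := by
  rw [dotProduct_single_one]
  simp [cut]

lemma cut_dot_single_right {i j : ι} {w : ι → F} : cut i j w ⬝ᵥ Pi.single j 1 = 0 := by
  rw [dotProduct_single_one]
  simp [cut]

lemma single_dot_single {i j : ι} (hij : i ≠ j) : (Pi.single i 1 : ι → F) ⬝ᵥ Pi.single j 1 = 0 := by
  rw [dotProduct_single_one, Pi.single_eq_of_ne hij.symm]

lemma single_dot_self {i : ι} : (Pi.single i 1 : ι → F) ⬝ᵥ Pi.single i 1 = 1 := by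
  rw [dotProduct_single_one, Pi.single_eq_same]

lemma Psi_dot {i j : ι} (hij : i ≠ j) {f : ι → F} (h1 : f ⬝ᵥ Pi.single i 1 = 0)
    (h2 : f ⬝ᵥ Pi.single j 1 = 0) (t s : F × F × F) :
    Psi i j f t ⬝ᵥ Psi i j f s = bil (f ⬝ᵥ f) t s := by
  have h1' : (Pi.single i 1 : ι → F) ⬝ᵥ f = 0 := by rw [dotProduct_comm, h1]
  have h2' : (Pi.single j 1 : ι → F) ⬝ᵥ f = 0 := by rw [dotProduct_comm, h2]
  have h3 : (Pi.single j 1 : ι → F) ⬝ᵥ Pi.single i 1 = 0 := single_dot_single hij.symm
  simp only [Psi, bil, add_dotProduct, dotProduct_add, smul_dotProduct, dotProduct_smul, smul_eq_mul,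
    h1, h2, h1', h2', h3, single_dot_single hij, single_dot_self]
  ring

lemma Psi_R {i j : ι} (hij : i ≠ j) {f : ι → F} (h1 : f ⬝ᵥ Pi.single i 1 = 0)
    (h2 : f ⬝ᵥ Pi.single j 1 = 0) (t s : F × F × F) :
    R (Psi i j f t) (Psi i j f s) = Psi i j f (rfl3 (f ⬝ᵥ f) t s) := by
  have e : bil (f ⬝ᵥ f) t s = bil (f ⬝ᵥ f) s t := by
    simp only [bil]
    ring
  rw [R, Psi_dot hij h1 h2, e]
  ext k
  simp only [Psi, rfl3, Pi.sub_apply, Pi.add_apply, Pi.smul_apply, smul_eq_mul]
  ring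

/-- A point outside of a small set. -/
lemma exists_outside (A : Finset ι) (h : A.card < Fintype.card ι) : ∃ l, l ∉ A := by
  by_contra hc
  push Not at hc
  have : A = Finset.univ := Finset.eq_univ_of_forall hc
  rw [this, Finset.card_univ] at h
  exact lt_irrefl _ h

/-- Even permutations move a coordinate. -/
lemma CS.move (h : CS Λ) {v : ι → F} (hv : v ∈ Λ) {k l l' : ι} (hkl : k ≠ l) (hkl' : k ≠ l') (hll' : l ≠ l') :
    ∃ y ∈ Λ, y l' = v k ∧ y k = v l ∧ y l = v l' ∧ ∀ x, x ≠ k → x ≠ l → x ≠ l' → y x = v x := by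
  have hs : Equiv.Perm.sign (Equiv.swap k l * Equiv.swap l l') = 1 := by
    rw [Equiv.Perm.sign_mul, Equiv.Perm.sign_swap hkl, Equiv.Perm.sign_swap hll']
    simp
  refine ⟨_, h.perm _ hs v hv, ?_, ?_, ?_, ?_⟩
  · simp
  · simp only [Function.comp_apply, Equiv.Perm.mul_apply]
    rw [Equiv.swap_apply_of_ne_of_ne hkl hkl', Equiv.swap_apply_left]
  · simp only [Function.comp_apply, Equiv.Perm.mul_apply]
    rw [Equiv.swap_apply_left, Equiv.swap_apply_of_ne_of_ne hkl'.symm hll'.symm]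
  · intro x h1 h2 h3
    simp only [Function.comp_apply, Equiv.Perm.mul_apply]
    rw [Equiv.swap_apply_of_ne_of_ne h2 h3, Equiv.swap_apply_of_ne_of_ne h1 h2]

/-- The vector obtained by reflecting in a moved copy. -/
lemma CS.moved_vec (h : CS Λ) {v : ι → F} (hv : v ∈ Λ) {k l l' : ι} (hkl : k ≠ l) (hkl' : k ≠ l')
    (hll' : l ≠ l') (hl : v l = 0) (hl' : v l' = 0) :
    ∃ w ∈ Λ, w k = v k ∧ w l' = -2 * (1 - v k ^ 2) * v k ∧
      ∀ x, x ≠ k → x ≠ l → x ≠ l' → w x = v x * (2 * v k ^ 2 - 1) := by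
  obtain ⟨y, hy, y1, y2, y3, y4⟩ := h.move hv hkl hkl' hll'
  have hc : y ⬝ᵥ v = 1 - v k ^ 2 := by
    have e : ∀ x, y x * v x = v x ^ 2 - (if x = k then v k ^ 2 else 0) := by
      intro x
      by_cases h1 : x = k
      · subst h1
        simp [y2, hl]
      by_cases h2 : x = l
      · subst h2
        simp [h1, hl]
      by_cases h3 : x = l'
      · subst h3
        simp [h1, hl']
      rw [y4 x h1 h2 h3, if_neg h1]
      ring
    have h0 := h.unit v hv
    rw [dot_self_eq] at h0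
    simp only [dotProduct, e, Finset.sum_sub_distrib, h0]
    simp
  refine ⟨R y v, h.refl y hy v hv, ?_, ?_, ?_⟩
  · rw [R_apply, hc, y2, hl]
    ring
  · rw [R_apply, hc, y1, hl']
    ring
  · intro x h1 h2 h3
    rw [R_apply, hc, y4 x h1 h2 h3]
    ring

variable [DecidableEq F]

/-- **Lemma D.** -/
lemma CS.lemmaD (hcard : Fintype.card F = p) (hp2 : p ≠ 2) (hp3 : p ≠ 3) (h : CS Λ)
    (hι : 5 ≤ Fintype.card ι) {w : ι → F} (hw : w ∈ Λ) {i j m : ι} (hij : i ≠ j) (hi : w i ≠ 0)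
    (hj : w j ≠ 0) (hmi : m ≠ i) (hmj : m ≠ j) (hm : w m ≠ 0) : HasZ Λ ∨ P0 (w i ^ 2) = 0 := by
  have hpp := (Fact.out : p.Prime)
  have h2F : (2 : F) ≠ 0 := by
    intro h
    have h3 : ((2 : ℕ) : F) = 0 := by exact_mod_cast h
    rw [CharP.cast_eq_zero_iff F p 2] at h3
    exact hp2 ((Nat.prime_dvd_prime_iff_eq hpp Nat.prime_two).1 h3)
  have hodd : Fintype.card F % 2 = 1 := by
    rw [hcard]
    rcases hpp.eq_two_or_odd with h | h
    · exact absurd h hp2
    · exact h
  set f := cut i j w with hf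
  set φ := f ⬝ᵥ f with hφdef
  have f1 : f ⬝ᵥ Pi.single i 1 = 0 := cut_dot_single_left
  have f2 : f ⬝ᵥ Pi.single j 1 = 0 := cut_dot_single_right
  have fval : ∀ k, k ≠ i → k ≠ j → f k = w k := by
    intro k h1 h2
    simp [hf, cut, h1, h2]
  have fi : f i = 0 := by simp [hf, cut]
  have fj : f j = 0 := by simp [hf, cut]
  have hww := h.unit w hw
  have hφsum : w i ^ 2 + w j ^ 2 + φ = 1 := by
    rw [← hww, hφdef, dot_self_eq, dot_self_eq]
    have e : ∀ k, w k ^ 2 = (if k = i then w i ^ 2 else 0) + (if k = j then w j ^ 2 else 0) + f k ^ 2 := by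
      intro k
      by_cases h1 : k = i
      · subst h1
        simp [fi, hij]
      by_cases h2 : k = j
      · subst h2
        simp [fj, h1]
      simp [h1, h2, fval k h1 h2]
    rw [Finset.sum_congr rfl (fun k _ => e k), Finset.sum_add_distrib, Finset.sum_add_distrib]
    simp
  have hPsi : Psi i j f (w i, w j, 1) = w := by
    ext k
    simp only [Psi, Pi.add_apply, Pi.smul_apply, smul_eq_mul, one_mul]
    by_cases h1 : k = i
    · subst h1
      simp [fi, Pi.single_eq_of_ne hij]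
    by_cases h2 : k = j
    · subst h2
      simp [fj, Pi.single_eq_of_ne hij.symm]
    simp [Pi.single_eq_of_ne h1, Pi.single_eq_of_ne h2, fval k h1 h2]
  by_cases hφ : φ = 0
  · left
    have hm' : f m ≠ 0 := by rwa [fval m hmi hmj]
    refine ⟨w, hw, (Finset.univ.erase i).erase j, ?_, m, by simp [hmi, hmj], hm⟩
    have e : φ = ∑ k ∈ (Finset.univ.erase i).erase j, w k ^ 2 := by
      rw [hφdef, dot_self_eq]
      symm
      rw [← Finset.sum_subset (Finset.subset_univ ((Finset.univ.erase i).erase j))]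
      · apply Finset.sum_congr rfl
        intro k hk
        simp only [Finset.mem_erase, Finset.mem_univ, and_true] at hk
        rw [fval k hk.2 hk.1]
      · intro k _ hk
        simp only [Finset.mem_erase, Finset.mem_univ, and_true, not_and] at hk
        by_cases h1 : k = j
        · rw [h1, fj]
          ring
        · have h2 : k = i := by
            by_contra h3
            exact hk h1 h3
          rw [h2, fi]
          ring
    rw [← e, hφ]
  obtain ⟨a, b, hab⟩ := exists_binary hodd one_ne_zero hφ (-φ)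
  rw [one_mul] at hab
  let S : Set (F × F × F) := {t | nrm φ t = 1 ∧ Psi i j f t ∈ Λ}
  have hSn : ∀ t ∈ S, nrm φ t = 1 := fun t ht => ht.1
  have hSr : ∀ t ∈ S, ∀ s ∈ S, rfl3 φ t s ∈ S := by
    intro t ht s hs
    refine ⟨by rw [nrm_rfl3 ht.1]; exact hs.1, ?_⟩
    rw [← Psi_R hij f1 f2]
    exact h.refl _ ht.2 _ hs.2
  have h1 : ((1 : F), (0 : F), (0 : F)) ∈ S := by
    refine ⟨by simp [nrm], ?_⟩
    have : Psi i j f ((1 : F), (0 : F), (0 : F)) = Pi.single i 1 := by
      simp [Psi]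
    rw [this]
    exact h.frame i
  have h2 : ((0 : F), (1 : F), (0 : F)) ∈ S := by
    refine ⟨by simp [nrm], ?_⟩
    have : Psi i j f ((0 : F), (1 : F), (0 : F)) = Pi.single j 1 := by
      simp [Psi]
    rw [this]
    exact h.frame j
  have h3 : (w i, w j, (1 : F)) ∈ S := by
    refine ⟨?_, by rw [hPsi]; exact hw⟩
    simp only [nrm]
    linear_combination hφsum
  rcases dickson_frame hcard hp2 hp3 hφ hab hSn hSr h1 h2 h3 hi hj one_ne_zero with hall | hpol
  · left
    by_cases hm' : ∃ m', m' ≠ i ∧ m' ≠ j ∧ m' ≠ m ∧ w m' ≠ 0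
    · obtain ⟨m', h4, h5, h6, h7⟩ := hm'
      obtain ⟨α, β, hαβ⟩ := exists_binary hodd (one_ne_zero (α := F)) (one_ne_zero (α := F))
        (1 - φ * ((w m)⁻¹) ^ 2)
      have hx := (hall (α, β, (w m)⁻¹) (by
        simp only [nrm]
        linear_combination hαβ)).2
      have e1 : Psi i j f (α, β, (w m)⁻¹) m ^ 2 = 1 := by
        simp only [Psi, Pi.add_apply, Pi.smul_apply, smul_eq_mul, Pi.single_eq_of_ne hmi,
          Pi.single_eq_of_ne hmj, fval m hmi hmj]
        field_simp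
        ring
      have e2 : Psi i j f (α, β, (w m)⁻¹) m' ≠ 0 := by
        simp only [Psi, Pi.add_apply, Pi.smul_apply, smul_eq_mul, Pi.single_eq_of_ne h4,
          Pi.single_eq_of_ne h5, fval m' h4 h5]
        simp only [mul_zero, zero_add]
        exact mul_ne_zero (inv_ne_zero hm) h7
      exact h.coord_one hx h6 e1 e2
    · push Not at hm'
      by_cases hs : w i ^ 2 + w j ^ 2 = 0
      · refine ⟨w, hw, {i, j}, ?_, i, by simp, hi⟩
        rw [Finset.sum_pair hij, hs]
      obtain ⟨l, hl⟩ := exists_outside ({i, j, m} : Finset ι) (by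
        have := Finset.card_le_three (a := i) (b := j) (c := m)
        omega)
      obtain ⟨l', hl'⟩ := exists_outside ({i, j, m, l} : Finset ι) (by
        have := Finset.card_le_four (a := i) (b := j) (c := m) (d := l)
        omega)
      simp only [Finset.mem_insert, Finset.mem_singleton, not_or] at hl hl'
      obtain ⟨l1, l2, l3⟩ := hl
      obtain ⟨l1', l2', l3', l4'⟩ := hl'
      have wl : w l = 0 := by
        by_contra h0
        exact h0 (hm' l l1 l2 l3)
      have wl' : w l' = 0 := by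
        by_contra h0
        exact h0 (hm' l' l1' l2' l3')
      obtain ⟨y, hy, y1, y2, y3, y4⟩ := h.move hw (Ne.symm l3) (Ne.symm l3') (Ne.symm l4')
      rw [wl] at y2
      rw [wl'] at y3
      have yi := y4 i hmi.symm (Ne.symm l1) (Ne.symm l1')
      have yj := y4 j hmj.symm (Ne.symm l2) (Ne.symm l2')
      obtain ⟨u, η, huη⟩ := exists_binary hodd hs hφ (1 - (w i ^ 2 + w j ^ 2)⁻¹)
      set s := w i ^ 2 + w j ^ 2 with hsdef
      set α := w i / s - u * w j with hα
      set β := w j / s + u * w i with hβ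
      have hnrm : nrm φ (α, β, η) = 1 := by
        simp only [nrm]
        have : α ^ 2 + β ^ 2 = s⁻¹ + s * u ^ 2 := by
          rw [hα, hβ]
          field_simp
          rw [hsdef]
          ring
        linear_combination this + huη
      have hx := (hall _ hnrm).2
      have fy : f ⬝ᵥ y = 0 := by
        simp only [dotProduct]
        apply Finset.sum_eq_zero
        intro k _
        by_cases h1 : k = i
        · rw [h1, fi, zero_mul]
        by_cases h2 : k = j
        · rw [h2, fj, zero_mul]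
        by_cases h3 : k = m
        · rw [h3, y2, mul_zero]
        rw [fval k h1 h2]
        by_cases h4 : w k = 0
        · rw [h4, zero_mul]
        · exact absurd (hm' k h1 h2 h3) (by simpa using h4)
      have hdot : Psi i j f (α, β, η) ⬝ᵥ y = 1 := by
        simp only [Psi, add_dotProduct, smul_dotProduct, single_one_dotProduct, fy, yi, yj, smul_eq_mul]
        rw [hα, hβ]
        field_simp
        rw [hsdef]
        ring
      have hne : Psi i j f (α, β, η) ≠ y := by
        intro he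
        have h5 := congrFun he l'
        rw [y1] at h5
        simp only [Psi, Pi.add_apply, Pi.smul_apply, smul_eq_mul, Pi.single_eq_of_ne l1',
          Pi.single_eq_of_ne l2', fval l' l1' l2', wl'] at h5
        apply hm
        rw [← h5]
        ring
      exact h.conv hcard h2F hx hy hdot hne
  · right
    simp only [P0]
    linear_combination hpol

/-- **Lemma D₂.** -/
lemma CS.lemmaD2 (hcard : Fintype.card F = p) (hp2 : p ≠ 2) (hp3 : p ≠ 3) (h : CS Λ)
    (hι : 5 ≤ Fintype.card ι) {w : ι → F} (hw : w ∈ Λ) {i j : ι} (hij : i ≠ j) (hi : w i ≠ 0)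
    (hj : w j ≠ 0) : HasZ Λ ∨ P0 (w i ^ 2) = 0 := by
  have hpp := (Fact.out : p.Prime)
  have h2F : (2 : F) ≠ 0 := by
    intro h
    have h3 : ((2 : ℕ) : F) = 0 := by exact_mod_cast h
    rw [CharP.cast_eq_zero_iff F p 2] at h3
    exact hp2 ((Nat.prime_dvd_prime_iff_eq hpp Nat.prime_two).1 h3)
  by_cases hm : ∃ m, m ≠ i ∧ m ≠ j ∧ w m ≠ 0
  · obtain ⟨m, h1, h2, h3⟩ := hm
    exact h.lemmaD hcard hp2 hp3 hι hw hij hi hj h1 h2 h3
  push Not at hm
  have hsum : w i ^ 2 + w j ^ 2 = 1 := by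
    rw [← h.unit w hw, dot_self_eq]
    symm
    apply Finset.sum_eq_add i j hij
    · intro c _ hc
      rw [hm c hc.1 hc.2]
      ring
    · simp
    · simp
  by_cases h2 : 2 * w i ^ 2 = 1
  · right
    simp only [P0]
    rw [show 2 * w i ^ 2 - 1 = 0 by linear_combination h2]
    ring
  obtain ⟨l, hl⟩ := exists_outside ({i, j} : Finset ι) (by
    have := Finset.card_le_two (a := i) (b := j)
    omega)
  obtain ⟨l', hl'⟩ := exists_outside ({i, j, l} : Finset ι) (by
    have := Finset.card_le_three (a := i) (b := j) (c := l)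
    omega)
  simp only [Finset.mem_insert, Finset.mem_singleton, not_or] at hl hl'
  obtain ⟨l1, l2⟩ := hl
  obtain ⟨l1', l2', l3'⟩ := hl'
  obtain ⟨v, hv, v1, v2, v3⟩ := h.moved_vec hw (Ne.symm l1) (Ne.symm l1') (Ne.symm l3')
    (hm l l1 l2) (hm l' l1' l2')
  have hi' : v i ≠ 0 := by rwa [v1]
  have hl'0 : v l' ≠ 0 := by
    rw [v2, show 1 - w i ^ 2 = w j ^ 2 by linear_combination -hsum]
    exact mul_ne_zero (mul_ne_zero (neg_ne_zero.2 h2F) (pow_ne_zero 2 hj)) hi
  have hj0 : v j ≠ 0 := by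
    rw [v3 j hij.symm (Ne.symm l2) (Ne.symm l2')]
    refine mul_ne_zero hj ?_
    intro h0
    exact h2 (by linear_combination h0)
  have := h.lemmaD hcard hp2 hp3 hι hv (Ne.symm l1') hi' hl'0 hij.symm (Ne.symm l2') hj0
  rwa [v1] at this

/-- Two complementary values. -/
lemma P0_pair {t : F} (h2 : (2 : F) ≠ 0) (h1 : P0 t = 0) (h3 : P0 (1 - t) = 0) : 2 * t = 1 := by
  by_contra hne
  have hne1 : 2 * t - 1 ≠ 0 := fun h => hne (by linear_combination h)
  have hne2 : 2 * (1 - t) - 1 ≠ 0 := fun h => hne (by linear_combination -h)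
  simp only [P0] at h1 h3
  have h4 : (4 * t - 1) * (16 * t ^ 2 - 12 * t + 1) = 0 := by
    apply mul_right_cancel₀ hne1
    linear_combination h1
  have h5 : (4 * (1 - t) - 1) * (16 * (1 - t) ^ 2 - 12 * (1 - t) + 1) = 0 := by
    apply mul_right_cancel₀ hne2
    linear_combination h3
  rcases mul_eq_zero.1 h4 with h6 | h6 <;> rcases mul_eq_zero.1 h5 with h7 | h7
  · apply h2
    linear_combination h7 + h6 * 1
  · have : (1 : F) = 0 := by
      grind
    exact one_ne_zero this
  · have : (1 : F) = 0 := by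
      grind
    exact one_ne_zero this
  · apply hne
    have : (4 : F) * (2 * t - 1) = 0 := by
      linear_combination h6 - h7
    have h8 : (4 : F) ≠ 0 := by
      rw [show (4 : F) = 2 * 2 by norm_num]
      exact mul_ne_zero h2 h2
    have h9 := (mul_eq_zero.1 this).resolve_left h8
    linear_combination h9

end LemmaD

end Cfsg.Agent.Lib.OmFrame.Vec
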