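/-
Closed systems of unit vectors: a vector with at least three non-zero coordinates gives the zero-sum
condition.
-/
import Cfsg.Agent.Lib.OmFrame.Vec

set_option autoImplicit false
set_option linter.unusedSectionVars false
set_option linter.style.haveILetI false
set_option linter.unusedVariables false

open Matrix

namespace Cfsg.Agent.Lib.OmFrame.VecMain

open Cfsg.Agent.Lib.OmFrame.Dick Cfsg.Agent.Lib.OmFrame.Vec

variable {F : Type*} [Field F]

section Alg

/-- Two equal roots: no. -/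
lemma alg_f {τ : F} (h2 : (2 : F) ≠ 0) (h3 : (3 : F) ≠ 0) (hr : 16 * τ ^ 2 - 12 * τ + 1 = 0) (h1 : τ ≠ 1)
    (hP : P0 (4 * τ * τ) = 0) : False := by
  simp only [P0] at hP
  have a1 : 4 * (4 * τ * τ) - 1 = 12 * τ - 2 := by linear_combination hr
  have a2 : 2 * (2 * (4 * τ * τ) - 1) = 12 * τ - 3 := by linear_combination hr
  have a3 : 16 * (4 * τ * τ) ^ 2 - 12 * (4 * τ * τ) + 1 = 48 * τ - 4 := by
    linear_combination (16 * τ ^ 2 + 12 * τ - 1 - 3 + 9 - 0 * τ) * hr
  have h4 : (4 : F) ≠ 0 := by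
    rw [show (4 : F) = 2 * 2 by norm_num]
    exact mul_ne_zero h2 h2
  rw [a3] at hP
  rcases mul_eq_zero.1 hP with h5 | h5
  · rcases mul_eq_zero.1 h5 with h6 | h6
    · rw [a1] at h6
      have e1 : 6 * τ = 1 := by
        apply mul_left_cancel₀ h2
        linear_combination h6
      have e2 : (5 : F) = 0 := by linear_combination -9 * hr + (12 * τ + 2 - 9) * h6
      exact h1 (by linear_combination e1 - τ * e2)
    · have e1 : 4 * τ = 1 := by
        apply mul_left_cancel₀ h3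
        have : 2 * (2 * (4 * τ * τ) - 1) = 0 := by rw [h6, mul_zero]
        linear_combination this - a2
      have : (1 : F) = 0 := by
        linear_combination -hr + (4 * τ + 1) * e1 - 3 * e1
      exact one_ne_zero this
  · have e1 : 12 * τ = 1 := by
      apply mul_left_cancel₀ h4
      linear_combination h5
    have e2 : 16 * τ ^ 2 = 0 := by linear_combination hr + e1
    have e3 : τ = 0 := by
      have : (16 : F) ≠ 0 := by
        rw [show (16 : F) = 4 * 4 by norm_num]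
        exact mul_ne_zero h4 h4
      have := (mul_eq_zero.1 e2).resolve_left this
      exact pow_eq_zero_iff (by norm_num) |>.1 this
    rw [e3] at e1
    have : (1 : F) = 0 := by linear_combination -e1
    exact one_ne_zero this

/-- `16 X = 9`. -/
lemma alg_A1 {X : F} (h2 : (2 : F) ≠ 0) (hX : 16 * X = 9) (hP : P0 X = 0) : (5 : F) = 0 ∨ (11 : F) = 0 := by
  simp only [P0] at hP
  have : (5 : F) * 11 = 0 := by
    have h : (4 * (4 * X - 1)) * (8 * (2 * X - 1)) * (16 * (16 * X ^ 2 - 12 * X + 1)) = -(5 * 11) := by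
      have a1 : 4 * (4 * X - 1) = 5 := by linear_combination hX
      have a2 : 8 * (2 * X - 1) = 1 := by linear_combination hX
      have a3 : 16 * (16 * X ^ 2 - 12 * X + 1) = -11 := by linear_combination (16 * X + 9 - 12) * hX
      rw [a1, a2, a3]
      ring
    linear_combination h - (4 * 8 * 16 : F) * hP
  exact mul_eq_zero.1 this

/-- `16 Y = 1`. -/
lemma alg_A2 {Y : F} (h2 : (2 : F) ≠ 0) (h3 : (3 : F) ≠ 0) (hY : 16 * Y = 1) (hP : P0 Y = 0) (h1 : Y ≠ 1)
    (h5 : (5 : F) = 0 ∨ (11 : F) = 0) : False := by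
  simp only [P0] at hP
  have : (3 * 5 * 7 : F) = 0 := by
    have h : (4 * (4 * Y - 1)) * (8 * (2 * Y - 1)) * (16 * (16 * Y ^ 2 - 12 * Y + 1)) = 3 * 5 * 7 := by
      have a1 : 4 * (4 * Y - 1) = -3 := by linear_combination hY
      have a2 : 8 * (2 * Y - 1) = -7 := by linear_combination hY
      have a3 : 16 * (16 * Y ^ 2 - 12 * Y + 1) = 5 := by linear_combination (16 * Y + 1 - 12) * hY
      rw [a1, a2, a3]
      ring
    linear_combination (4 * 8 * 16 : F) * hP - h
  rcases h5 with h5 | h5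
  · apply h1
    linear_combination hY - 3 * Y * h5
  · have : (1 : F) = 0 := by
      linear_combination 2 * this - 19 * h5
    exact one_ne_zero this

/-- `8 Y = 1`. -/
lemma alg_A3 {Y : F} (h2 : (2 : F) ≠ 0) (h3 : (3 : F) ≠ 0) (hY : 8 * Y = 1) (hP : P0 Y = 0) : False := by
  simp only [P0] at hP
  have h : (2 * (4 * Y - 1)) * (4 * (2 * Y - 1)) * (4 * (16 * Y ^ 2 - 12 * Y + 1)) = -3 := by
    have a1 : 2 * (4 * Y - 1) = -1 := by linear_combination hY
    have a2 : 4 * (2 * Y - 1) = -3 := by linear_combination hY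
    have a3 : 4 * (16 * Y ^ 2 - 12 * Y + 1) = -1 := by linear_combination (8 * Y + 1 - 6) * hY
    rw [a1, a2, a3]
    ring
  apply h3
  linear_combination h - (2 * 4 * 4 : F) * hP

/-- `4 Y = τ`. -/
lemma alg_A4 {Y τ : F} (h2 : (2 : F) ≠ 0) (h3 : (3 : F) ≠ 0) (hY : 4 * Y = τ) (hP : P0 Y = 0) (h1 : τ ≠ 1)
    (hr : 16 * τ ^ 2 - 12 * τ + 1 = 0) (h5 : (5 : F) = 0 ∨ (11 : F) = 0) : 12 * τ = 5 := by
  simp only [P0] at hP
  rcases mul_eq_zero.1 hP with h6 | h6
  · exfalso
    rcases mul_eq_zero.1 h6 with h7 | h7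
    · exact h1 (by linear_combination h7 - hY)
    · have e1 : τ = 2 := by linear_combination 2 * h7 - hY
      rw [e1] at hr
      rcases h5 with h5 | h5
      · have : (1 : F) = 0 := by linear_combination hr - 8 * h5
        exact one_ne_zero this
      · apply h3
        linear_combination -hr + 4 * h5
  · have e : 16 * (16 * Y ^ 2 - 12 * Y + 1) = 3 * (5 - 12 * τ) := by
      subst hY
      linear_combination hr
    rw [h6, mul_zero] at e
    have := (mul_eq_zero.1 e.symm).resolve_left h3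
    linear_combination -this

/-- `16 X = 5`. -/
lemma alg_B1 {X : F} (h2 : (2 : F) ≠ 0) (h3 : (3 : F) ≠ 0) (hX : 16 * X = 5) (hP : P0 X = 0) : (19 : F) = 0 := by
  simp only [P0] at hP
  have h : (4 * (4 * X - 1)) * (8 * (2 * X - 1)) * (16 * (16 * X ^ 2 - 12 * X + 1)) = 3 * 19 := by
    have a1 : 4 * (4 * X - 1) = 1 := by linear_combination hX
    have a2 : 8 * (2 * X - 1) = -3 := by linear_combination hX
    have a3 : 16 * (16 * X ^ 2 - 12 * X + 1) = -19 := by linear_combination (16 * X + 5 - 12) * hX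
    rw [a1, a2, a3]
    ring
  apply (mul_eq_zero.1 (_ : (3 : F) * 19 = 0)).resolve_left h3
  linear_combination (4 * 8 * 16 : F) * hP - h

/-- `8 Y = 3 - 4 τ`. -/
lemma alg_B2 {Y τ : F} (h2 : (2 : F) ≠ 0) (h3 : (3 : F) ≠ 0) (hY : 8 * Y = 3 - 4 * τ) (hP : P0 Y = 0)
    (hr : 16 * τ ^ 2 - 12 * τ + 1 = 0) (h19 : (19 : F) = 0) : False := by
  simp only [P0] at hP
  have h : (2 * (4 * Y - 1)) * (4 * (2 * Y - 1)) * (4 * (16 * Y ^ 2 - 12 * Y + 1)) =
      (1 - 4 * τ) * (-1 - 4 * τ) * (12 * τ - 6) := by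
    have a1 : 2 * (4 * Y - 1) = 1 - 4 * τ := by linear_combination hY
    have a2 : 4 * (2 * Y - 1) = -1 - 4 * τ := by linear_combination hY
    have a3 : 4 * (16 * Y ^ 2 - 12 * Y + 1) = 12 * τ - 6 := by
      linear_combination (8 * Y + 3 - 4 * τ - 6) * hY + hr
    rw [a1, a2, a3]
  have h0 : (1 - 4 * τ) * (-1 - 4 * τ) * (12 * τ - 6) = 0 := by
    rw [← h]
    linear_combination (2 * 4 * 4 : F) * hP
  have h1 : (1 : F) = 0 := by
    rcases mul_eq_zero.1 h0 with h6 | h6
    · rcases mul_eq_zero.1 h6 with h7 | h7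
      · linear_combination -hr + (2 - 4 * τ) * h7
      · have e : (5 : F) = 0 := by
          linear_combination hr - (4 - 4 * τ) * h7
        linear_combination 4 * e - h19
    · have e : 2 * τ = 1 := by
        apply mul_left_cancel₀ (mul_ne_zero h2 h3)
        linear_combination h6
      linear_combination -hr + (8 * τ - 2) * e
  exact one_ne_zero h1

/-- Three distinct roots. -/
lemma alg_three {x y z : F} (h2 : (2 : F) ≠ 0) (hx : 16 * x ^ 2 - 12 * x + 1 = 0)
    (hy : 16 * y ^ 2 - 12 * y + 1 = 0) (hz : 16 * z ^ 2 - 12 * z + 1 = 0) (h1 : x ≠ y) (h3 : x ≠ z)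
    (h4 : y ≠ z) : False := by
  have e1 : 16 * (x + y) - 12 = 0 := by
    apply mul_left_cancel₀ (sub_ne_zero.2 h1)
    linear_combination hx - hy
  have e2 : 16 * (x + z) - 12 = 0 := by
    apply mul_left_cancel₀ (sub_ne_zero.2 h3)
    linear_combination hx - hz
  have e3 : (16 : F) * (y - z) = 0 := by linear_combination e1 - e2
  have h16 : (16 : F) ≠ 0 := by
    rw [show (16 : F) = 2 * 2 * (2 * 2) by norm_num]
    exact mul_ne_zero (mul_ne_zero h2 h2) (mul_ne_zero h2 h2)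
  exact sub_ne_zero.2 h4 ((mul_eq_zero.1 e3).resolve_left h16)

end Alg

section Main

variable {ι : Type*} [Fintype ι] [DecidableEq ι] {p : ℕ} [Fact p.Prime] [CharP F p] [Fintype F]
  [DecidableEq F] {Λ : Set (ι → F)}

lemma two_ne (hp2 : p ≠ 2) : (2 : F) ≠ 0 := by
  have hpp := (Fact.out : p.Prime)
  intro h
  have h3 : ((2 : ℕ) : F) = 0 := by exact_mod_cast h
  rw [CharP.cast_eq_zero_iff F p 2] at h3
  exact hp2 ((Nat.prime_dvd_prime_iff_eq hpp Nat.prime_two).1 h3)

lemma three_ne (hp3 : p ≠ 3) : (3 : F) ≠ 0 := by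
  have hpp := (Fact.out : p.Prime)
  intro h
  have h3 : ((3 : ℕ) : F) = 0 := by exact_mod_cast h
  rw [CharP.cast_eq_zero_iff F p 3] at h3
  exact hp3 ((Nat.prime_dvd_prime_iff_eq hpp Nat.prime_three).1 h3)

/-- **Main theorem on closed systems**: three non-zero coordinates give the zero-sum condition. -/
theorem main3 (hcard : Fintype.card F = p) (hp2 : p ≠ 2) (hp3 : p ≠ 3) (h : CS Λ)
    (hι : 9 ≤ Fintype.card ι) {v : ι → F} (hv : v ∈ Λ)
    (hS : 2 < (Finset.univ.filter (fun i => v i ≠ 0)).card) : HasZ Λ := by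
  by_contra hZ
  have h2F : (2 : F) ≠ 0 := two_ne hp2
  have h3F : (3 : F) ≠ 0 := three_ne hp3
  have h4F : (4 : F) ≠ 0 := by
    rw [show (4 : F) = 2 * 2 by norm_num]
    exact mul_ne_zero h2F h2F
  set S := Finset.univ.filter (fun i => v i ≠ 0) with hSdef
  have hmem : ∀ i, i ∈ S ↔ v i ≠ 0 := by
    intro i
    simp [hSdef]
  obtain ⟨a, ha, b, hb, c, hc, hab, hac, hbc⟩ := Finset.two_lt_card.1 hS
  have third : ∀ i j : ι, ∃ k ∈ S, k ≠ i ∧ k ≠ j := by
    intro i j
    by_cases h1 : a ≠ i ∧ a ≠ j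
    · exact ⟨a, ha, h1⟩
    by_cases h2 : b ≠ i ∧ b ≠ j
    · exact ⟨b, hb, h2⟩
    refine ⟨c, hc, ?_⟩
    grind
  have hP : ∀ i ∈ S, P0 (v i ^ 2) = 0 := by
    intro i hi
    obtain ⟨j, hj, hji, -⟩ := third i i
    exact (h.lemmaD2 hcard hp2 hp3 (by omega) hv hji.symm ((hmem i).1 hi) ((hmem j).1 hj)).resolve_left hZ
  have ht1 : ∀ i ∈ S, v i ^ 2 ≠ 1 := by
    intro i hi h1
    obtain ⟨j, hj, hji, -⟩ := third i i
    exact hZ (h.coord_one hv hji h1 ((hmem j).1 hj))
  have hcc : ∀ i ∈ S, ∀ j ∈ S, i ≠ j → P0 (4 * v i ^ 2 * v j ^ 2) = 0 ∧ 4 * v i ^ 2 * v j ^ 2 ≠ 1 := by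
    intro i hi j hj hij
    obtain ⟨k, hk, hki, hkj⟩ := third i j
    have hy := h.refl v hv _ (h.frame i)
    have yv : ∀ x, x ≠ i → R v (Pi.single i 1) x = -2 * v i * v x := by
      intro x hx
      rw [Vec.R_apply, dotProduct_single_one, Pi.single_eq_of_ne hx]
      ring
    have yj : R v (Pi.single i 1) j ≠ 0 := by
      rw [yv j hij.symm]
      exact mul_ne_zero (mul_ne_zero (neg_ne_zero.2 h2F) ((hmem i).1 hi)) ((hmem j).1 hj)
    have yk : R v (Pi.single i 1) k ≠ 0 := by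
      rw [yv k hki]
      exact mul_ne_zero (mul_ne_zero (neg_ne_zero.2 h2F) ((hmem i).1 hi)) ((hmem k).1 hk)
    have e : R v (Pi.single i 1) j ^ 2 = 4 * v i ^ 2 * v j ^ 2 := by
      rw [yv j hij.symm]
      ring
    constructor
    · have := (h.lemmaD2 hcard hp2 hp3 (by omega) hy hkj.symm yj yk).resolve_left hZ
      rwa [e] at this
    · intro h1
      rw [← e] at h1
      exact hZ (h.coord_one hy hkj h1 yk)
  have hhalf : ∀ i ∈ S, ∀ j ∈ S, i ≠ j → 2 * v i ^ 2 = 1 → 2 * v j ^ 2 = 1 → False := by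
    intro i hi j hj hij h1 h2
    apply (hcc i hi j hj hij).2
    linear_combination 2 * v j ^ 2 * h1 + h2
  have hroot : ∀ i ∈ S, ∀ j ∈ S, i ≠ j → 16 * (v i ^ 2) ^ 2 - 12 * v i ^ 2 + 1 = 0 → v i ^ 2 = v j ^ 2 → False := by
    intro i hi j hj hij h1 h2
    have h3 := (hcc i hi j hj hij).1
    rw [← h2] at h3
    exact alg_f h2F h3F h1 (ht1 i hi) h3
  -- bound on the support
  have hcardS : S.card ≤ 7 := by
    let S1 := S.filter (fun i => 4 * v i ^ 2 = 1)
    let S2 := S.filter (fun i => 2 * v i ^ 2 = 1)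
    let S3 := S.filter (fun i => 16 * (v i ^ 2) ^ 2 - 12 * v i ^ 2 + 1 = 0)
    have hsub : S ⊆ S1 ∪ (S2 ∪ S3) := by
      intro i hi
      have h1 := hP i hi
      simp only [P0, mul_eq_zero] at h1
      simp only [Finset.mem_union, S1, S2, S3, Finset.mem_filter, hi, true_and]
      rcases h1 with (h1 | h1) | h1
      · left
        linear_combination h1
      · right; left
        linear_combination h1
      · right; right
        exact h1
    have c2 : S2.card ≤ 1 := by
      apply Finset.card_le_one.2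
      intro x hx y hy
      simp only [S2, Finset.mem_filter] at hx hy
      by_contra hxy
      exact hhalf x hx.1 y hy.1 hxy hx.2 hy.2
    have c3 : S3.card ≤ 2 := by
      by_contra h5
      push Not at h5
      obtain ⟨x, hx, y, hy, z, hz, hxy, hxz, hyz⟩ := Finset.two_lt_card.1 h5
      simp only [S3, Finset.mem_filter] at hx hy hz
      exact alg_three h2F hx.2 hy.2 hz.2 (fun e => hroot x hx.1 y hy.1 hxy hx.2 e)
        (fun e => hroot x hx.1 z hz.1 hxz hx.2 e) (fun e => hroot y hy.1 z hz.1 hyz hy.2 e)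
    have c1 : S1.card ≤ 4 := by
      by_contra h5
      push Not at h5
      obtain ⟨A, hA, hA4⟩ := Finset.exists_subset_card_eq (s := S1) (n := 4) (by omega)
      obtain ⟨u, hu, huA⟩ : ∃ u ∈ S1, u ∉ A := by
        by_contra h6
        push Not at h6
        have := Finset.card_le_card h6
        omega
      have e1 : ∑ i ∈ A, v i ^ 2 = 1 := by
        apply mul_left_cancel₀ h4F
        rw [Finset.mul_sum, Finset.sum_congr rfl (fun i hi => by
          have := (Finset.mem_filter.1 (hA hi)).2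
          exact this), Finset.sum_const, hA4]
        simp
      have e2 : ∑ i ∈ Aᶜ, v i ^ 2 = 0 := by
        have e3 := Finset.sum_add_sum_compl A (fun i => v i ^ 2)
        rw [← dot_self_eq, h.unit v hv, e1] at e3
        linear_combination e3
      apply hZ
      exact ⟨v, hv, Aᶜ, e2, u, by simpa using huA, (hmem u).1 (Finset.mem_filter.1 hu).1⟩
    calc S.card ≤ (S1 ∪ (S2 ∪ S3)).card := Finset.card_le_card hsub
      _ ≤ S1.card + (S2 ∪ S3).card := Finset.card_union_le _ _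
      _ ≤ S1.card + (S2.card + S3.card) := by
        have := Finset.card_union_le S2 S3
        omega
      _ ≤ 7 := by omega
  obtain ⟨l, hl⟩ := exists_outside S (by omega)
  obtain ⟨l', hl'⟩ := exists_outside (insert l S) (by
    have := Finset.card_insert_le l S
    omega)
  rw [Finset.mem_insert, not_or] at hl'
  have vl : v l = 0 := by
    by_contra h0
    exact hl ((hmem l).2 h0)
  have vl' : v l' = 0 := by
    by_contra h0
    exact hl'.2 ((hmem l').2 h0)
  have hXY : ∀ j ∈ S, 2 * v j ^ 2 ≠ 1 → P0 (4 * (1 - v j ^ 2) ^ 2 * v j ^ 2) = 0 ∧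
      ∀ m ∈ S, m ≠ j → P0 (v m ^ 2 * (2 * v j ^ 2 - 1) ^ 2) = 0 ∧ v m ^ 2 * (2 * v j ^ 2 - 1) ^ 2 ≠ 1 := by
    intro j hj h1
    have hjl : j ≠ l := fun e => hl (e ▸ hj)
    have hjl' : j ≠ l' := fun e => hl'.2 (e ▸ hj)
    obtain ⟨w, hw, w1, w2, w3⟩ := h.moved_vec hv hjl hjl' (Ne.symm hl'.1) vl vl'
    have w0 : w j ≠ 0 := by
      rw [w1]
      exact (hmem j).1 hj
    have h1t : 1 - v j ^ 2 ≠ 0 := fun e => ht1 j hj (by linear_combination -e)
    have w4 : w l' ≠ 0 := by
      rw [w2]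
      exact mul_ne_zero (mul_ne_zero (neg_ne_zero.2 h2F) h1t) ((hmem j).1 hj)
    constructor
    · have := (h.lemmaD2 hcard hp2 hp3 (by omega) hw (Ne.symm hjl') w4 w0).resolve_left hZ
      rw [w2] at this
      convert this using 2
      ring
    · intro m hm hmj
      have hml : m ≠ l := fun e => hl (e ▸ hm)
      have hml' : m ≠ l' := fun e => hl'.2 (e ▸ hm)
      have w5 := w3 m hmj hml hml'
      have h2t : 2 * v j ^ 2 - 1 ≠ 0 := fun e => h1 (by linear_combination e)
      have w6 : w m ≠ 0 := by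
        rw [w5]
        exact mul_ne_zero ((hmem m).1 hm) h2t
      have e : w m ^ 2 = v m ^ 2 * (2 * v j ^ 2 - 1) ^ 2 := by
        rw [w5]
        ring
      constructor
      · have := (h.lemmaD2 hcard hp2 hp3 (by omega) hw hmj w6 w0).resolve_left hZ
        rwa [e] at this
      · intro h6
        rw [← e] at h6
        exact hZ (h.coord_one hw (Ne.symm hmj) h6 w0)
  by_cases hA : ∃ j ∈ S, 4 * v j ^ 2 = 1
  · -- a coordinate with `t = 1/4`
    obtain ⟨j, hj, h4⟩ := hA
    have hne : 2 * v j ^ 2 ≠ 1 := by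
      intro h5
      have : (1 : F) = 0 := by linear_combination h4 - 2 * h5
      exact one_ne_zero this
    obtain ⟨h6, h7⟩ := hXY j hj hne
    have hX : 16 * (4 * (1 - v j ^ 2) ^ 2 * v j ^ 2) = 9 := by
      linear_combination (16 * (v j ^ 2) ^ 2 - 28 * v j ^ 2 + 9) * h4
    have h5 := alg_A1 h2F hX h6
    have hm : ∀ m ∈ S, m ≠ j → 16 * (v m ^ 2) ^ 2 - 12 * v m ^ 2 + 1 = 0 ∧ 12 * v m ^ 2 = 5 := by
      intro m hm hmj
      obtain ⟨h8, h9⟩ := h7 m hm hmj
      have h10 := hP m hm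
      simp only [P0, mul_eq_zero] at h10
      rcases h10 with (h10 | h10) | h10
      · exfalso
        refine alg_A2 h2F h3F ?_ h8 h9 h5
        linear_combination 4 * (2 * v j ^ 2 - 1) ^ 2 * h10 + (4 * v j ^ 2 - 3) * h4
      · exfalso
        refine alg_A3 h2F h3F ?_ h8
        linear_combination 4 * (2 * v j ^ 2 - 1) ^ 2 * h10 + (4 * v j ^ 2 - 3) * h4
      · refine ⟨h10, alg_A4 h2F h3F ?_ h8 (ht1 m hm) h10 h5⟩
        linear_combination v m ^ 2 * (4 * v j ^ 2 - 3) * h4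
    obtain ⟨m₁, hm₁, hm₁j, -⟩ := third j j
    obtain ⟨m₂, hm₂, hm₂j, hm₂₁⟩ := third j m₁
    obtain ⟨r₁, e₁⟩ := hm m₁ hm₁ hm₁j
    obtain ⟨r₂, e₂⟩ := hm m₂ hm₂ hm₂j
    refine hroot m₁ hm₁ m₂ hm₂ (Ne.symm hm₂₁) r₁ ?_
    have h12 : (12 : F) ≠ 0 := by
      rw [show (12 : F) = 4 * 3 by norm_num]
      exact mul_ne_zero h4F h3F
    apply mul_left_cancel₀ h12
    rw [e₁, e₂]
  · push Not at hA
    -- a root
    obtain ⟨j, hj, hne⟩ : ∃ j ∈ S, 2 * v j ^ 2 ≠ 1 := by
      by_cases h5 : 2 * v a ^ 2 = 1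
      · refine ⟨b, hb, fun h6 => hhalf a ha b hb hab h5 h6⟩
      · exact ⟨a, ha, h5⟩
    have hclass : ∀ m ∈ S, 2 * v m ^ 2 = 1 ∨ 16 * (v m ^ 2) ^ 2 - 12 * v m ^ 2 + 1 = 0 := by
      intro m hm
      have h10 := hP m hm
      simp only [P0, mul_eq_zero] at h10
      rcases h10 with (h10 | h10) | h10
      · exact absurd (by linear_combination h10) (hA m hm)
      · left
        linear_combination h10
      · right
        exact h10
    have hrj := (hclass j hj).resolve_left hne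
    obtain ⟨h6, h7⟩ := hXY j hj hne
    have hX : 16 * (4 * (1 - v j ^ 2) ^ 2 * v j ^ 2) = 5 := by
      linear_combination (4 * v j ^ 2 - 5) * hrj
    have h19 := alg_B1 h2F h3F hX h6
    have hm : ∀ m ∈ S, m ≠ j → 16 * (v m ^ 2) ^ 2 - 12 * v m ^ 2 + 1 = 0 := by
      intro m hm hmj
      rcases hclass m hm with h10 | h10
      · exfalso
        obtain ⟨h8, h9⟩ := h7 m hm hmj
        refine alg_B2 h2F h3F ?_ h8 hrj h19
        linear_combination 4 * (2 * v j ^ 2 - 1) ^ 2 * h10 + hrj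
      · exact h10
    obtain ⟨m₁, hm₁, hm₁j, -⟩ := third j j
    obtain ⟨m₂, hm₂, hm₂j, hm₂₁⟩ := third j m₁
    have r₁ := hm m₁ hm₁ hm₁j
    have r₂ := hm m₂ hm₂ hm₂j
    exact alg_three h2F hrj r₁ r₂ (fun e => hroot j hj m₁ hm₁ (Ne.symm hm₁j) hrj e)
      (fun e => hroot j hj m₂ hm₂ (Ne.symm hm₂j) hrj e)
      (fun e => hroot m₁ hm₁ m₂ hm₂ (Ne.symm hm₂₁) r₁ e)

/-- `p = 3`: any vector with two non-zero coordinates gives the zero-sum condition. -/
lemma p3_two (hcard : Fintype.card F = 3) (h : CS Λ) {v : ι → F} (hv : v ∈ Λ) {i j : ι} (hij : i ≠ j)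
    (hi : v i ≠ 0) (hj : v j ≠ 0) : HasZ Λ := by
  have h1 := FiniteField.pow_card_sub_one_eq_one (v i) hi
  rw [hcard] at h1
  exact h.coord_one hv hij.symm h1 hj

/-- Two non-zero coordinates exactly. -/
lemma two_support (hcard : Fintype.card F = p) (hp2 : p ≠ 2) (hp3 : p ≠ 3) (h : CS Λ)
    (hι : 5 ≤ Fintype.card ι) {v : ι → F} (hv : v ∈ Λ) {i j : ι} (hij : i ≠ j) (hi : v i ≠ 0)
    (hj : v j ≠ 0) (hall : ∀ k, k ≠ i → k ≠ j → v k = 0) (hZ : ¬ HasZ Λ) :
    2 * v i ^ 2 = 1 ∧ 2 * v j ^ 2 = 1 := by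
  have hsum : v i ^ 2 + v j ^ 2 = 1 := by
    rw [← h.unit v hv, dot_self_eq]
    symm
    apply Finset.sum_eq_add i j hij
    · intro c _ hc
      rw [hall c hc.1 hc.2]
      ring
    · simp
    · simp
  have h1 := (h.lemmaD2 hcard hp2 hp3 hι hv hij hi hj).resolve_left hZ
  have h3 := (h.lemmaD2 hcard hp2 hp3 hι hv hij.symm hj hi).resolve_left hZ
  rw [show v j ^ 2 = 1 - v i ^ 2 by linear_combination hsum] at h3
  have h4 := P0_pair (two_ne hp2) h1 h3
  exact ⟨h4, by linear_combination 2 * hsum - h4⟩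

/-- Even permutations are doubly transitive. -/
lemma exists_even_perm (h4 : 4 ≤ Fintype.card ι) {r s i k : ι} (hrs : r ≠ s) (hik : i ≠ k) :
    ∃ σ : Equiv.Perm ι, Equiv.Perm.sign σ = 1 ∧ σ i = r ∧ σ k = s := by
  obtain ⟨σ, hσ1, hσ2⟩ : ∃ σ : Equiv.Perm ι, σ i = r ∧ σ k = s := by
    refine ⟨Equiv.swap (Equiv.swap i r k) s * Equiv.swap i r, ?_, ?_⟩
    · have h1 : Equiv.swap i r k ≠ r := by
        intro h
        apply hik
        apply (Equiv.swap i r).injective
        rw [h, Equiv.swap_apply_left]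
      simp only [Equiv.Perm.mul_apply, Equiv.swap_apply_left]
      rw [Equiv.swap_apply_of_ne_of_ne h1.symm hrs]
    · simp [Equiv.Perm.mul_apply]
  rcases Int.units_eq_one_or (Equiv.Perm.sign σ) with h1 | h1
  · exact ⟨σ, h1, hσ1, hσ2⟩
  obtain ⟨u, hu⟩ := exists_outside ({i, k} : Finset ι) (by
    have := Finset.card_le_two (a := i) (b := k)
    omega)
  obtain ⟨u', hu'⟩ := exists_outside ({i, k, u} : Finset ι) (by
    have := Finset.card_le_three (a := i) (b := k) (c := u)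
    omega)
  simp only [Finset.mem_insert, Finset.mem_singleton, not_or] at hu hu'
  refine ⟨σ * Equiv.swap u u', ?_, ?_, ?_⟩
  · rw [Equiv.Perm.sign_mul, h1, Equiv.Perm.sign_swap (Ne.symm hu'.2.2)]
    simp
  · rw [Equiv.Perm.mul_apply, Equiv.swap_apply_of_ne_of_ne (Ne.symm hu.1) (Ne.symm hu'.1), hσ1]
  · rw [Equiv.Perm.mul_apply, Equiv.swap_apply_of_ne_of_ne (Ne.symm hu.2) (Ne.symm hu'.2.1), hσ2]

/-- A vector with two coordinates of the same square moves everywhere. -/
lemma signed_pair (h : CS Λ) (h4 : 4 ≤ Fintype.card ι) {v : ι → F} (hv : v ∈ Λ) {r s i k : ι} (hrs : r ≠ s)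
    (hall : ∀ x, x ≠ r → x ≠ s → v x = 0) (hsq : v s ^ 2 = v r ^ 2) (hik : i ≠ k) :
    (v r • (Pi.single i 1 : ι → F) + v r • (Pi.single k 1 : ι → F)) ∈ Λ := by
  obtain ⟨σ, hσ, h1, h2⟩ := exists_even_perm h4 hrs hik
  have hy := h.perm σ hσ v hv
  have hy0 : ∀ x, x ≠ i → x ≠ k → (v ∘ σ) x = 0 := by
    intro x h3 h5
    apply hall
    · intro e
      exact h3 (σ.injective (e.trans h1.symm))
    · intro e
      exact h5 (σ.injective (e.trans h2.symm))
  have h3 : (v s - v r) * (v s + v r) = 0 := by linear_combination hsq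
  rcases mul_eq_zero.1 h3 with h5 | h5
  · convert hy using 1
    ext x
    by_cases h6 : x = i
    · subst h6
      simp [h1, Pi.single_eq_of_ne hik]
    by_cases h7 : x = k
    · subst h7
      simp [h2, Pi.single_eq_of_ne (Ne.symm hik)]
      linear_combination -h5
    simp [Pi.single_eq_of_ne h6, Pi.single_eq_of_ne h7, hall (σ x) (fun e => h6 (σ.injective (e.trans h1.symm)))
      (fun e => h7 (σ.injective (e.trans h2.symm)))]
  · convert h.flip hy k using 1
    ext x
    by_cases h6 : x = i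
    · subst h6
      simp [h1, hik]
    by_cases h7 : x = k
    · subst h7
      simp [h2, Pi.single_eq_of_ne (Ne.symm hik)]
      linear_combination h5
    simp [Pi.single_eq_of_ne h6, h7, hall (σ x) (fun e => h6 (σ.injective (e.trans h1.symm)))
      (fun e => h7 (σ.injective (e.trans h2.symm)))]

lemma three_coord (hcard : Fintype.card F = p) (hp2 : p ≠ 2) (hp3 : p ≠ 3) (h : CS Λ)
    (hι : 9 ≤ Fintype.card ι) {v : ι → F} (hv : v ∈ Λ) {a b c : ι} (hab : a ≠ b) (hac : a ≠ c) (hbc : b ≠ c)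
    (ha : v a ≠ 0) (hb : v b ≠ 0) (hc : v c ≠ 0) : HasZ Λ := by
  apply main3 hcard hp2 hp3 h hι hv
  apply Finset.two_lt_card.2
  exact ⟨a, by simpa using ha, b, by simpa using hb, c, by simpa using hc, hab, hac, hbc⟩

lemma dot_two {r s : ι} (hrs : r ≠ s) {x : ι → F} (hx : ∀ u, u ≠ r → u ≠ s → x u = 0) (y : ι → F) :
    x ⬝ᵥ y = x r * y r + x s * y s := by
  simp only [dotProduct]
  apply Finset.sum_eq_add r s hrs
  · intro c _ hc
    rw [hx c hc.1 hc.2, zero_mul]
  · simp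
  · simp

/-- **The final form of the vector level theorem.** -/
theorem vec_final (hcard : Fintype.card F = p) (hp2 : p ≠ 2) (h : CS Λ) (hι : 9 ≤ Fintype.card ι)
    (g : (ι → F) →ₗ[F] (ι → F)) (hgd : ∀ x y, g x ⬝ᵥ g y = x ⬝ᵥ y) (hgΛ : ∀ x ∈ Λ, g x ∈ Λ)
    {i₀ r s : ι} (hrs : r ≠ s) (hr : g (Pi.single i₀ 1) r ≠ 0) (hs : g (Pi.single i₀ 1) s ≠ 0) : HasZ Λ := by
  by_contra hZ
  have hv := hgΛ _ (h.frame i₀)
  by_cases hp3 : p = 3
  · exact hZ (p3_two (hcard.trans hp3) h hv hrs hr hs)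
  have h2F : (2 : F) ≠ 0 := two_ne hp2
  set v := g (Pi.single i₀ 1) with hvdef
  have v0 : ∀ u, u ≠ r → u ≠ s → v u = 0 := by
    intro u h1 h3
    by_contra h0
    exact hZ (three_coord hcard hp2 hp3 h hι hv hrs h1.symm h3.symm hr hs h0)
  obtain ⟨t1, t2⟩ := two_support hcard hp2 hp3 h (by omega) hv hrs hr hs v0 hZ
  have ee : ∀ k, k ≠ i₀ → g (Pi.single k 1) ⬝ᵥ v = 0 := by
    intro k hk
    rw [hvdef, hgd, single_dot_single hk]
  obtain ⟨k, hk, u, hur, hus, hu⟩ : ∃ k, k ≠ i₀ ∧ ∃ u, u ≠ r ∧ u ≠ s ∧ g (Pi.single k 1) u ≠ 0 := by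
    by_contra hc
    push Not at hc
    obtain ⟨k₁, hk₁⟩ := exists_outside ({i₀} : Finset ι) (by
      rw [Finset.card_singleton]
      omega)
    obtain ⟨k₂, hk₂⟩ := exists_outside ({i₀, k₁} : Finset ι) (by
      have := Finset.card_le_two (a := i₀) (b := k₁)
      omega)
    simp only [Finset.mem_insert, Finset.mem_singleton, not_or] at hk₁ hk₂
    have q0 := hc k₁ hk₁
    have w0 := hc k₂ hk₂.1
    have pp := h.unit v hv
    have qq := hgd (Pi.single k₁ 1) (Pi.single k₁ 1)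
    have ww := hgd (Pi.single k₂ 1) (Pi.single k₂ 1)
    have qw := hgd (Pi.single k₁ 1) (Pi.single k₂ 1)
    have qp := ee k₁ hk₁
    have wp := ee k₂ hk₂.1
    rw [single_dot_self] at qq ww
    rw [single_dot_single (Ne.symm hk₂.2)] at qw
    rw [dot_two hrs v0] at pp
    rw [dot_two hrs q0] at qq qw qp
    rw [dot_two hrs w0] at ww wp
    set p₁ := v r
    set p₂ := v s
    set q₁ := g (Pi.single k₁ 1) r
    set q₂ := g (Pi.single k₁ 1) s
    set w₁ := g (Pi.single k₂ 1) r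
    set w₂ := g (Pi.single k₂ 1) s
    have hdet : (p₁ * q₂ - p₂ * q₁) ^ 2 = 1 := by
      linear_combination (q₁ ^ 2 + q₂ ^ 2) * pp + qq - (q₁ * p₁ + q₂ * p₂) * qp
    have hdet0 : p₁ * q₂ - p₂ * q₁ ≠ 0 := by
      intro h0
      rw [h0] at hdet
      simp at hdet
    have e1 : w₁ = 0 := by
      apply mul_left_cancel₀ hdet0
      linear_combination q₂ * wp - p₂ * qw
    have e2 : w₂ = 0 := by
      apply mul_left_cancel₀ hdet0
      linear_combination -q₁ * wp + p₁ * qw
    rw [e1, e2] at ww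
    simp at ww
  set a := v r with ha
  have hsq : v s ^ 2 = v r ^ 2 := by
    apply mul_left_cancel₀ h2F
    rw [t2, t1]
  have hx := signed_pair h (by omega) hv hrs v0 hsq hk.symm
  have hy := hgΛ _ hx
  rw [map_add, map_smul, map_smul, ← hvdef] at hy
  set q := g (Pi.single k 1) with hq
  have hq1 : q ∈ Λ := hgΛ _ (h.frame k)
  have hdot : q r * v r + q s * v s = 0 := by
    rw [← ee k hk]
    simp only [dotProduct]
    symm
    apply Finset.sum_eq_add r s hrs
    · intro c _ hc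
      rw [v0 c hc.1 hc.2, mul_zero]
    · simp
    · simp
  by_cases h1 : v r + q r = 0
  · have e : q s = v s := by
      apply mul_right_cancel₀ hs
      linear_combination hdot - v r * h1 - hsq
    refine hZ (three_coord hcard hp2 hp3 h hι hq1 hrs hur.symm hus.symm ?_ (by rwa [e]) hu)
    intro h0
    rw [h0] at h1
    exact hr (by linear_combination h1)
  by_cases h3 : v s + q s = 0
  · have e : q r = v r := by
      apply mul_right_cancel₀ hr
      linear_combination hdot + (-v s) * h3 + hsq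
    refine hZ (three_coord hcard hp2 hp3 h hι hq1 hrs hur.symm hus.symm (by rwa [e]) ?_ hu)
    intro h0
    rw [h0] at h3
    exact hs (by linear_combination h3)
  have ha0 : v r ≠ 0 := hr
  refine hZ (three_coord hcard hp2 hp3 h hι hy hrs hur.symm hus.symm ?_ ?_ ?_)
  · simp only [Pi.add_apply, Pi.smul_apply, smul_eq_mul]
    rw [← mul_add]
    exact mul_ne_zero ha0 h1
  · simp only [Pi.add_apply, Pi.smul_apply, smul_eq_mul]
    rw [← mul_add]
    exact mul_ne_zero ha0 h3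
  · simp only [Pi.add_apply, Pi.smul_apply, smul_eq_mul]
    rw [v0 u hur hus, mul_zero, zero_add]
    exact mul_ne_zero ha0 hu

end Main

end Cfsg.Agent.Lib.OmFrame.VecMain
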