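/-
Closed systems of vectors of norm two containing the roots `±e_i ± e_j`, over a prime field in which `2` is not a
square, in which every vector with a vanishing coordinate is a root: all of their vectors are roots.
-/
import Cfsg.Agent.Lib.OmFrame.VecMain

set_option autoImplicit false
set_option linter.unusedSectionVars false
set_option linter.style.haveILetI false
set_option linter.unusedVariables false

open Matrix

namespace Cfsg.Agent.Lib.OmFrame.EvenV2

open Cfsg.Agent.Lib.OmFrame.Dick Cfsg.Agent.Lib.OmFrame.Vec Cfsg.Agent.Lib.OmFrame.VecMain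

variable {F : Type*} [Field F] {ι : Type*} [Fintype ι] [DecidableEq ι]

/-- The reflection in a vector of norm two. -/
def R2 (a b : ι → F) : ι → F := b - (a ⬝ᵥ b) • a

lemma R2_apply (a b : ι → F) (i : ι) : R2 a b i = b i - (a ⬝ᵥ b) * a i := by simp [R2]

/-- The roots. -/
def IsRoot (y : ι → F) : Prop :=
  ∃ i j, i ≠ j ∧ ∃ α β : F, α ^ 2 = 1 ∧ β ^ 2 = 1 ∧ y = α • Pi.single i 1 + β • Pi.single j 1

/-- The closed systems. -/
structure CS2 (Λ : Set (ι → F)) : Prop where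
  norm : ∀ y ∈ Λ, y ⬝ᵥ y = 2
  root : ∀ y, IsRoot y → y ∈ Λ
  refl : ∀ a ∈ Λ, ∀ b ∈ Λ, R2 a b ∈ Λ
  zr : ∀ y ∈ Λ, ∀ l, y l = 0 → IsRoot y

lemma IsRoot.three {z : ι → F} (h : IsRoot z) {a b c : ι} (hab : a ≠ b) (hac : a ≠ c) (hbc : b ≠ c)
    (ha : z a ≠ 0) (hb : z b ≠ 0) (hc : z c ≠ 0) : False := by
  obtain ⟨i, j, -, α, β, -, -, rfl⟩ := h
  have key : ∀ x, x ≠ i → x ≠ j → (α • (Pi.single i 1 : ι → F) + β • (Pi.single j 1 : ι → F)) x = 0 := by
    intro x h1 h2
    simp [Pi.single_eq_of_ne h1, Pi.single_eq_of_ne h2]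
  by_cases h1 : a = i
  · by_cases h2 : b = j
    · exact hc (key c (fun e => hac (h1.trans e.symm)) (fun e => hbc (h2.trans e.symm)))
    · exact hb (key b (fun e => hab (h1.trans e.symm)) h2)
  · by_cases h2 : a = j
    · by_cases h3 : b = i
      · exact hc (key c (fun e => hbc (h3.trans e.symm)) (fun e => hac (h2.trans e.symm)))
      · exact hb (key b h3 (fun e => hab (h2.trans e.symm)))
    · exact ha (key a h1 h2)

variable {Λ : Set (ι → F)}

lemma CS2.root_mem (h : CS2 Λ) {i j : ι} (hij : i ≠ j) {β : F} (hβ : β ^ 2 = 1) :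
    (Pi.single i 1 + β • Pi.single j 1 : ι → F) ∈ Λ := by
  refine h.root _ ⟨i, j, hij, 1, β, by norm_num, hβ, ?_⟩
  simp

lemma root_dot (i j : ι) (β : F) (y : ι → F) : (Pi.single i 1 + β • Pi.single j 1 : ι → F) ⬝ᵥ y = y i + β * y j := by
  rw [add_dotProduct, smul_dotProduct, single_one_dotProduct, single_one_dotProduct, smul_eq_mul]

/-- Flipping a set of coordinates. -/
def flp (A : Finset ι) (y : ι → F) : ι → F := fun m => if m ∈ A then - y m else y m

lemma CS2.flp_pair (h : CS2 Λ) {y : ι → F} (hy : y ∈ Λ) {i j : ι} (hij : i ≠ j) : flp {i, j} y ∈ Λ := by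
  have h1 := h.refl _ (h.root_mem hij (β := -1) (by norm_num)) _ hy
  have h2 := h.refl _ (h.root_mem hij (β := 1) (by norm_num)) _ h1
  convert h2 using 1
  ext m
  simp only [flp, R2_apply, root_dot, Finset.mem_insert, Finset.mem_singleton, Pi.add_apply, Pi.smul_apply,
    smul_eq_mul]
  have s1 : (Pi.single i 1 : ι → F) j = 0 := Pi.single_eq_of_ne (Ne.symm hij) _
  have s2 : (Pi.single j 1 : ι → F) i = 0 := Pi.single_eq_of_ne hij _
  by_cases hi : m = i
  · subst hi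
    simp [s1, s2]
  · by_cases hj : m = j
    · subst hj
      simp [s1, s2, hi]
      try ring
    · simp [hi, hj, Pi.single_eq_of_ne hi, Pi.single_eq_of_ne hj]

lemma CS2.flp_mem (h : CS2 Λ) {y : ι → F} (hy : y ∈ Λ) : ∀ (n : ℕ) (A : Finset ι), A.card = 2 * n → flp A y ∈ Λ := by
  intro n
  induction n with
  | zero =>
    intro A hA
    have : A = ∅ := Finset.card_eq_zero.1 (by simpa using hA)
    subst this
    have e : flp ∅ y = y := by
      ext m
      simp [flp]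
    rw [e]
    exact hy
  | succ n ih =>
    intro A hA
    obtain ⟨i, j, hij, -, -, -⟩ : ∃ i j, i ≠ j ∧ i ∈ A ∧ j ∈ A ∧ True := by
      obtain ⟨i, hi, j, hj, hij⟩ := Finset.one_lt_card.1 (show 1 < A.card by omega)
      exact ⟨i, j, hij, hi, hj, trivial⟩
    obtain ⟨i, j, hij, hi, hj⟩ : ∃ i j, i ≠ j ∧ i ∈ A ∧ j ∈ A := by
      obtain ⟨i, hi, j, hj, hij⟩ := Finset.one_lt_card.1 (show 1 < A.card by omega)
      exact ⟨i, j, hij, hi, hj⟩
    have hc : ((A.erase i).erase j).card = 2 * n := by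
      rw [Finset.card_erase_of_mem (Finset.mem_erase.2 ⟨hij.symm, hj⟩), Finset.card_erase_of_mem hi, hA]
      omega
    have h1 := h.flp_pair (ih _ hc) hij
    convert h1 using 1
    ext m
    simp only [flp, Finset.mem_insert, Finset.mem_singleton, Finset.mem_erase]
    by_cases h3 : m = i
    · subst h3
      simp [hi, hij]
    · by_cases h4 : m = j
      · subst h4
        simp [hj, h3]
      · simp [h3, h4]

lemma dot_flp (A : Finset ι) (y : ι → F) : y ⬝ᵥ flp A y = y ⬝ᵥ y - 2 * ∑ i ∈ A, y i ^ 2 := by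
  have e : ∀ i, y i * flp A y i = y i ^ 2 - 2 * (if i ∈ A then y i ^ 2 else 0) := by
    intro i
    by_cases hi : i ∈ A
    · simp only [flp, hi, if_true]
      ring
    · simp only [flp, hi, if_false]
      ring
  simp only [dotProduct, e, Finset.sum_sub_distrib, ← Finset.mul_sum]
  simp [Finset.sum_ite_mem, sq]

/-- The reflected vector. -/
def zz (A : Finset ι) (y : ι → F) : ι → F := R2 y (flp A y)

lemma CS2.zz_mem (h : CS2 Λ) {y : ι → F} (hy : y ∈ Λ) {n : ℕ} {A : Finset ι} (hA : A.card = 2 * n) : zz A y ∈ Λ :=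
  h.refl _ hy _ (h.flp_mem hy n A hA)

lemma CS2.zz_in (h : CS2 Λ) {y : ι → F} (hy : y ∈ Λ) (A : Finset ι) {m : ι} (hm : m ∈ A) :
    zz A y m = - (1 + (2 - 2 * ∑ i ∈ A, y i ^ 2)) * y m := by
  rw [zz, R2_apply, dot_flp, h.norm y hy]
  simp only [flp, hm, if_true]
  ring

lemma CS2.zz_out (h : CS2 Λ) {y : ι → F} (hy : y ∈ Λ) (A : Finset ι) {m : ι} (hm : m ∉ A) :
    zz A y m = (1 - (2 - 2 * ∑ i ∈ A, y i ^ 2)) * y m := by
  rw [zz, R2_apply, dot_flp, h.norm y hy]
  simp only [flp, hm, if_false]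
  ring

/-- A vector with three non-zero coordinates has no vanishing coordinates. -/
lemma CS2.fs_of_three (h : CS2 Λ) {z : ι → F} (hz : z ∈ Λ) {a b c : ι} (hab : a ≠ b) (hac : a ≠ c) (hbc : b ≠ c)
    (ha : z a ≠ 0) (hb : z b ≠ 0) (hc : z c ≠ 0) (l : ι) : z l ≠ 0 := by
  intro h0
  exact (h.zr z hz l h0).three hab hac hbc ha hb hc

/-- `κ = -1`. -/
lemma CS2.kminus (h : CS2 Λ) {y : ι → F} (hy : y ∈ Λ) (fs : ∀ l, y l ≠ 0) {n : ℕ} {A : Finset ι} (hA : A.card = 2 * n)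
    (hne : A.Nonempty) (hS : 2 * ∑ i ∈ A, y i ^ 2 = 3) (h2 : (2 : F) ≠ 0) (hc : 2 < Aᶜ.card) : False := by
  obtain ⟨a, ha, b, hb, c, hc', hab, hac, hbc⟩ := Finset.two_lt_card.1 hc
  obtain ⟨m, hm⟩ := hne
  rw [Finset.mem_compl] at ha hb hc'
  have hz := h.zz_mem hy hA
  have e : 1 - (2 - 2 * ∑ i ∈ A, y i ^ 2) = 2 := by rw [hS]; ring
  refine h.fs_of_three hz hab hac hbc ?_ ?_ ?_ m ?_
  · rw [h.zz_out hy A ha, e]
    exact mul_ne_zero h2 (fs a)
  · rw [h.zz_out hy A hb, e]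
    exact mul_ne_zero h2 (fs b)
  · rw [h.zz_out hy A hc', e]
    exact mul_ne_zero h2 (fs c)
  · rw [h.zz_in hy A hm, hS]
    ring

/-- `κ = 1`. -/
lemma CS2.kplus (h : CS2 Λ) {y : ι → F} (hy : y ∈ Λ) (fs : ∀ l, y l ≠ 0) {n : ℕ} {A : Finset ι} (hA : A.card = 2 * n)
    (hne : Aᶜ.Nonempty) (hS : 2 * ∑ i ∈ A, y i ^ 2 = 1) (h2 : (2 : F) ≠ 0) (hc : 2 < A.card) : False := by
  obtain ⟨a, ha, b, hb, c, hc', hab, hac, hbc⟩ := Finset.two_lt_card.1 hc
  obtain ⟨m, hm⟩ := hne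
  rw [Finset.mem_compl] at hm
  have hz := h.zz_mem hy hA
  have e : - (1 + (2 - 2 * ∑ i ∈ A, y i ^ 2)) = -2 := by rw [hS]; ring
  have hm2 : (-2 : F) ≠ 0 := neg_ne_zero.2 h2
  refine h.fs_of_three hz hab hac hbc ?_ ?_ ?_ m ?_
  · rw [h.zz_in hy A ha, e]
    exact mul_ne_zero hm2 (fs a)
  · rw [h.zz_in hy A hb, e]
    exact mul_ne_zero hm2 (fs b)
  · rw [h.zz_in hy A hc', e]
    exact mul_ne_zero hm2 (fs c)
  · rw [h.zz_out hy A hm, hS]
    ring

section Uni

/-- The unipotent family. -/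
def Tk (y f : ι → F) (k : F) (u : ι → F) : ι → F :=
  u + (2 * k * (y ⬝ᵥ u)) • f - (2 * k * (f ⬝ᵥ u)) • y - (4 * k ^ 2 * (f ⬝ᵥ u)) • f

lemma Tk_succ {y f : ι → F} (hyy : y ⬝ᵥ y = 2) (hyf : y ⬝ᵥ f = 0) (hff : f ⬝ᵥ f = 0) (k : F) (u : ι → F) :
    R2 y (R2 (y - (2 : F) • f) (Tk y f k u)) = Tk y f (k + 1) u := by
  have hfy : f ⬝ᵥ y = 0 := by rw [dotProduct_comm, hyf]
  have e1 : y ⬝ᵥ Tk y f k u = y ⬝ᵥ u - 4 * k * (f ⬝ᵥ u) := by
    simp only [Tk, dotProduct_sub, dotProduct_add, dotProduct_smul, hyf, hyy, smul_eq_mul]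
    ring
  have e2 : f ⬝ᵥ Tk y f k u = f ⬝ᵥ u := by
    simp only [Tk, dotProduct_sub, dotProduct_add, dotProduct_smul, hff, hfy, smul_eq_mul]
    ring
  have e3 : (y - (2 : F) • f) ⬝ᵥ Tk y f k u = y ⬝ᵥ u - 4 * k * (f ⬝ᵥ u) - 2 * (f ⬝ᵥ u) := by
    rw [sub_dotProduct, smul_dotProduct, e1, e2, smul_eq_mul]
  have e4 : y ⬝ᵥ (Tk y f k u - (y ⬝ᵥ u - 4 * k * (f ⬝ᵥ u) - 2 * (f ⬝ᵥ u)) • (y - (2 : F) • f)) =
      y ⬝ᵥ u - 4 * k * (f ⬝ᵥ u) - 2 * (y ⬝ᵥ u - 4 * k * (f ⬝ᵥ u) - 2 * (f ⬝ᵥ u)) := by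
    rw [dotProduct_sub, e1, dotProduct_smul, dotProduct_sub, dotProduct_smul, hyy, hyf, smul_eq_mul, smul_eq_mul]
    ring
  simp only [R2]
  rw [e3, e4]
  ext i
  simp only [Tk, Pi.sub_apply, Pi.add_apply, Pi.smul_apply, smul_eq_mul]
  ring

lemma CS2.Tk_mem (h : CS2 Λ) {y f : ι → F} (hy : y ∈ Λ) (hy' : y - (2 : F) • f ∈ Λ) (hyf : y ⬝ᵥ f = 0)
    (hff : f ⬝ᵥ f = 0) {u : ι → F} (hu : u ∈ Λ) (n : ℕ) : Tk y f (n : F) u ∈ Λ := by
  induction n with
  | zero =>
    simpa [Tk] using hu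
  | succ n ih =>
    rw [Nat.cast_succ, ← Tk_succ (h.norm y hy) hyf hff]
    exact h.refl _ hy _ (h.refl _ hy' _ ih)

end Uni

lemma cut_norm {i j : ι} (hij : i ≠ j) (y : ι → F) : cut i j y ⬝ᵥ cut i j y = y ⬝ᵥ y - y i ^ 2 - y j ^ 2 := by
  have e : ∀ k, y k * y k = cut i j y k * cut i j y k + (if k = i then y i ^ 2 else 0) + (if k = j then y j ^ 2 else 0) := by
    intro k
    by_cases h1 : k = i
    · subst h1
      simp [cut, hij, sq]
    by_cases h2 : k = j
    · subst h2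
      simp [cut, h1, sq]
    simp [cut, h1, h2]
  have h1 : y ⬝ᵥ y = cut i j y ⬝ᵥ cut i j y + y i ^ 2 + y j ^ 2 := by
    simp only [dotProduct]
    rw [Finset.sum_congr rfl (fun k _ => e k), Finset.sum_add_distrib, Finset.sum_add_distrib]
    simp
  rw [h1]
  ring

lemma cut_dot {i j : ι} (y : ι → F) : y ⬝ᵥ cut i j y = cut i j y ⬝ᵥ cut i j y := by
  simp only [dotProduct]
  apply Finset.sum_congr rfl
  intro k _
  by_cases h1 : k = i ∨ k = j
  · simp [cut, h1]
  · simp [cut, h1]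

lemma cut_of_ne {i j k : ι} (y : ι → F) (h1 : k ≠ i) (h2 : k ≠ j) : cut i j y k = y k := by
  simp [cut, h1, h2]

lemma exists_three_outside (A : Finset ι) (h : A.card + 3 ≤ Fintype.card ι) :
    ∃ a b c, a ≠ b ∧ a ≠ c ∧ b ≠ c ∧ a ∉ A ∧ b ∉ A ∧ c ∉ A := by
  have h1 : 2 < Aᶜ.card := by
    rw [Finset.card_compl]
    omega
  obtain ⟨a, ha, b, hb, c, hc, hab, hac, hbc⟩ := Finset.two_lt_card.1 h1
  rw [Finset.mem_compl] at ha hb hc
  exact ⟨a, b, c, hab, hac, hbc, ha, hb, hc⟩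

section Main

variable {p : ℕ} [Fact p.Prime] [CharP F p] [Fintype F] [DecidableEq F]

/-- The isotropic complement. -/
lemma CS2.phi_lemma (hcard : Fintype.card F = p) (hp2 : p ≠ 2) (h : CS2 Λ) (hev : Even (Fintype.card ι))
    (h14 : 6 ≤ Fintype.card ι) {y : ι → F} (hy : y ∈ Λ) (fs : ∀ l, y l ≠ 0) {i j : ι} (hij : i ≠ j)
    (hsum : y i ^ 2 + y j ^ 2 = 2) : y i ^ 2 = 1 := by
  by_contra hne
  have h2F : (2 : F) ≠ 0 := two_ne hp2
  set f := cut i j y with hf
  have hff : f ⬝ᵥ f = 0 := by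
    rw [hf, cut_norm hij, h.norm y hy]
    linear_combination -hsum
  have hyf : y ⬝ᵥ f = 0 := by
    rw [hf, cut_dot, ← hf, hff]
  have hfl : ∀ l, l ≠ i → l ≠ j → f l = y l := fun l h1 h2 => cut_of_ne y h1 h2
  have hfi : f i = 0 := by simp [hf, cut]
  have hfj : f j = 0 := by simp [hf, cut]
  have hy' : y - (2 : F) • f ∈ Λ := by
    obtain ⟨n, hn⟩ := hev
    have hc : ((Finset.univ.erase i).erase j).card = 2 * (n - 1) := by
      rw [Finset.card_erase_of_mem (Finset.mem_erase.2 ⟨hij.symm, Finset.mem_univ j⟩),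
        Finset.card_erase_of_mem (Finset.mem_univ i), Finset.card_univ]
      omega
    convert h.flp_mem hy _ _ hc using 1
    ext l
    simp only [Pi.sub_apply, Pi.smul_apply, smul_eq_mul, flp, Finset.mem_erase, Finset.mem_univ, and_true]
    by_cases h1 : l = i
    · subst h1
      simp [hfi, hij]
    by_cases h2 : l = j
    · subst h2
      simp [hfj]
    simp only [h1, h2, hfl l h1 h2, ne_eq, not_false_eq_true, and_self, if_true]
    ring
  obtain ⟨m, hm⟩ := exists_outside ({i, j} : Finset ι) (by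
    have := Finset.card_le_two (a := i) (b := j)
    omega)
  simp only [Finset.mem_insert, Finset.mem_singleton, not_or] at hm
  obtain ⟨hmi, hmj⟩ := hm
  have hu := h.root_mem (Ne.symm hmi) (β := 1) (by norm_num)
  set u : ι → F := Pi.single i 1 + (1 : F) • Pi.single m 1 with hudef
  have e1 : y ⬝ᵥ u = y i + y m := by
    rw [dotProduct_comm, hudef, root_dot, one_mul]
  have e2 : f ⬝ᵥ u = y m := by
    rw [dotProduct_comm, hudef, root_dot, one_mul, hfi, zero_add, hfl m hmi hmj]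
  set k : F := (2 * y m * y i)⁻¹ with hk
  have hk1 : 2 * k * y m * y i = 1 := by
    have hn0 := mul_ne_zero (mul_ne_zero h2F (fs m)) (fs i)
    calc 2 * k * y m * y i = (2 * y m * y i) * k := by ring
      _ = 1 := by rw [hk]; exact mul_inv_cancel₀ hn0
  obtain ⟨n, hn⟩ := natCast_surj hcard k
  have hv := h.Tk_mem hy hy' hyf hff hu n
  rw [hn] at hv
  set v := Tk y f k u with hvdef
  have ui : u i = 1 := by
    simp [hudef, Pi.single_eq_of_ne (Ne.symm hmi)]
  have ul : ∀ l, l ≠ i → l ≠ m → u l = 0 := by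
    intro l h1 h3
    simp [hudef, Pi.single_eq_of_ne h1, Pi.single_eq_of_ne h3]
  have hvi : v i = 0 := by
    simp only [hvdef, Tk, e1, e2, Pi.sub_apply, Pi.add_apply, Pi.smul_apply, smul_eq_mul, hfi, ui]
    linear_combination -hk1
  have hvl : ∀ l, l ≠ i → l ≠ j → l ≠ m → v l ≠ 0 := by
    intro l h1 h2 h3
    have e3 : v l = 2 * k * y l * (y i - 2 * k * y m) := by
      simp only [hvdef, Tk, e1, e2, Pi.sub_apply, Pi.add_apply, Pi.smul_apply, smul_eq_mul, hfl l h1 h2, ul l h1 h3]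
      ring
    rw [e3]
    have hk0 : k ≠ 0 := by
      intro h0
      rw [h0] at hk1
      simp at hk1
    refine mul_ne_zero (mul_ne_zero (mul_ne_zero h2F hk0) (fs l)) ?_
    intro h0
    apply hne
    have : y i * (y i - 2 * k * y m) = 0 := by rw [h0, mul_zero]
    linear_combination this + hk1
  obtain ⟨a, b, c, hab, hac, hbc, ha, hb, hc⟩ := exists_three_outside ({i, j, m} : Finset ι) (by
    have := Finset.card_le_three (a := i) (b := j) (c := m)
    omega)
  simp only [Finset.mem_insert, Finset.mem_singleton, not_or] at ha hb hc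
  exact (h.zr v hv i hvi).three hab hac hbc (hvl a ha.1 ha.2.1 ha.2.2) (hvl b hb.1 hb.2.1 hb.2.2)
    (hvl c hc.1 hc.2.1 hc.2.2)

/-- The values of the squares. -/
def Gs (w : F) : Prop := w = 1 ∨ w ^ 2 - 3 * w + 1 = 0

/-- The ternary subspace. -/
def Ps (i j : ι) (ε : F) (f : ι → F) (t : F × F × F) : ι → F :=
  t.1 • (Pi.single i 1 + ε • Pi.single j 1) + t.2.1 • (Pi.single i 1 + (-ε) • Pi.single j 1) + t.2.2 • f

lemma Ps_apply (i j : ι) (ε : F) (f : ι → F) (t : F × F × F) (l : ι) :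
    Ps i j ε f t l = (t.1 + t.2.1) * (Pi.single i 1 : ι → F) l + ε * (t.1 - t.2.1) * (Pi.single j 1 : ι → F) l +
      t.2.2 * f l := by
  simp only [Ps, Pi.add_apply, Pi.smul_apply, smul_eq_mul]
  ring

lemma Ps_dot {i j : ι} (hij : i ≠ j) {ε : F} (hε : ε ^ 2 = 1) {f : ι → F} (hfi : f i = 0) (hfj : f j = 0)
    (t s : F × F × F) (φ : F) (hφ : f ⬝ᵥ f = 2 * φ) (h2 : (2 : F) ≠ 0) :
    Ps i j ε f t ⬝ᵥ Ps i j ε f s = 2 * bil φ t s := by
  have d1 : (Pi.single i 1 : ι → F) ⬝ᵥ f = 0 := by rw [single_one_dotProduct, hfi]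
  have d2 : (Pi.single j 1 : ι → F) ⬝ᵥ f = 0 := by rw [single_one_dotProduct, hfj]
  have d1' : f ⬝ᵥ (Pi.single i 1 : ι → F) = 0 := by rw [dotProduct_comm, d1]
  have d2' : f ⬝ᵥ (Pi.single j 1 : ι → F) = 0 := by rw [dotProduct_comm, d2]
  have d3 : (Pi.single i 1 : ι → F) ⬝ᵥ Pi.single j 1 = 0 := single_dot_single hij
  have d3' : (Pi.single j 1 : ι → F) ⬝ᵥ Pi.single i 1 = 0 := single_dot_single hij.symm
  have d4 : (Pi.single i 1 : ι → F) ⬝ᵥ Pi.single i 1 = 1 := single_dot_self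
  have d5 : (Pi.single j 1 : ι → F) ⬝ᵥ Pi.single j 1 = 1 := single_dot_self
  simp only [Ps, bil, add_dotProduct, dotProduct_add, smul_dotProduct, dotProduct_smul, smul_eq_mul, d1, d2, d1', d2',
    d3, d3', d4, d5, hφ]
  linear_combination (t.1 * s.1 + t.2.1 * s.2.1 - t.1 * s.2.1 - t.2.1 * s.1) * hε

/-- **The pair constraint.** -/
theorem CS2.pc (hcard : Fintype.card F = p) (hp2 : p ≠ 2) (hp3 : p ≠ 3) (hsq : ¬ IsSquare (2 : F)) (h : CS2 Λ)
    (hev : Even (Fintype.card ι)) (h14 : 6 ≤ Fintype.card ι) {y : ι → F} (hy : y ∈ Λ) (fs : ∀ l, y l ≠ 0) {i j : ι}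
    (hij : i ≠ j) {ε : F} (hε : ε ^ 2 = 1) (hne : y i ^ 2 ≠ y j ^ 2) : Gs ((y i + ε * y j) ^ 2) := by
  have h2F : (2 : F) ≠ 0 := two_ne hp2
  have hpp := (Fact.out : p.Prime)
  have hodd : Fintype.card F % 2 = 1 := by
    rw [hcard]
    rcases hpp.eq_two_or_odd with h | h
    · exact absurd h hp2
    · exact h
  set f := cut i j y with hf
  have hfl : ∀ l, l ≠ i → l ≠ j → f l = y l := fun l h1 h2 => cut_of_ne y h1 h2
  have hfi : f i = 0 := by simp [hf, cut]
  have hfj : f j = 0 := by simp [hf, cut]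
  have hff : f ⬝ᵥ f = 2 - y i ^ 2 - y j ^ 2 := by
    rw [hf, cut_norm hij, h.norm y hy]
  set φ := (2 - y i ^ 2 - y j ^ 2) / 2 with hφdef
  have hφ2 : f ⬝ᵥ f = 2 * φ := by
    rw [hff, hφdef]
    field_simp
  have hφ0 : φ ≠ 0 := by
    intro h0
    have h3 : y i ^ 2 + y j ^ 2 = 2 := by
      rw [h0, mul_zero, hff] at hφ2
      linear_combination -hφ2
    have h4 := h.phi_lemma hcard hp2 hev h14 hy fs hij h3
    have h5 := h.phi_lemma hcard hp2 hev h14 hy fs hij.symm (by rw [add_comm]; exact h3)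
    exact hne (h4.trans h5.symm)
  have hεne : ε ≠ 0 := by
    intro h0
    rw [h0] at hε
    norm_num at hε
  obtain ⟨a, b, hab⟩ := exists_binary hodd one_ne_zero hφ0 (-φ)
  rw [one_mul] at hab
  let S : Set (F × F × F) := {t | nrm φ t = 1 ∧ Ps i j ε f t ∈ Λ}
  have hSn : ∀ t ∈ S, nrm φ t = 1 := fun t ht => ht.1
  have hSr : ∀ t ∈ S, ∀ s ∈ S, rfl3 φ t s ∈ S := by
    intro t ht s hs
    refine ⟨by rw [nrm_rfl3 ht.1]; exact hs.1, ?_⟩
    have e : Ps i j ε f (rfl3 φ t s) = R2 (Ps i j ε f t) (Ps i j ε f s) := by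
      rw [R2, Ps_dot hij hε hfi hfj t s φ hφ2 h2F]
      have e' : bil φ s t = bil φ t s := by
        simp only [bil]
        ring
      ext l
      simp only [Ps, rfl3, e', Pi.sub_apply, Pi.add_apply, Pi.smul_apply, smul_eq_mul]
      ring
    rw [e]
    exact h.refl _ ht.2 _ hs.2
  have h1 : ((1 : F), (0 : F), (0 : F)) ∈ S := by
    refine ⟨by simp [nrm], ?_⟩
    have : Ps i j ε f ((1 : F), (0 : F), (0 : F)) = Pi.single i 1 + ε • Pi.single j 1 := by
      simp [Ps]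
    rw [this]
    exact h.root_mem hij hε
  have h2 : ((0 : F), (1 : F), (0 : F)) ∈ S := by
    refine ⟨by simp [nrm], ?_⟩
    have : Ps i j ε f ((0 : F), (1 : F), (0 : F)) = Pi.single i 1 + (-ε) • Pi.single j 1 := by
      simp [Ps]
    rw [this]
    exact h.root_mem hij (by rw [neg_sq]; exact hε)
  set ξ := (y i + ε * y j) / 2 with hξ
  set η := (y i - ε * y j) / 2 with hη
  have hξ2 : 2 * ξ = y i + ε * y j := by
    rw [hξ]
    field_simp
  have hη2 : 2 * η = y i - ε * y j := by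
    rw [hη]
    field_simp
  have hPs : Ps i j ε f (ξ, η, 1) = y := by
    ext l
    rw [Ps_apply]
    simp only [one_mul]
    by_cases h3 : l = i
    · rw [h3, hfi, Pi.single_eq_same, Pi.single_eq_of_ne hij]
      apply mul_left_cancel₀ h2F
      linear_combination hξ2 + hη2
    by_cases h4 : l = j
    · rw [h4, hfj, Pi.single_eq_same, Pi.single_eq_of_ne (Ne.symm hij)]
      have : ξ - η = ε * y j := by
        apply mul_left_cancel₀ h2F
        linear_combination hξ2 - hη2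
      rw [this]
      linear_combination (y j) * hε
    rw [Pi.single_eq_of_ne h3, Pi.single_eq_of_ne h4, hfl l h3 h4]
    ring
  have hne2 : (y i - ε * y j) * (y i + ε * y j) ≠ 0 := by
    intro h0
    apply hne
    linear_combination h0 + (y j ^ 2) * hε
  have hξ0 : ξ ≠ 0 := by
    intro h0
    apply hne2
    rw [← hξ2, h0]
    ring
  have hη0 : η ≠ 0 := by
    intro h0
    apply hne2
    rw [← hη2, h0]
    ring
  have h3 : (ξ, η, (1 : F)) ∈ S := by
    refine ⟨?_, by rw [hPs]; exact hy⟩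
    simp only [nrm]
    have e : 4 * (ξ ^ 2 + η ^ 2 + φ * 1 ^ 2) = 4 := by
      have e1 : 4 * ξ ^ 2 = (y i + ε * y j) ^ 2 := by rw [← hξ2]; ring
      have e2 : 4 * η ^ 2 = (y i - ε * y j) ^ 2 := by rw [← hη2]; ring
      have e3 : 2 * φ = 2 - y i ^ 2 - y j ^ 2 := by rw [← hφ2, hff]
      linear_combination e1 + e2 + 2 * e3 + (2 * y j ^ 2) * hε
    have h4 : (4 : F) ≠ 0 := by
      rw [show (4 : F) = 2 * 2 by norm_num]
      exact mul_ne_zero h2F h2F
    exact mul_left_cancel₀ h4 (by linear_combination e)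
  rcases dickson_frame hcard hp2 hp3 hφ0 hab hSn hSr h1 h2 h3 hξ0 hη0 one_ne_zero with hall | hpol
  · exfalso
    obtain ⟨u, v, huv⟩ := exists_binary hodd h2F hφ0 1
    have hv0 : v ≠ 0 := by
      intro h0
      apply hsq
      rw [h0] at huv
      refine ⟨2 * u, ?_⟩
      linear_combination (-2 : F) * huv
    have hm := (hall (u, -u, v) (by
      simp only [nrm]
      linear_combination huv)).2
    have hzero : Ps i j ε f (u, -u, v) i = 0 := by
      rw [Ps_apply]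
      simp [hfi, Pi.single_eq_of_ne hij]
    obtain ⟨a', b', c', hab', hac', hbc', ha', hb', hc'⟩ := exists_three_outside ({i, j} : Finset ι) (by
      have := Finset.card_le_two (a := i) (b := j)
      omega)
    simp only [Finset.mem_insert, Finset.mem_singleton, not_or] at ha' hb' hc'
    have hval : ∀ l, l ≠ i → l ≠ j → Ps i j ε f (u, -u, v) l ≠ 0 := by
      intro l h5 h6
      rw [Ps_apply]
      simp only [Pi.single_eq_of_ne h5, Pi.single_eq_of_ne h6, mul_zero, zero_add, hfl l h5 h6]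
      exact mul_ne_zero hv0 (fs l)
    exact (h.zr _ hm i hzero).three hab' hac' hbc' (hval a' ha'.1 ha'.2) (hval b' hb'.1 hb'.2)
      (hval c' hc'.1 hc'.2)
  · have e1 : 4 * ξ ^ 2 = (y i + ε * y j) ^ 2 := by rw [← hξ2]; ring
    set σ2 := (y i + ε * y j) ^ 2 with hσ2
    rcases mul_eq_zero.1 hpol with h5 | h5
    · rcases mul_eq_zero.1 h5 with h6 | h6
      · left
        linear_combination h6 - e1
      · exfalso
        apply hsq
        refine ⟨y i + ε * y j, ?_⟩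
        have : σ2 = 2 := by
          linear_combination -e1 + 2 * h6
        rw [← sq, ← hσ2, this]
    · right
      have : σ2 ^ 2 - 3 * σ2 + 1 = 16 * ξ ^ 4 - 12 * ξ ^ 2 + 1 := by
        rw [← e1]
        ring
      rw [this, h5]

/-- Reflected roots give products. -/
theorem CS2.pc2 (hcard : Fintype.card F = p) (hp2 : p ≠ 2) (hp3 : p ≠ 3) (hsq : ¬ IsSquare (2 : F)) (h : CS2 Λ)
    (hev : Even (Fintype.card ι)) (h14 : 6 ≤ Fintype.card ι) {y : ι → F} (hy : y ∈ Λ) (fs : ∀ l, y l ≠ 0)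
    {i j m n : ι} (hij : i ≠ j) (hmn : m ≠ n) (hmi : m ≠ i) (hmj : m ≠ j) (hni : n ≠ i) (hnj : n ≠ j) {ε ε' : F}
    (hε : ε ^ 2 = 1) (hε' : ε' ^ 2 = 1) (h1 : y i ^ 2 ≠ y j ^ 2) (h2 : y m ^ 2 ≠ y n ^ 2) :
    Gs ((y i + ε * y j) ^ 2 * (y m + ε' * y n) ^ 2) := by
  set σ := y i + ε * y j with hσ
  have hσ0 : σ ≠ 0 := by
    intro h0
    apply h1
    have e : y i = - (ε * y j) := by linear_combination h0
    rw [e]
    linear_combination (y j ^ 2) * hε
  have hρ := h.root_mem hij hε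
  have hz := h.refl _ hy _ hρ
  set z := R2 y (Pi.single i 1 + ε • Pi.single j 1) with hzdef
  have hval : ∀ l, l ≠ i → l ≠ j → z l = - σ * y l := by
    intro l h3 h4
    rw [hzdef, R2_apply, dotProduct_comm, root_dot]
    simp [Pi.single_eq_of_ne h3, Pi.single_eq_of_ne h4, hσ]
    ring
  obtain ⟨a, b, c, hab, hac, hbc, ha, hb, hc⟩ := exists_three_outside ({i, j} : Finset ι) (by
    have := Finset.card_le_two (a := i) (b := j)
    omega)
  simp only [Finset.mem_insert, Finset.mem_singleton, not_or] at ha hb hc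
  have hne : ∀ l, l ≠ i → l ≠ j → z l ≠ 0 := by
    intro l h3 h4
    rw [hval l h3 h4]
    exact mul_ne_zero (neg_ne_zero.2 hσ0) (fs l)
  have fz := h.fs_of_three hz hab hac hbc (hne a ha.1 ha.2) (hne b hb.1 hb.2) (hne c hc.1 hc.2)
  have h3 : z m ^ 2 ≠ z n ^ 2 := by
    rw [hval m hmi hmj, hval n hni hnj]
    intro e
    apply h2
    apply mul_left_cancel₀ (pow_ne_zero 2 hσ0)
    linear_combination e
  have := h.pc hcard hp2 hp3 hsq hev h14 hz fz hmn hε' h3
  rw [hval m hmi hmj, hval n hni hnj] at this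
  convert this using 1
  ring

/-- Flips inside a block. -/
theorem CS2.bf (hcard : Fintype.card F = p) (hp2 : p ≠ 2) (hp3 : p ≠ 3) (hsq : ¬ IsSquare (2 : F)) (h : CS2 Λ)
    (hev : Even (Fintype.card ι)) (h14 : 6 ≤ Fintype.card ι) {y : ι → F} (hy : y ∈ Λ) (fs : ∀ l, y l ≠ 0)
    {n₀ : ℕ} {A : Finset ι} (hA : A.card = 2 * n₀) {i m : ι} (hi : i ∈ A) (hm : m ∉ A) (hsqm : y m ^ 2 = y i ^ 2)
    {κ : F} (hκ : κ = 2 - 2 * ∑ i ∈ A, y i ^ 2) (h0 : κ ≠ 0) (h1 : κ ≠ 1) (h2 : κ ≠ -1) :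
    Gs (4 * y i ^ 2) ∧ Gs (4 * κ ^ 2 * y i ^ 2) := by
  have h2F : (2 : F) ≠ 0 := two_ne hp2
  have hz := h.zz_mem hy hA
  have zin : ∀ l ∈ A, zz A y l = - (1 + κ) * y l := by
    intro l hl
    rw [h.zz_in hy A hl, hκ]
  have zout : ∀ l, l ∉ A → zz A y l = (1 - κ) * y l := by
    intro l hl
    rw [h.zz_out hy A hl, hκ]
  have h1p : 1 + κ ≠ 0 := by
    intro e
    exact h2 (by linear_combination e)
  have h1m : 1 - κ ≠ 0 := by
    intro e
    exact h1 (by linear_combination -e)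
  have fz : ∀ l, zz A y l ≠ 0 := by
    intro l
    by_cases hl : l ∈ A
    · rw [zin l hl]
      exact mul_ne_zero (neg_ne_zero.2 h1p) (fs l)
    · rw [zout l hl]
      exact mul_ne_zero h1m (fs l)
  have him : i ≠ m := fun e => hm (e ▸ hi)
  set δ := y m / y i with hδ
  have hδ1 : y m = δ * y i := by
    rw [hδ]
    field_simp [fs i]
  have hδ2 : δ ^ 2 = 1 := by
    apply mul_right_cancel₀ (pow_ne_zero 2 (fs i))
    rw [← mul_pow, ← hδ1, hsqm]
    ring
  have hne : zz A y i ^ 2 ≠ zz A y m ^ 2 := by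
    rw [zin i hi, zout m hm, mul_pow, mul_pow, hsqm]
    intro e
    have h4 : 4 * κ * y i ^ 2 = 0 := by linear_combination e
    have h5 : (4 : F) ≠ 0 := by
      rw [show (4 : F) = 2 * 2 by norm_num]
      exact mul_ne_zero h2F h2F
    exact mul_ne_zero (mul_ne_zero h5 h0) (pow_ne_zero 2 (fs i)) h4
  have hp := h.pc hcard hp2 hp3 hsq hev h14 hz fz him hδ2 hne
  have hq := h.pc hcard hp2 hp3 hsq hev h14 hz fz him (ε := -δ) (by rw [neg_sq]; exact hδ2) hne
  rw [zin i hi, zout m hm, hδ1] at hp hq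
  constructor
  · convert hq using 1
    have e : -(1 + κ) * y i + -δ * ((1 - κ) * (δ * y i)) = - 2 * y i + (1 - κ) * y i * (1 - δ ^ 2) := by ring
    rw [e, hδ2]
    ring
  · convert hp using 1
    have e : -(1 + κ) * y i + δ * ((1 - κ) * (δ * y i)) = - 2 * κ * y i + (1 - κ) * y i * (δ ^ 2 - 1) := by ring
    rw [e, hδ2]
    ring

omit [Fact p.Prime] [CharP F p] [Fintype F] [DecidableEq F] [Fintype ι] [DecidableEq ι] in
lemma sum_const_sq {y : ι → F} {A : Finset ι} {X : F} (h : ∀ l ∈ A, y l ^ 2 = X) : ∑ l ∈ A, y l ^ 2 = (A.card : F) * X := by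
  rw [Finset.sum_congr rfl h, Finset.sum_const, nsmul_eq_mul]

omit [Fact p.Prime] [CharP F p] [Fintype F] [DecidableEq F] [Fintype ι] [DecidableEq ι] in
/-- A double root. -/
lemma alg_eq {h : F} (h3 : (3 : F) ≠ 0) (h5 : (5 : F) ≠ 0) (h2 : (2 : F) ≠ 0) (r : h ^ 2 - 3 * h + 1 = 0)
    (g : Gs (h * h)) : False := by
  rcases g with g | g
  · have e1 : 3 * h = 2 := by linear_combination g - r
    apply h5
    linear_combination (-9 : F) * g + (3 * h + 2) * e1
  · have e1 : 4 * (3 * h - 1) = 0 := by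
      linear_combination g - (h ^ 2 + 3 * h - 1 - 3 + 9 + 0 * h) * r - 0 * r + (12 * h - 4 - (12 * h - 4)) * r
    have h4 : (4 : F) ≠ 0 := by
      rw [show (4 : F) = 2 * 2 by norm_num]
      exact mul_ne_zero h2 h2
    have e2 : 3 * h = 1 := by
      have := (mul_eq_zero.1 e1).resolve_left h4
      linear_combination this
    have e3 : h ^ 2 = 0 := by linear_combination r + e2
    have e4 : h = 0 := pow_eq_zero_iff (by norm_num) |>.1 e3
    rw [e4] at e2
    apply one_ne_zero (α := F)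
    linear_combination -e2

omit [Fact p.Prime] [CharP F p] [Fintype F] [DecidableEq F] [Fintype ι] [DecidableEq ι] in
/-- Three roots. -/
lemma alg3 {h₁ h₂ h₃ : F} (h3 : (3 : F) ≠ 0) (h5 : (5 : F) ≠ 0) (h2 : (2 : F) ≠ 0) (r₁ : h₁ ^ 2 - 3 * h₁ + 1 = 0)
    (r₂ : h₂ ^ 2 - 3 * h₂ + 1 = 0) (r₃ : h₃ ^ 2 - 3 * h₃ + 1 = 0) (g₁₂ : Gs (h₁ * h₂)) (g₁₃ : Gs (h₁ * h₃))
    (g₂₃ : Gs (h₂ * h₃)) : False := by
  by_cases e₁₂ : h₁ = h₂
  · subst e₁₂
    exact alg_eq h3 h5 h2 r₁ g₁₂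
  by_cases e₁₃ : h₁ = h₃
  · subst e₁₃
    exact alg_eq h3 h5 h2 r₁ g₁₃
  by_cases e₂₃ : h₂ = h₃
  · subst e₂₃
    exact alg_eq h3 h5 h2 r₂ g₂₃
  have s1 : h₁ + h₂ - 3 = 0 := by
    apply mul_left_cancel₀ (sub_ne_zero.2 e₁₂)
    linear_combination r₁ - r₂
  have s2 : h₁ + h₃ - 3 = 0 := by
    apply mul_left_cancel₀ (sub_ne_zero.2 e₁₃)
    linear_combination r₁ - r₃
  exact e₂₃ (by linear_combination s1 - s2)

/-- **All vectors are roots.** -/
theorem CS2.all_root (hcard : Fintype.card F = p) (hp2 : p ≠ 2) (hsq : ¬ IsSquare (2 : F)) (h : CS2 Λ)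
    (hev : Even (Fintype.card ι)) (h14 : 14 ≤ Fintype.card ι) {y : ι → F} (hy : y ∈ Λ) : IsRoot y := by
  by_contra hnr
  have fs : ∀ l, y l ≠ 0 := fun l h0 => hnr (h.zr y hy l h0)
  have hpp := (Fact.out : p.Prime)
  have h2F : (2 : F) ≠ 0 := two_ne hp2
  have h4F : (4 : F) ≠ 0 := by
    rw [show (4 : F) = 2 * 2 by norm_num]
    exact mul_ne_zero h2F h2F
  have pow1 : ∀ l, y l ^ (p - 1) = 1 := by
    intro l
    rw [← hcard]
    exact FiniteField.pow_card_sub_one_eq_one (y l) (fs l)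
  have compl_big : ∀ A : Finset ι, A.card ≤ 8 → 2 < Aᶜ.card := by
    intro A hA
    rw [Finset.card_compl]
    omega
  by_cases hp3 : p = 3
  · -- `p = 3`
    obtain ⟨A, -, hA⟩ := Finset.exists_subset_card_eq (s := (Finset.univ : Finset ι)) (n := 6) (by simpa using by omega)
    have h3F : (3 : F) = 0 := by
      have : ((3 : ℕ) : F) = 0 := by
        rw [CharP.cast_eq_zero_iff F p 3, hp3]
      exact_mod_cast this
    have hs : ∑ l ∈ A, y l ^ 2 = (A.card : F) * 1 := by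
      apply sum_const_sq
      intro l _
      have := pow1 l
      rwa [hp3] at this
    refine h.kminus hy fs (n := 3) hA ?_ ?_ h2F (compl_big A (by omega))
    · exact Finset.card_pos.1 (by omega)
    · rw [hs, hA]
      push_cast
      linear_combination (3 : F) * h3F
  by_cases hp5 : p = 5
  · -- `p = 5`
    have h5F : (5 : F) = 0 := by
      have : ((5 : ℕ) : F) = 0 := by
        rw [CharP.cast_eq_zero_iff F p 5, hp5]
      exact_mod_cast this
    have hsq4 : ∀ l, y l ^ 2 = 1 ∨ y l ^ 2 = -1 := by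
      intro l
      have h1 := pow1 l
      rw [hp5] at h1
      have h3 : (y l ^ 2 - 1) * (y l ^ 2 + 1) = 0 := by linear_combination h1
      rcases mul_eq_zero.1 h3 with h4 | h4
      · left
        linear_combination h4
      · right
        linear_combination h4
    set B₁ := Finset.univ.filter (fun l => y l ^ 2 = 1) with hB₁
    set B₂ := Finset.univ.filter (fun l => y l ^ 2 = -1) with hB₂
    have hcov : (Finset.univ : Finset ι) ⊆ B₁ ∪ B₂ := by
      intro l _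
      simp only [Finset.mem_union, hB₁, hB₂, Finset.mem_filter, Finset.mem_univ, true_and]
      exact hsq4 l
    have hcard2 : Fintype.card ι ≤ B₁.card + B₂.card :=
      (Finset.card_le_card hcov).trans (Finset.card_union_le _ _)
    by_cases hb : 4 ≤ B₁.card
    · obtain ⟨A, hAB, hA⟩ := Finset.exists_subset_card_eq hb
      have hs : ∑ l ∈ A, y l ^ 2 = (A.card : F) * 1 := by
        apply sum_const_sq
        intro l hl
        exact (Finset.mem_filter.1 (hAB hl)).2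
      refine h.kminus hy fs (n := 2) hA ?_ ?_ h2F (compl_big A (by omega))
      · exact Finset.card_pos.1 (by omega)
      · rw [hs, hA]
        push_cast
        linear_combination h5F
    · obtain ⟨A, hAB, hA⟩ := Finset.exists_subset_card_eq (show 6 ≤ B₂.card by omega)
      have hs : ∑ l ∈ A, y l ^ 2 = (A.card : F) * (-1) := by
        apply sum_const_sq
        intro l hl
        exact (Finset.mem_filter.1 (hAB hl)).2
      refine h.kminus hy fs (n := 3) hA ?_ ?_ h2F (compl_big A (by omega))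
      · exact Finset.card_pos.1 (by omega)
      · rw [hs, hA]
        push_cast
        linear_combination (-3 : F) * h5F
  have h3F : (3 : F) ≠ 0 := three_ne hp3
  have h5F : (5 : F) ≠ 0 := by
    intro h0
    have h3 : ((5 : ℕ) : F) = 0 := by exact_mod_cast h0
    rw [CharP.cast_eq_zero_iff F p 5] at h3
    exact hp5 ((Nat.prime_dvd_prime_iff_eq hpp (by norm_num)).1 h3)
  have hh6 : 6 ≤ Fintype.card ι := by omega
  -- three disjoint pairs are impossible
  have ex_g : ∀ i j, i ≠ j → y i ^ 2 ≠ y j ^ 2 → ∃ ε : F, ε ^ 2 = 1 ∧ ((y i + ε * y j) ^ 2) ^ 2 - 3 * (y i + ε * y j) ^ 2 + 1 = 0 := by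
    intro i j hij hne
    have g1 := h.pc hcard hp2 hp3 hsq hev hh6 hy fs hij (ε := 1) (by norm_num) hne
    have g2 := h.pc hcard hp2 hp3 hsq hev hh6 hy fs hij (ε := -1) (by norm_num) hne
    rcases g1 with g1 | g1
    · rcases g2 with g2 | g2
      · exfalso
        have e : 4 * y i * y j = 0 := by linear_combination g1 - g2
        exact mul_ne_zero (mul_ne_zero h4F (fs i)) (fs j) e
      · exact ⟨-1, by norm_num, g2⟩
    · exact ⟨1, by norm_num, g1⟩
  have hblock : ∃ X : F, 9 ≤ (Finset.univ.filter (fun l => y l ^ 2 = X)).card := by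
    by_contra hb
    push Not at hb
    have ex_pair : ∀ R : Finset ι, 9 ≤ R.card → ∃ i ∈ R, ∃ j ∈ R, y i ^ 2 ≠ y j ^ 2 := by
      intro R hR
      obtain ⟨i, hi⟩ := Finset.card_pos.1 (show 0 < R.card by omega)
      refine ⟨i, hi, ?_⟩
      by_contra hc
      push Not at hc
      have hsub : R ⊆ Finset.univ.filter (fun l => y l ^ 2 = y i ^ 2) := by
        intro j hj
        simp only [Finset.mem_filter, Finset.mem_univ, true_and]
        exact (hc j hj).symm
      have := Finset.card_le_card hsub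
      have := hb (y i ^ 2)
      omega
    obtain ⟨i₁, -, j₁, -, hne₁⟩ := ex_pair Finset.univ (by rw [Finset.card_univ]; omega)
    have hij₁ : i₁ ≠ j₁ := fun e => hne₁ (by rw [e])
    set R₁ := (Finset.univ.erase i₁).erase j₁ with hR₁
    have cR₁ : R₁.card = Fintype.card ι - 2 := by
      rw [hR₁, Finset.card_erase_of_mem (Finset.mem_erase.2 ⟨hij₁.symm, Finset.mem_univ _⟩),
        Finset.card_erase_of_mem (Finset.mem_univ _), Finset.card_univ]
      omega
    obtain ⟨i₂, hi₂, j₂, hj₂, hne₂⟩ := ex_pair R₁ (by omega)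
    have hij₂ : i₂ ≠ j₂ := fun e => hne₂ (by rw [e])
    set R₂ := (R₁.erase i₂).erase j₂ with hR₂
    have cR₂ : R₂.card = Fintype.card ι - 4 := by
      rw [hR₂, Finset.card_erase_of_mem (Finset.mem_erase.2 ⟨hij₂.symm, hj₂⟩), Finset.card_erase_of_mem hi₂, cR₁]
      omega
    obtain ⟨i₃, hi₃, j₃, hj₃, hne₃⟩ := ex_pair R₂ (by omega)
    have hij₃ : i₃ ≠ j₃ := fun e => hne₃ (by rw [e])
    have m2 : ∀ l ∈ R₁, l ≠ i₁ ∧ l ≠ j₁ := by
      intro l hl
      simp only [hR₁, Finset.mem_erase, Finset.mem_univ, and_true] at hl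
      exact ⟨hl.2, hl.1⟩
    have m3 : ∀ l ∈ R₂, l ≠ i₂ ∧ l ≠ j₂ ∧ l ∈ R₁ := by
      intro l hl
      simp only [hR₂, Finset.mem_erase] at hl
      exact ⟨hl.2.1, hl.1, hl.2.2⟩
    obtain ⟨ε₁, hε₁, r₁⟩ := ex_g i₁ j₁ hij₁ hne₁
    obtain ⟨ε₂, hε₂, r₂⟩ := ex_g i₂ j₂ hij₂ hne₂
    obtain ⟨ε₃, hε₃, r₃⟩ := ex_g i₃ j₃ hij₃ hne₃
    have g₁₂ := h.pc2 hcard hp2 hp3 hsq hev hh6 hy fs hij₁ hij₂ (m2 _ hi₂).1 (m2 _ hi₂).2 (m2 _ hj₂).1 (m2 _ hj₂).2
      hε₁ hε₂ hne₁ hne₂
    have g₁₃ := h.pc2 hcard hp2 hp3 hsq hev hh6 hy fs hij₁ hij₃ (m2 _ (m3 _ hi₃).2.2).1 (m2 _ (m3 _ hi₃).2.2).2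
      (m2 _ (m3 _ hj₃).2.2).1 (m2 _ (m3 _ hj₃).2.2).2 hε₁ hε₃ hne₁ hne₃
    have g₂₃ := h.pc2 hcard hp2 hp3 hsq hev hh6 hy fs hij₂ hij₃ (m3 _ hi₃).1 (m3 _ hi₃).2.1 (m3 _ hj₃).1 (m3 _ hj₃).2.1
      hε₂ hε₃ hne₂ hne₃
    exact alg3 h3F h5F h2F r₁ r₂ r₃ g₁₂ g₁₃ g₂₃
  obtain ⟨X, hX⟩ := hblock
  set B₀ := Finset.univ.filter (fun l => y l ^ 2 = X) with hB₀
  have hB₀X : ∀ l ∈ B₀, y l ^ 2 = X := fun l hl => (Finset.mem_filter.1 hl).2
  -- subsets of the block
  have hsub : ∀ n₀ : ℕ, 1 ≤ n₀ → n₀ ≤ 4 → ∃ A : Finset ι, A.card = 2 * n₀ ∧ (∑ l ∈ A, y l ^ 2 = (2 * (n₀ : F)) * X) ∧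
      ∃ i ∈ A, ∃ m, m ∉ A ∧ y m ^ 2 = y i ^ 2 ∧ y i ^ 2 = X := by
    intro n₀ h1 h2
    obtain ⟨A, hAB, hA⟩ := Finset.exists_subset_card_eq (show 2 * n₀ ≤ B₀.card by omega)
    refine ⟨A, hA, ?_, ?_⟩
    · rw [sum_const_sq (fun l hl => hB₀X l (hAB hl)), hA]
      push_cast
      ring
    · obtain ⟨i, hi⟩ := Finset.card_pos.1 (show 0 < A.card by omega)
      obtain ⟨m, hm, hmA⟩ : ∃ m ∈ B₀, m ∉ A := by
        by_contra hc
        push Not at hc
        have := Finset.card_le_card hc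
        omega
      exact ⟨i, hi, m, hmA, by rw [hB₀X m hm, hB₀X i (hAB hi)], hB₀X i (hAB hi)⟩
  set s := 4 * X with hs
  have bf : ∀ n₀ : ℕ, 1 ≤ n₀ → n₀ ≤ 4 → ∀ κ : F, κ = 2 - (n₀ : F) * s → κ ≠ 0 → κ ≠ 1 → κ ≠ -1 → Gs s ∧ Gs (κ ^ 2 * s) := by
    intro n₀ h1 h2 κ hκ h3 h4 h5
    obtain ⟨A, hA, hS, i, hi, m, hm, hm1, hm2⟩ := hsub n₀ h1 h2
    have := h.bf hcard hp2 hp3 hsq hev hh6 hy fs hA hi hm hm1 (κ := κ) (by
      rw [hκ, hS, hs]
      ring) h3 h4 h5
    rw [hm2] at this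
    refine ⟨this.1, ?_⟩
    convert this.2 using 1
    rw [hs]
    ring
  have km : ∀ n₀ : ℕ, 1 ≤ n₀ → n₀ ≤ 4 → (n₀ : F) * s ≠ 3 := by
    intro n₀ h1 h2 e
    obtain ⟨A, hA, hS, i, hi, m, hm, hm1, hm2⟩ := hsub n₀ h1 h2
    refine h.kminus hy fs hA (Finset.card_pos.1 (by omega)) ?_ h2F (compl_big A (by omega))
    rw [hS, ← e, hs]
    ring
  have kp : ∀ n₀ : ℕ, 2 ≤ n₀ → n₀ ≤ 4 → (n₀ : F) * s ≠ 1 := by
    intro n₀ h1 h2 e
    obtain ⟨A, hA, hS, i, hi, m, hm, hm1, hm2⟩ := hsub n₀ (by omega) h2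
    refine h.kplus hy fs hA ⟨m, by simpa using hm⟩ ?_ h2F (by omega)
    rw [hS, ← e, hs]
    ring
  have s1 : s ≠ 1 := by
    intro e
    apply km 3 (by norm_num) (by norm_num)
    rw [e]
    norm_num
  have s3 : s ≠ 3 := by
    intro e
    apply km 1 (by norm_num) (by norm_num)
    rw [e]
    norm_num
  have s2 : s ≠ 2 := by
    intro e
    obtain ⟨A, hA, hS, i, hi, m, hm, hm1, hm2⟩ := hsub 1 (by norm_num) (by norm_num)
    apply hsq
    refine ⟨2 * y i, ?_⟩
    linear_combination (-1 : F) * e + hs + (-4 : F) * hm2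
  -- the quadratic equation
  have r : s ^ 2 - 3 * s + 1 = 0 := by
    have := (bf 1 (by norm_num) (by norm_num) (2 - s) (by norm_num)
      (fun e => s2 (by linear_combination -e)) (fun e => s1 (by linear_combination -e))
      (fun e => s3 (by linear_combination -e))).1
    exact this.resolve_left s1
  have hk2 := (bf 2 (by norm_num) (by norm_num) (2 - 2 * s) (by norm_num)
    (fun e => s1 (by
      apply mul_left_cancel₀ h2F
      linear_combination -e))
    (fun e => kp 2 (by norm_num) (by norm_num) (by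
      push_cast
      linear_combination -e))
    (fun e => km 2 (by norm_num) (by norm_num) (by
      push_cast
      linear_combination -e))).2
  have hw : (2 - 2 * s) ^ 2 * s = 12 * s - 4 := by
    linear_combination (4 * s + 4) * r
  rw [hw] at hk2
  have h11 : (11 : F) = 0 := by
    rcases hk2 with h6 | h6
    · have e : 12 * s = 5 := by linear_combination h6
      have : (144 : F) * (s ^ 2 - 3 * s + 1) = (12 * s) ^ 2 - 36 * (12 * s) + 144 := by ring
      rw [r, e] at this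
      linear_combination this
    · have e1 : 5 * (60 * s - 23) = 0 := by
        linear_combination h6 - 144 * r
      have e : 60 * s = 23 := by
        have := (mul_eq_zero.1 e1).resolve_left h5F
        linear_combination this
      have : (3600 : F) * (s ^ 2 - 3 * s + 1) = (60 * s) ^ 2 - 180 * (60 * s) + 3600 := by ring
      rw [r, e] at this
      linear_combination this
  have hp11 : p = 11 := by
    have h3 : ((11 : ℕ) : F) = 0 := by exact_mod_cast h11
    rw [CharP.cast_eq_zero_iff F p 11] at h3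
    exact (Nat.prime_dvd_prime_iff_eq hpp (by norm_num)).1 h3
  have nz : ∀ n : ℕ, ¬ 11 ∣ n → ((n : ℕ) : F) ≠ 0 := by
    intro n hn h0
    rw [CharP.cast_eq_zero_iff F p n, hp11] at h0
    exact hn h0
  have hsplit : (s - 5) * (s - 9) = 0 := by linear_combination r + (-s + 4) * h11
  rcases mul_eq_zero.1 hsplit with e | e
  · -- `s = 5`
    have e5 : s = 5 := by linear_combination e
    have e8 : (2 : F) - (4 : ℕ) * s = 4 := by
      rw [e5]
      push_cast
      linear_combination (-2 : F) * h11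
    have n4 : (4 : F) ≠ 0 := h4F
    have n3 : (3 : F) ≠ 0 := h3F
    have n5 : (5 : F) ≠ 0 := h5F
    have := (bf 4 (by norm_num) (by norm_num) 4 e8.symm n4
      (fun e => n3 (by linear_combination e)) (fun e => n5 (by linear_combination e))).2
    rw [e5] at this
    rcases this with g | g
    · apply h2F
      linear_combination g - 7 * h11
    · apply one_ne_zero (α := F)
      linear_combination g - 560 * h11
  · -- `s = 9`
    have e9 : s = 9 := by linear_combination e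
    have e8 : (2 : F) - (3 : ℕ) * s = 8 := by
      rw [e9]
      push_cast
      linear_combination (-3 : F) * h11
    have n8 : (8 : F) ≠ 0 := by exact_mod_cast nz 8 (by norm_num)
    have n7 : (7 : F) ≠ 0 := by exact_mod_cast nz 7 (by norm_num)
    have n9 : (9 : F) ≠ 0 := by exact_mod_cast nz 9 (by norm_num)
    have := (bf 3 (by norm_num) (by norm_num) 8 e8.symm n8
      (fun e => n7 (by linear_combination e)) (fun e => n9 (by linear_combination e))).2
    rw [e9] at this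
    rcases this with g | g
    · apply h3F
      linear_combination g - 52 * h11
    · apply h5F
      linear_combination g - 30004 * h11

end Main

end Cfsg.Agent.Lib.OmFrame.EvenV2
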