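/-
Closed systems of unit vectors: the zero-sum condition gives a singular vector `u` such that `u^⊥` is spanned by the
vectors `w` with `w ± u` in the system.
-/
import Cfsg.Agent.Lib.OmFrame.VecMain

set_option autoImplicit false
set_option linter.unusedSectionVars false
set_option linter.style.haveILetI false
set_option linter.unusedVariables false

open Matrix

namespace Cfsg.Agent.Lib.OmFrame.VecB

open Cfsg.Agent.Lib.OmFrame.Dick Cfsg.Agent.Lib.OmFrame.Vec Cfsg.Agent.Lib.OmFrame.VecMain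

variable {F : Type*} [Field F] {ι : Type*} [Fintype ι] [DecidableEq ι] {p : ℕ} [Fact p.Prime] [CharP F p]
  [Fintype F] [DecidableEq F] {Λ : Set (ι → F)}

/-- Flips of a set of coordinates. -/
lemma flips (h : CS Λ) {x : ι → F} (hx : x ∈ Λ) (B : Finset ι) :
    (fun i => if i ∈ B then - x i else x i) ∈ Λ := by
  induction B using Finset.induction_on with
  | empty => simpa using hx
  | insert a s ha ih =>
    convert h.flip ih a using 1
    ext i
    by_cases h1 : i = a
    · subst h1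
      simp [ha]
    · simp [h1]

/-- The restriction of a vector to a set of coordinates. -/
def cutB (B : Finset ι) (x : ι → F) : ι → F := fun i => if i ∈ B then x i else 0

/-- Zero-sum data. -/
structure ZD (Λ : Set (ι → F)) (x : ι → F) (B : Finset ι) : Prop where
  mem : x ∈ Λ
  ne : ∀ i ∈ B, x i ≠ 0
  sum : ∑ i ∈ B, x i ^ 2 = 0
  nonempty : B.Nonempty

lemma exists_zd (h : HasZ Λ) : ∃ x B, ZD Λ x B := by
  obtain ⟨x, hx, B, hB, i, hi, hi0⟩ := h
  refine ⟨x, B.filter (fun j => x j ≠ 0), hx, ?_, ?_, ⟨i, by simp [hi, hi0]⟩⟩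
  · intro j hj
    exact (Finset.mem_filter.1 hj).2
  · have e : ∑ j ∈ B.filter (fun j => x j ≠ 0), x j ^ 2 = ∑ j ∈ B, x j ^ 2 := by
      apply Finset.sum_subset (Finset.filter_subset _ _)
      intro j hj hj'
      have : x j = 0 := by
        by_contra h0
        exact hj' (Finset.mem_filter.2 ⟨hj, h0⟩)
      rw [this]
      ring
    rw [e, hB]

lemma cutB_sum {B : Finset ι} (x : ι → F) : ∑ i, cutB B x i ^ 2 = ∑ i ∈ B, x i ^ 2 := by
  simp only [cutB]
  rw [← Finset.sum_subset (Finset.subset_univ B)]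
  · apply Finset.sum_congr rfl
    intro i hi
    simp [hi]
  · intro i _ hi
    simp [hi]

lemma ZD.exists_line (h : CS Λ) {x : ι → F} {B : Finset ι} (hz : ZD Λ x B) : ∃ r, r ∉ B ∧ x r ≠ 0 := by
  by_contra hc
  push Not at hc
  have h1 := h.unit x hz.mem
  rw [dot_self_eq, ← Finset.sum_subset (Finset.subset_univ B), hz.sum] at h1
  · exact zero_ne_one h1
  · intro i _ hi
    rw [hc i hi]
    ring

/-- The basic family of the zero-sum data. -/
lemma ZD.line (hcard : Fintype.card F = p) (h2 : (2 : F) ≠ 0) (h : CS Λ) {x : ι → F} {B : Finset ι}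
    (hz : ZD Λ x B) {r : ι} (hr : r ∉ B) (hxr : x r ≠ 0) (k : F) :
    (Pi.single r 1 + k • cutB B x) ∈ Λ := by
  set y : ι → F := fun i => if i ∈ B then - x i else x i with hy
  have hyΛ : y ∈ Λ := flips h hz.mem B
  have hxy : x ⬝ᵥ y = 1 := by
    have e : ∀ i, x i * y i = x i ^ 2 - 2 * (if i ∈ B then x i ^ 2 else 0) := by
      intro i
      by_cases hi : i ∈ B
      · simp only [hy, hi, if_true]
        ring
      · simp only [hy, hi, if_false]
        ring
    simp only [dotProduct, e, Finset.sum_sub_distrib, ← Finset.mul_sum]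
    rw [← dot_self_eq, h.unit x hz.mem]
    simp [Finset.sum_ite_mem, hz.sum]
  have hz2 : x - y = (2 : F) • cutB B x := by
    ext i
    by_cases hi : i ∈ B
    · simp only [hy, cutB, hi, if_true, Pi.sub_apply, Pi.smul_apply, smul_eq_mul]
      ring
    · simp only [hy, cutB, hi, if_false, Pi.sub_apply, Pi.smul_apply, smul_eq_mul]
      ring
  obtain ⟨n, hn⟩ := natCast_surj hcard (k / (4 * x r))
  have hE := Ek_mem h hz.mem hyΛ hxy (h.frame r) n
  rw [hn] at hE
  have h4 : (4 : F) ≠ 0 := by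
    rw [show (4 : F) = 2 * 2 by norm_num]
    exact mul_ne_zero h2 h2
  convert hE using 1
  have hzr : (x - y) r = 0 := by
    rw [hz2]
    simp [cutB, hr]
  simp only [Ek, dotProduct_single_one, hzr, mul_zero, zero_smul, sub_zero]
  rw [hz2, smul_smul]
  congr 2
  field_simp
  ring

/-- Merging coordinates. -/
lemma ZD.merge (hcard : Fintype.card F = p) (h2 : (2 : F) ≠ 0) (h : CS Λ) {x : ι → F} {B A : Finset ι}
    (hz : ZD Λ x B) (hA : A ⊆ B) (hA2 : 2 ≤ A.card) {γ : F} (hγ : γ ≠ 0) (hs : ∑ i ∈ A, x i ^ 2 = γ ^ 2) :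
    ∃ x' B', ZD Λ x' B' ∧ B'.card < B.card := by
  obtain ⟨r, hr, hxr⟩ := hz.exists_line h
  obtain ⟨m, hm⟩ : A.Nonempty := Finset.card_pos.1 (by omega)
  have hmB := hA hm
  have hmr : m ≠ r := fun e => hr (e ▸ hmB)
  have hx' := hz.line hcard h2 h hr hxr γ⁻¹
  set x' := Pi.single r 1 + γ⁻¹ • cutB B x with hx'def
  have hy := h.refl _ hx' _ (h.frame m)
  have hxm : x m ≠ 0 := hz.ne m hmB
  have hdot : x' ⬝ᵥ Pi.single m 1 = γ⁻¹ * x m := by
    rw [dotProduct_single_one, hx'def]
    simp [Pi.single_eq_of_ne hmr, cutB, hmB]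
  set y := R x' (Pi.single m 1) with hydef
  have yr : y r = -2 * (γ⁻¹ * x m) := by
    rw [hydef, Vec.R_apply, hdot, hx'def, Pi.single_eq_of_ne hmr.symm]
    simp [cutB, hr]
  have yi : ∀ i ∈ B \ A, y i = -2 * (γ⁻¹ * x m) * (γ⁻¹ * x i) := by
    intro i hi
    obtain ⟨h3, h4⟩ := Finset.mem_sdiff.1 hi
    have him : i ≠ m := fun e => h4 (e ▸ hm)
    have hir : i ≠ r := fun e => hr (e ▸ h3)
    rw [hydef, Vec.R_apply, hdot, hx'def, Pi.single_eq_of_ne him]
    simp [cutB, h3, Pi.single_eq_of_ne hir]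
  have hrn : r ∉ B \ A := fun e => hr (Finset.mem_sdiff.1 e).1
  have hγ' := inv_ne_zero hγ
  have hcoef : -2 * (γ⁻¹ * x m) ≠ 0 := mul_ne_zero (neg_ne_zero.2 h2) (mul_ne_zero hγ' hxm)
  refine ⟨y, insert r (B \ A), ⟨hy, ?_, ?_, ⟨r, by simp⟩⟩, ?_⟩
  · intro i hi
    rcases Finset.mem_insert.1 hi with rfl | hi
    · rw [yr]
      exact hcoef
    · rw [yi i hi]
      exact mul_ne_zero hcoef (mul_ne_zero hγ' (hz.ne i (Finset.mem_sdiff.1 hi).1))
  · rw [Finset.sum_insert hrn, yr, Finset.sum_congr rfl (fun i hi => by rw [yi i hi])]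
    have e1 : ∑ i ∈ B \ A, x i ^ 2 = -γ ^ 2 := by
      have := Finset.sum_sdiff (f := fun i => x i ^ 2) hA
      rw [hs, hz.sum] at this
      linear_combination this
    have e2 : ∑ i ∈ B \ A, (-2 * (γ⁻¹ * x m) * (γ⁻¹ * x i)) ^ 2 =
        (-2 * (γ⁻¹ * x m)) ^ 2 * (γ⁻¹ ^ 2 * ∑ i ∈ B \ A, x i ^ 2) := by
      rw [Finset.mul_sum, Finset.mul_sum]
      apply Finset.sum_congr rfl
      intro i _
      ring
    rw [e2, e1]
    field_simp
    ring
  · have h3 : (insert r (B \ A)).card ≤ (B \ A).card + 1 := Finset.card_insert_le _ _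
    have h4 : (B \ A).card = B.card - A.card := Finset.card_sdiff_of_subset hA
    have h5 := Finset.card_le_card hA
    omega

/-- One step of the descent. -/
lemma ZD.step (hcard : Fintype.card F = p) (h2 : (2 : F) ≠ 0) (h : CS Λ) {x : ι → F} {B : Finset ι}
    (hz : ZD Λ x B) (hB : 4 ≤ B.card) : ∃ x' B', ZD Λ x' B' ∧ B'.card < B.card := by
  obtain ⟨a, b, ha, hb, hab⟩ : ∃ a b, a ∈ B ∧ b ∈ B ∧ a ≠ b := by
    obtain ⟨a, ha, b, hb, hab⟩ := Finset.one_lt_card.1 (by omega : 1 < B.card)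
    exact ⟨a, b, ha, hb, hab⟩
  set s := x a ^ 2 + x b ^ 2 with hs
  have hpair : ({a, b} : Finset ι) ⊆ B := by
    intro i hi
    simp only [Finset.mem_insert, Finset.mem_singleton] at hi
    rcases hi with rfl | rfl <;> assumption
  have hcp : ({a, b} : Finset ι).card = 2 := Finset.card_pair hab
  have hsum : ∑ i ∈ ({a, b} : Finset ι), x i ^ 2 = s := Finset.sum_pair hab
  by_cases hs0 : s = 0
  · refine ⟨x, {a, b}, ⟨hz.mem, fun i hi => hz.ne i (hpair hi), by rw [hsum, hs0], ⟨a, by simp⟩⟩, by omega⟩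
  by_cases h1 : IsSquare s
  · obtain ⟨γ, hγ⟩ := h1
    have hγ0 : γ ≠ 0 := by
      rintro rfl
      apply hs0
      rw [hγ, mul_zero]
    exact hz.merge hcard h2 h hpair (by omega) hγ0 (by rw [hsum, hγ]; ring)
  have hsd : ∑ i ∈ B \ {a, b}, x i ^ 2 = -s := by
    have := Finset.sum_sdiff (f := fun i => x i ^ 2) hpair
    rw [hsum, hz.sum] at this
    linear_combination this
  have hcd : (B \ {a, b}).card = B.card - 2 := by
    rw [Finset.card_sdiff_of_subset hpair, hcp]
  by_cases h3 : IsSquare (-s)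
  · obtain ⟨γ, hγ⟩ := h3
    have hγ0 : γ ≠ 0 := by
      rintro rfl
      apply hs0
      rw [mul_zero] at hγ
      exact neg_eq_zero.1 hγ
    exact hz.merge (A := B \ {a, b}) hcard h2 h Finset.sdiff_subset (by omega) hγ0 (by rw [hsd, hγ]; ring)
  -- `-1` is a square
  have hne : ringChar F ≠ 2 := by
    intro h5
    haveI : CharP F 2 := by
      rw [← h5]
      exact ringChar.charP F
    exact h2 (by exact_mod_cast CharP.cast_eq_zero F 2)
  have hq1 := (quadraticChar_neg_one_iff_not_isSquare (F := F)).2 h1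
  have hq2 := (quadraticChar_neg_one_iff_not_isSquare (F := F)).2 h3
  have hq3 : quadraticChar F (s * -s) = 1 := by
    rw [map_mul, hq1, hq2]
    norm_num
  have hs2 : s * -s ≠ 0 := mul_ne_zero hs0 (neg_ne_zero.2 hs0)
  obtain ⟨β, hβ⟩ := (quadraticChar_one_iff_isSquare hs2).1 hq3
  have hι : ((β / s) ^ 2 : F) = -1 := by
    field_simp
    linear_combination -hβ
  set τ := β / s * x a with hτ
  have hxa := hz.ne a ha
  have hτ0 : τ ≠ 0 := by
    rw [hτ]
    refine mul_ne_zero ?_ hxa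
    intro h0
    rw [h0] at hι
    have : (1 : F) = 0 := by linear_combination hι
    exact one_ne_zero this
  refine hz.merge hcard h2 h (Finset.erase_subset a B) ?_ hτ0 ?_
  · rw [Finset.card_erase_of_mem ha]
    omega
  · have e := Finset.add_sum_erase B (fun i => x i ^ 2) ha
    rw [hz.sum] at e
    have e2 : τ ^ 2 = - x a ^ 2 := by
      rw [hτ, mul_pow, hι]
      ring
    rw [e2]
    linear_combination e

/-- Small zero-sum data. -/
lemma exists_small (hcard : Fintype.card F = p) (h2 : (2 : F) ≠ 0) (h : CS Λ) (hZ : HasZ Λ) :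
    ∃ x B, ZD Λ x B ∧ B.card ≤ 3 := by
  obtain ⟨x, B, hz⟩ := exists_zd hZ
  induction hn : B.card using Nat.strong_induction_on generalizing x B with
  | _ n ih =>
    by_cases hB : B.card ≤ 3
    · exact ⟨x, B, hz, hB⟩
    · obtain ⟨x', B', hz', hlt⟩ := hz.step hcard h2 h (by omega)
      exact ih _ (by omega) x' B' hz' rfl

/-- All the lines outside of a small support. -/
lemma ZD.all_lines (hcard : Fintype.card F = p) (h2 : (2 : F) ≠ 0) (h : CS Λ) (hι : 6 ≤ Fintype.card ι)
    {x : ι → F} {B : Finset ι} (hz : ZD Λ x B) (hB : B.card ≤ 3) {r : ι} (hr : r ∉ B) (k : F) :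
    (Pi.single r 1 + k • cutB B x) ∈ Λ := by
  obtain ⟨r₀, hr₀, hx₀⟩ := hz.exists_line h
  by_cases he : r = r₀
  · subst he
    exact hz.line hcard h2 h hr₀ hx₀ k
  obtain ⟨r', hr'⟩ := exists_outside (insert r (insert r₀ B)) (by
    have h3 := Finset.card_insert_le r (insert r₀ B)
    have h4 := Finset.card_insert_le r₀ B
    omega)
  simp only [Finset.mem_insert, not_or] at hr'
  obtain ⟨h5, h6, h7⟩ := hr'
  have hv := hz.line hcard h2 h hr₀ hx₀ k
  obtain ⟨y, hy, y1, y2, y3, y4⟩ := h.move hv (Ne.symm h6) (Ne.symm he) (h5)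
  convert hy using 1
  ext i
  have hu : ∀ j, j ∉ B → cutB B x j = 0 := by
    intro j hj
    simp [cutB, hj]
  by_cases h8 : i = r
  · subst h8
    rw [y1]
    simp [hu i hr, hu r₀ hr₀]
  by_cases h9 : i = r₀
  · subst h9
    rw [y2]
    simp [Pi.single_eq_of_ne h8, Pi.single_eq_of_ne h6, hu i hr₀, hu r' h7]
  by_cases h10 : i = r'
  · subst h10
    rw [y3]
    simp [Pi.single_eq_of_ne h8, Pi.single_eq_of_ne he, hu r hr, hu i h7]
  rw [y4 i h9 h10 h8]
  simp [Pi.single_eq_of_ne h8, Pi.single_eq_of_ne h9]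

/-- The span of the vectors paired with a singular vector. -/
def TT (Λ : Set (ι → F)) (u : ι → F) : Submodule F (ι → F) :=
  Submodule.span F {w | w ⬝ᵥ u = 0 ∧ w ⬝ᵥ w = 1 ∧ w + u ∈ Λ ∧ w - u ∈ Λ}

lemma cutB_apply_notMem {B : Finset ι} (x : ι → F) {j : ι} (hj : j ∉ B) : cutB B x j = 0 := by
  simp [cutB, hj]

/-- The lines lie in the span. -/
lemma ZD.single_mem (hcard : Fintype.card F = p) (h2 : (2 : F) ≠ 0) (h : CS Λ) (hι : 6 ≤ Fintype.card ι)
    {x : ι → F} {B : Finset ι} (hz : ZD Λ x B) (hB : B.card ≤ 3) {r : ι} (hr : r ∉ B) :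
    Pi.single r 1 ∈ TT Λ (cutB B x) := by
  apply Submodule.subset_span
  refine ⟨?_, single_dot_self, ?_, ?_⟩
  · rw [single_one_dotProduct, cutB_apply_notMem x hr]
  · have := hz.all_lines hcard h2 h hι hB hr 1
    rwa [one_smul] at this
  · have := hz.all_lines hcard h2 h hι hB hr (-1)
    rwa [neg_smul, one_smul, ← sub_eq_add_neg] at this

/-- The main trick: a pair of coordinates. -/
lemma ZD.pair_mem (hcard : Fintype.card F = p) (h2 : (2 : F) ≠ 0) (h : CS Λ) (hι : 8 ≤ Fintype.card ι)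
    {x : ι → F} {B : Finset ι} (hz : ZD Λ x B) (hB : B.card ≤ 3) {l m : ι} (hl : l ∈ B) (hm : m ∈ B)
    (hlm : l ≠ m) :
    x m • Pi.single l 1 - x l • Pi.single m 1 ∈ TT Λ (cutB B x) := by
  set u := cutB B x with hu
  obtain ⟨k, hk⟩ := exists_outside B (by omega)
  obtain ⟨r₁, hr₁⟩ := exists_outside (insert k B) (by
    have h4 := Finset.card_insert_le k B
    omega)
  rw [Finset.mem_insert, not_or] at hr₁
  have hkl : k ≠ l := fun e => hk (e ▸ hl)
  have hkm : k ≠ m := fun e => hk (e ▸ hm)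
  have hrl : r₁ ≠ l := fun e => hr₁.2 (e ▸ hl)
  have hrm : r₁ ≠ m := fun e => hr₁.2 (e ▸ hm)
  obtain ⟨q, hql, hqm, hqr, hqk, hqB⟩ : ∃ q, q ≠ l ∧ q ≠ m ∧ q ≠ r₁ ∧ q ≠ k ∧ ∀ i ∈ B, i = l ∨ i = m ∨ i = q := by
    by_cases hq : ∃ q ∈ B, q ≠ l ∧ q ≠ m
    · obtain ⟨q, hq, h3, h4⟩ := hq
      refine ⟨q, h3, h4, fun e => hr₁.2 (e ▸ hq), fun e => hk (e ▸ hq), ?_⟩
      have hsub : ({l, m, q} : Finset ι) ⊆ B := by
        intro i hi
        simp only [Finset.mem_insert, Finset.mem_singleton] at hi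
        rcases hi with rfl | rfl | rfl <;> assumption
      have hc : ({l, m, q} : Finset ι).card = 3 := by
        rw [Finset.card_eq_three]
        exact ⟨l, m, q, hlm, h3.symm, h4.symm, rfl⟩
      have := Finset.eq_of_subset_of_card_le hsub (by omega)
      intro i hi
      rw [← this] at hi
      simpa using hi
    · push Not at hq
      obtain ⟨q, hq'⟩ := exists_outside (insert r₁ (insert k B)) (by
        have h4 := Finset.card_insert_le k B
        have h5 := Finset.card_insert_le r₁ (insert k B)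
        omega)
      simp only [Finset.mem_insert, not_or] at hq'
      refine ⟨q, fun e => hq'.2.2 (e ▸ hl), fun e => hq'.2.2 (e ▸ hm), hq'.1, hq'.2.1, ?_⟩
      intro i hi
      by_cases h3 : i = l
      · exact Or.inl h3
      · exact Or.inr (Or.inl (hq i hi h3))
  have hul : u l = x l := by simp [hu, cutB, hl]
  have hum : u m = x m := by simp [hu, cutB, hm]
  have hur : u r₁ = 0 := cutB_apply_notMem x hr₁.2
  have huk : u k = 0 := cutB_apply_notMem x hk
  have hu0 : ∀ i, i ≠ l → i ≠ m → i ≠ q → u i = 0 := by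
    intro i h3 h4 h5
    apply cutB_apply_notMem
    intro h6
    rcases hqB i h6 with h7 | h7 | h7
    · exact h3 h7
    · exact h4 h7
    · exact h5 h7
  have hsum : u l ^ 2 + u m ^ 2 + u q ^ 2 = 0 := by
    have e1 : ∑ i, u i ^ 2 = 0 := by
      rw [hu, cutB_sum, hz.sum]
    have e2 : ∑ i, u i ^ 2 = ∑ i ∈ ({l, m, q} : Finset ι), u i ^ 2 := by
      symm
      apply Finset.sum_subset (Finset.subset_univ _)
      intro i _ hi
      simp only [Finset.mem_insert, Finset.mem_singleton, not_or] at hi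
      rw [hu0 i hi.1 hi.2.1 hi.2.2]
      ring
    rw [e2, Finset.sum_insert (by simp [hlm, hql.symm]), Finset.sum_insert (by simp [hqm.symm]),
      Finset.sum_singleton] at e1
    linear_combination e1
  -- the second vector
  obtain ⟨u', hu'⟩ : ∃ u' : ι → F, u' = u m • Pi.single l 1 - u l • Pi.single m 1 + u q • Pi.single r₁ 1 := ⟨_, rfl⟩
  have hv : ∀ κ : F, (Pi.single k 1 + κ • u) ∈ Λ := fun κ => hz.all_lines hcard h2 h (by omega) hB hk κ
  have ha : ∀ κ : F, (Pi.single k 1 + κ • u') ∈ Λ := by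
    intro κ
    obtain ⟨σ, hσ⟩ : ∃ σ : Equiv.Perm ι, σ = Equiv.swap l m * Equiv.swap q r₁ := ⟨_, rfl⟩
    have hs : Equiv.Perm.sign σ = 1 := by
      rw [hσ, Equiv.Perm.sign_mul, Equiv.Perm.sign_swap hlm, Equiv.Perm.sign_swap hqr]
      simp
    have h3 := h.flip (h.perm _ hs _ (hv κ)) m
    convert h3 using 1
    ext i
    have σl : σ l = m := by
      rw [hσ, Equiv.Perm.mul_apply, Equiv.swap_apply_of_ne_of_ne hql.symm hrl.symm, Equiv.swap_apply_left]
    have σm : σ m = l := by
      rw [hσ, Equiv.Perm.mul_apply, Equiv.swap_apply_of_ne_of_ne hqm.symm hrm.symm, Equiv.swap_apply_right]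
    have σq : σ q = r₁ := by
      rw [hσ, Equiv.Perm.mul_apply, Equiv.swap_apply_left, Equiv.swap_apply_of_ne_of_ne hrl hrm]
    have σr : σ r₁ = q := by
      rw [hσ, Equiv.Perm.mul_apply, Equiv.swap_apply_right, Equiv.swap_apply_of_ne_of_ne hql hqm]
    by_cases h4 : i = l
    · subst h4
      simp [hu', hlm, σl, Pi.single_eq_of_ne hkm, Pi.single_eq_of_ne hrl.symm, Pi.single_eq_of_ne hkl.symm, Pi.single_eq_of_ne hlm, Pi.single_eq_of_ne hkm.symm]
    by_cases h5 : i = m
    · subst h5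
      simp [hu', h4, σm, Pi.single_eq_of_ne hkl, Pi.single_eq_of_ne hrm.symm, Pi.single_eq_of_ne hkm.symm, Pi.single_eq_of_ne h4, Pi.single_eq_of_ne hkl.symm]
    by_cases h6 : i = q
    · subst h6
      simp [hu', h4, h5, σq, Pi.single_eq_of_ne hqr, hur, Pi.single_eq_of_ne hr₁.1, Pi.single_eq_of_ne hqk, Pi.single_eq_of_ne (Ne.symm hr₁.1)]
    by_cases h7 : i = r₁
    · subst h7
      simp [hu', h4, h5, σr, Pi.single_eq_of_ne hqk, Pi.single_eq_of_ne hr₁.1, Pi.single_eq_of_ne hrl, Pi.single_eq_of_ne hrm]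
    have σi : σ i = i := by
      rw [hσ, Equiv.Perm.mul_apply, Equiv.swap_apply_of_ne_of_ne h6 h7, Equiv.swap_apply_of_ne_of_ne h4 h5]
    simp [hu', h4, h5, h7, σi, hu0 i h4 h5 h6, Pi.single_eq_of_ne h4, Pi.single_eq_of_ne h5, Pi.single_eq_of_ne h7]
  -- inner products
  have d1 : u' ⬝ᵥ u = 0 := by
    simp only [hu', add_dotProduct, sub_dotProduct, smul_dotProduct, single_one_dotProduct, hur, smul_eq_mul]
    ring
  have d2 : u' ⬝ᵥ u' = 0 := by
    have e1 : u' ⬝ᵥ Pi.single l 1 = u m := by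
      rw [dotProduct_single_one, hu']
      simp [Pi.single_eq_of_ne hlm, Pi.single_eq_of_ne hrl.symm]
    have e2 : u' ⬝ᵥ Pi.single m 1 = - u l := by
      rw [dotProduct_single_one, hu']
      simp [Pi.single_eq_of_ne hlm.symm, Pi.single_eq_of_ne hrm.symm]
    have e3 : u' ⬝ᵥ Pi.single r₁ 1 = u q := by
      rw [dotProduct_single_one, hu']
      simp [Pi.single_eq_of_ne hrl, Pi.single_eq_of_ne hrm]
    nth_rw 2 [hu']
    rw [dotProduct_add, dotProduct_sub, dotProduct_smul, dotProduct_smul, dotProduct_smul, e1, e2, e3]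
    simp only [smul_eq_mul]
    linear_combination hsum
  have d3 : u' k = 0 := by
    rw [hu']
    simp [Pi.single_eq_of_ne hkl, Pi.single_eq_of_ne hkm, Pi.single_eq_of_ne (Ne.symm hr₁.1)]
  have d4 : Pi.single k 1 ⬝ᵥ u' = 0 := by
    rw [single_one_dotProduct, d3]
  have d4' : u' ⬝ᵥ Pi.single k 1 = 0 := by
    rw [dotProduct_single_one, d3]
  have d5 : Pi.single k 1 ⬝ᵥ u = 0 := by
    rw [single_one_dotProduct, huk]
  -- the third family
  have hb : ∀ κ c : F, (Pi.single k 1 + κ • u + c • u') ∈ Λ := by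
    intro κ c
    have hx₁ := ha 1
    have hy₁ := ha (-1)
    rw [one_smul] at hx₁
    rw [neg_smul, one_smul, ← sub_eq_add_neg] at hy₁
    have hxy : (Pi.single k 1 + u') ⬝ᵥ (Pi.single k 1 - u') = 1 := by
      rw [add_dotProduct, dotProduct_sub, dotProduct_sub, single_dot_self, d4, d4', d2]
      ring
    obtain ⟨n, hn⟩ := natCast_surj hcard (c / 4)
    have hE := Ek_mem h hx₁ hy₁ hxy (hv κ) n
    rw [hn] at hE
    convert hE using 1
    have hz2 : (Pi.single k 1 + u') - (Pi.single k 1 - u') = (2 : F) • u' := by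
      ext i
      simp only [Pi.sub_apply, Pi.add_apply, Pi.smul_apply, smul_eq_mul]
      ring
    have e1 : (Pi.single k 1 + u') ⬝ᵥ (Pi.single k 1 + κ • u) = 1 := by
      rw [add_dotProduct, dotProduct_add, dotProduct_add, dotProduct_smul, dotProduct_smul, single_dot_self, d5,
        d4', d1]
      simp
    have e2 : (2 : F) • u' ⬝ᵥ (Pi.single k 1 + κ • u) = 0 := by
      rw [smul_dotProduct, dotProduct_add, dotProduct_smul, d4', d1]
      simp
    simp only [Ek, hz2, e1, e2]
    rw [smul_smul]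
    have h4 : (4 : F) ≠ 0 := by
      rw [show (4 : F) = 2 * 2 by norm_num]
      exact mul_ne_zero h2 h2
    have e3 : 2 * (c / 4) * 1 * 2 = c := by
      field_simp
      ring
    rw [e3]
    simp
  -- membership
  have hk' := hz.single_mem hcard h2 h (by omega) hB hk
  have hr' := hz.single_mem hcard h2 h (by omega) hB hr₁.2
  have hw : Pi.single k 1 + u' ∈ TT Λ u := by
    apply Submodule.subset_span
    refine ⟨?_, ?_, ?_, ?_⟩
    · rw [add_dotProduct, d5, d1, add_zero]
    · rw [add_dotProduct, dotProduct_add, dotProduct_add, single_dot_self, d4, d4', d2]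
      simp
    · have := hb 1 1
      rw [one_smul, one_smul] at this
      convert this using 1
      abel
    · have := hb (-1) 1
      rw [neg_smul, one_smul, one_smul] at this
      convert this using 1
      abel
  have hu'T : u' ∈ TT Λ u := by
    have := (TT Λ u).sub_mem hw hk'
    rwa [add_sub_cancel_left] at this
  have := (TT Λ u).sub_mem hu'T ((TT Λ u).smul_mem (u q) hr')
  rw [hu', add_sub_cancel_right, hum, hul] at this
  exact this

/-- **Vector level form of the final stage.** -/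
theorem vec_B (hcard : Fintype.card F = p) (h2 : (2 : F) ≠ 0) (h : CS Λ) (hι : 8 ≤ Fintype.card ι)
    (hZ : HasZ Λ) : ∃ (u : ι → F) (l : ι), u ⬝ᵥ u = 0 ∧ u l ≠ 0 ∧ ∀ b, b ⬝ᵥ u = 0 → b ∈ TT Λ u := by
  obtain ⟨x, B, hz, hB⟩ := exists_small hcard h2 h hZ
  obtain ⟨l, hl⟩ := hz.nonempty
  set u := cutB B x with hu
  have hul : u l = x l := by simp [hu, cutB, hl]
  refine ⟨u, l, ?_, by rw [hul]; exact hz.ne l hl, ?_⟩
  · rw [dot_self_eq, hu, cutB_sum, hz.sum]
  intro b hb
  have hgen : ∀ i, i ≠ l → u l • Pi.single i 1 - u i • Pi.single l 1 ∈ TT Λ u := by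
    intro i hi
    by_cases hiB : i ∈ B
    · have := hz.pair_mem hcard h2 h hι hB hiB hl hi
      rwa [← hul, show x i = u i by simp [hu, cutB, hiB]] at this
    · have := hz.single_mem hcard h2 h (by omega) hB hiB
      rw [show u i = 0 from cutB_apply_notMem x hiB, zero_smul, sub_zero]
      exact (TT Λ u).smul_mem _ this
  have hsum : ∑ i ∈ Finset.univ.erase l, b i • (u l • (Pi.single i 1 : ι → F) - u i • Pi.single l 1) ∈ TT Λ u :=
    (TT Λ u).sum_mem (fun i hi => (TT Λ u).smul_mem _ (hgen i (Finset.ne_of_mem_erase hi)))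
  have e : ∑ i ∈ Finset.univ.erase l, b i • (u l • (Pi.single i 1 : ι → F) - u i • Pi.single l 1) = u l • b := by
    ext j
    rw [Finset.sum_apply]
    simp only [Pi.smul_apply, Pi.sub_apply, smul_eq_mul]
    by_cases hj : j = l
    · subst hj
      have e1 : ∀ i ∈ Finset.univ.erase j, b i * (u j * (Pi.single i 1 : ι → F) j - u i * (Pi.single j 1 : ι → F) j) =
          - (b i * u i) := by
        intro i hi
        rw [Pi.single_eq_of_ne (Finset.ne_of_mem_erase hi).symm, Pi.single_eq_same]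
        ring
      rw [Finset.sum_congr rfl e1, Finset.sum_neg_distrib]
      have e2 := Finset.add_sum_erase Finset.univ (fun i => b i * u i) (Finset.mem_univ j)
      have e3 : ∑ i, b i * u i = 0 := hb
      rw [e3] at e2
      linear_combination -e2
    · have e1 : ∀ i ∈ Finset.univ.erase l, b i * (u l * (Pi.single i 1 : ι → F) j - u i * (Pi.single l 1 : ι → F) j) =
          if i = j then u l * b j else 0 := by
        intro i hi
        rw [Pi.single_eq_of_ne hj]
        by_cases hij : i = j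
        · subst hij
          simp
          ring
        · rw [Pi.single_eq_of_ne (Ne.symm hij)]
          simp [hij]
      rw [Finset.sum_congr rfl e1]
      simp [Finset.sum_ite_eq, hj]
  rw [e] at hsum
  have hl0 : u l ≠ 0 := by
    rw [hul]
    exact hz.ne l hl
  have := (TT Λ u).smul_mem (u l)⁻¹ hsum
  rwa [smul_smul, inv_mul_cancel₀ hl0, one_smul] at this

end Cfsg.Agent.Lib.OmFrame.VecB
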