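/-
Frames in `Ω_n(p)`: the closed system of unit vectors attached to a subgroup containing the frame stabiliser.
-/
import Cfsg.Agent.Lib.OmFrame.VecB
import Cfsg.Agent.Lib.Geo.OmB
import Cfsg.Agent.Lib.GeoOmega.Levi

set_option autoImplicit false
set_option linter.unusedSectionVars false
set_option linter.style.haveILetI false
set_option linter.unusedVariables false

namespace Cfsg.Agent.Lib.OmFrame.Group

open Cfsg Cfsg.Geo Cfsg.Agent.Lib.Geo.Basic Cfsg.Agent.Lib.Geo.Parabolic Cfsg.Agent.Lib.Geo.Centres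
open Cfsg.Agent.Lib.Geo.Polar Cfsg.Agent.Lib.Geo.QForm
open Cfsg.Agent.Lib.GeoOmega.Basic Cfsg.Agent.Lib.GeoOmega.Eichler
open Cfsg.Agent.Lib.GeoOmega.Levi (rf rf_mulVec rf_mem rf_mul_mem_omega rf_inv rf_conj prod_rf_mem_omega)
open Cfsg.Agent.Lib.Geo.OmSub (Par Par.add Par.zero Par.neg Par.sub Par.conj Par.swap pol_sum_left eich_zero)
open Cfsg.Agent.Lib.Geo.SpDecomp (exists_comps mem_decompositionStabilizer_of_forall)
open Cfsg.Agent.Lib.Geo.OmDec
open Cfsg.Agent.Lib.Geo.OmB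
open Cfsg.Agent.Lib.OmFrame.Dick Cfsg.Agent.Lib.OmFrame.Vec Cfsg.Agent.Lib.OmFrame.VecMain
open Cfsg.Agent.Lib.OmFrame.VecB
open scoped MatrixGroups Matrix

variable {ι : Type} [Fintype ι] [DecidableEq ι] {F : Type*} [Field F]
variable {Q : (ι → F) → F} {t : ℕ} {D : Fin t → Submodule F (ι → F)}

/-- A frame: vectors of the same norm spanning the members of a decomposition into lines. -/
structure Fr (Q : (ι → F) → F) (D : Fin t → Submodule F (ι → F)) (e : Fin t → ι → F) (c : F) : Prop where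
  hQ : IsNondegenerateQuadraticForm Q
  blk : Blk Q D
  two : (2 : F) ≠ 0
  mem : ∀ i, e i ∈ D i
  Qe : ∀ i, Q (e i) = c
  c0 : c ≠ 0
  span : ∀ i, ∀ x ∈ D i, ∃ a : F, x = a • e i

/-- The coordinates with respect to the frame. -/
def Phi (e : Fin t → ι → F) (a : Fin t → F) : ι → F := ∑ i, a i • e i

section Phi

variable {e : Fin t → ι → F} {c : F}

lemma Phi_add (a b : Fin t → F) : Phi e (a + b) = Phi e a + Phi e b := by
  simp only [Phi, Pi.add_apply, add_smul, Finset.sum_add_distrib]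

lemma Phi_smul (k : F) (a : Fin t → F) : Phi e (k • a) = k • Phi e a := by
  simp only [Phi, Pi.smul_apply, smul_eq_mul, mul_smul, Finset.smul_sum]

lemma Phi_neg (a : Fin t → F) : Phi e (-a) = - Phi e a := by
  simp only [Phi, Pi.neg_apply, neg_smul, Finset.sum_neg_distrib]

lemma Phi_sub (a b : Fin t → F) : Phi e (a - b) = Phi e a - Phi e b := by
  simp only [Phi, Pi.sub_apply, sub_smul, Finset.sum_sub_distrib]

lemma Phi_zero : Phi e 0 = 0 := by
  simp [Phi]

lemma Phi_single (i : Fin t) : Phi e (Pi.single i 1) = e i := by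
  simp only [Phi]
  rw [Finset.sum_eq_single i]
  · simp
  · intro j _ hj
    simp [Pi.single_eq_of_ne hj]
  · simp

variable (S : Fr Q D e c)
include S

lemma Fr.pol_self (i : Fin t) : pol Q (e i) (e i) = 2 * c := by
  rw [Cfsg.Agent.Lib.Geo.QForm.pol_self S.hQ, S.Qe]

lemma Fr.pol_ne {i j : Fin t} (h : i ≠ j) : pol Q (e i) (e j) = 0 :=
  S.blk.orth i j h _ (S.mem i) _ (S.mem j)

lemma Fr.c2 : 2 * c ≠ 0 := mul_ne_zero S.two S.c0

lemma Fr.pol_Phi_e (a : Fin t → F) (j : Fin t) : pol Q (Phi e a) (e j) = 2 * c * a j := by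
  rw [Phi, pol_sum_left S.hQ, Finset.sum_eq_single j]
  · rw [pol_smul_left S.hQ, S.pol_self]
    ring
  · intro i _ hi
    rw [pol_smul_left S.hQ, S.pol_ne hi, mul_zero]
  · simp

lemma Fr.pol_Phi (a b : Fin t → F) : pol Q (Phi e a) (Phi e b) = 2 * c * (a ⬝ᵥ b) := by
  conv_lhs => rw [pol_symm S.hQ, Phi]
  rw [pol_sum_left S.hQ, dotProduct, Finset.mul_sum]
  apply Finset.sum_congr rfl
  intro i _
  rw [pol_smul_left S.hQ, pol_symm S.hQ, S.pol_Phi_e]
  ring

lemma Fr.Q_Phi (a : Fin t → F) : Q (Phi e a) = c * (a ⬝ᵥ a) := by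
  apply mul_left_cancel₀ S.two
  rw [← Cfsg.Agent.Lib.Geo.QForm.pol_self S.hQ, S.pol_Phi]
  ring

lemma Fr.Phi_inj {a b : Fin t → F} (h : Phi e a = Phi e b) : a = b := by
  ext j
  apply mul_left_cancel₀ S.c2
  rw [← S.pol_Phi_e, ← S.pol_Phi_e, h]

/-- The coordinate vector. -/
theorem Fr.exists_coord (x : ι → F) : ∃ a : Fin t → F, Phi e a = x := by
  have h1 : ∀ i, ∃ a : F, cp D i x = a • e i := fun i => S.span i _ (cp_mem S.blk i x)
  choose a ha using h1
  refine ⟨a, ?_⟩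
  rw [Phi, ← sum_cp S.blk x]
  exact Finset.sum_congr rfl fun i _ => (ha i).symm

omit S in
lemma mulVec_Phi (A : Matrix ι ι F) (a : Fin t → F) : A *ᵥ Phi e a = Phi (fun i => A *ᵥ e i) a := by
  simp only [Phi]
  have := map_sum (Matrix.mulVecLin A) (fun i => a i • e i) Finset.univ
  simp only [Matrix.mulVecLin_apply, Matrix.mulVec_smul] at this
  exact this

lemma Fr.gl_ext {A B : GL ι F} (h : ∀ j, (A : Matrix ι ι F) *ᵥ e j = (B : Matrix ι ι F) *ᵥ e j) : A = B := by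
  apply gl_ext_mulVec
  intro x
  obtain ⟨a, rfl⟩ := S.exists_coord x
  rw [mulVec_Phi, mulVec_Phi]
  congr 1
  ext1 i
  exact h i

/-- The action of a reflection. -/
lemma Fr.rf_Phi {a : Fin t → F} (ha : a ⬝ᵥ a = 1) (b : Fin t → F) :
    (rf S.hQ (Phi e a) : Matrix ι ι F) *ᵥ Phi e b = Phi e (R a b) := by
  rw [rf_mulVec, S.Q_Phi, ha, mul_one, S.pol_Phi, R, Phi_sub, Phi_smul, dotProduct_comm b a]
  congr 2
  have := S.c0
  field_simp

lemma Fr.rf_e (i j : Fin t) :
    (rf S.hQ (e i) : Matrix ι ι F) *ᵥ e j = if j = i then - e j else e j := by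
  rw [rf_mulVec, S.Qe]
  by_cases h : j = i
  · subst h
    rw [S.pol_self, if_pos rfl]
    have h1 : c⁻¹ * (2 * c) = 2 := by
      have := S.c0
      field_simp
    rw [h1, two_smul]
    abel
  · rw [S.pol_ne h, if_neg h]
    simp

lemma Fr.rf_list (l : List (Fin t)) (hl : l.Nodup) (j : Fin t) :
    ((((l.map e).map (rf S.hQ)).prod : GL ι F) : Matrix ι ι F) *ᵥ e j = if j ∈ l then - e j else e j := by
  induction l with
  | nil => simp
  | cons a l ih =>
    rw [List.nodup_cons] at hl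
    simp only [List.map_cons, List.prod_cons, Units.val_mul, ← Matrix.mulVec_mulVec, ih hl.2]
    by_cases h1 : j = a
    · subst h1
      simp [hl.1, S.rf_e]
    · by_cases h2 : j ∈ l
      · simp [h2, Matrix.mulVec_neg, S.rf_e, h1]
      · simp [h2, S.rf_e, h1]

lemma Fr.neg_rf_e (i j : Fin t) :
    ((-rf S.hQ (e i) : GL ι F) : Matrix ι ι F) *ᵥ e j = if j = i then e j else - e j := by
  rw [Units.val_neg, Matrix.neg_mulVec, S.rf_e]
  by_cases h : j = i <;> simp [h]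

/-- The reflection exchanging two frame vectors. -/
lemma Fr.rf_diff {a b : Fin t} (hab : a ≠ b) (j : Fin t) :
    (rf S.hQ (e a - e b) : Matrix ι ι F) *ᵥ e j = e (Equiv.swap a b j) := by
  have hQd : Q (e a - e b) = 2 * c := by
    rw [Cfsg.Agent.Lib.GeoOmega.Eichler.Q_sub S.hQ, S.Qe, S.Qe, S.pol_ne hab]
    ring
  have hc := S.c2
  rw [rf_mulVec, hQd, Cfsg.Agent.Lib.GeoOmega.Eichler.pol_sub_right S.hQ]
  by_cases h1 : j = a
  · subst h1
    rw [S.pol_self, S.pol_ne hab, Equiv.swap_apply_left, sub_zero, inv_mul_cancel₀ hc, one_smul]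
    abel
  by_cases h2 : j = b
  · subst h2
    rw [S.pol_self, S.pol_ne (Ne.symm hab), Equiv.swap_apply_right, zero_sub, mul_neg, inv_mul_cancel₀ hc,
      neg_smul, one_smul]
    abel
  · rw [S.pol_ne h1, S.pol_ne h2, Equiv.swap_apply_of_ne_of_ne h1 h2]
    simp

/-- Permutations are realised by reflections. -/
lemma Fr.perm_list (σ : Equiv.Perm (Fin t)) : ∃ L : List (ι → F), (∀ v ∈ L, Q v = 2 * c) ∧
    (-1 : ℤˣ) ^ L.length = Equiv.Perm.sign σ ∧
    ∀ j, (((L.map (rf S.hQ)).prod : GL ι F) : Matrix ι ι F) *ᵥ e j = e (σ j) := by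
  induction σ using Equiv.Perm.swap_induction_on with
  | one => exact ⟨[], by simp, by simp, by simp⟩
  | swap_mul f x y hxy ih =>
    obtain ⟨L, h1, h2, h3⟩ := ih
    have hQd : Q (e x - e y) = 2 * c := by
      rw [Cfsg.Agent.Lib.GeoOmega.Eichler.Q_sub S.hQ, S.Qe, S.Qe, S.pol_ne hxy]
      ring
    refine ⟨(e x - e y) :: L, ?_, ?_, ?_⟩
    · intro v hv
      rcases List.mem_cons.1 hv with rfl | hv
      · exact hQd
      · exact h1 v hv
    · rw [List.length_cons, pow_succ, h2, Equiv.Perm.sign_mul, Equiv.Perm.sign_swap hxy]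
      simp
    · intro j
      simp only [List.map_cons, List.prod_cons, Units.val_mul, ← Matrix.mulVec_mulVec, h3]
      rw [S.rf_diff hxy]
      rfl

end Phi

section Lam

variable {e : Fin t → ι → F} {c : F} {M : Subgroup (GL ι F)}

/-- The closed system attached to a subgroup. -/
def Lam (hQ : IsNondegenerateQuadraticForm Q) (e : Fin t → ι → F) (M : Subgroup (GL ι F)) : Set (Fin t → F) :=
  {a | a ⬝ᵥ a = 1 ∧ -rf hQ (Phi e a) ∈ M}

variable [Fintype F] (S : Fr Q D e c) (C : CtxB Q D M 1)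
include S C

lemma Fr.mem_of_pres {g : GL ι F} (hg : g ∈ omegaGL Q) {τ : Equiv.Perm (Fin t)}
    (h : ∀ j, ∃ a : F, (g : Matrix ι ι F) *ᵥ e j = a • e (τ j)) : g ∈ M := by
  apply C.mem_perm hg (τ := τ)
  intro i x hx
  obtain ⟨a, rfl⟩ := S.span i x hx
  obtain ⟨b, hb⟩ := h i
  rw [Matrix.mulVec_smul, hb]
  exact (D _).smul_mem _ ((D _).smul_mem _ (S.mem _))

lemma Fr.neg_rf_e_mem (ht : Odd t) (i : Fin t) : -rf S.hQ (e i) ∈ M := by
  have h1 : (-rf S.hQ (e i)) =
      ((((Finset.univ.erase i).toList.map e).map (rf S.hQ)).prod : GL ι F) := by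
    apply S.gl_ext
    intro j
    rw [S.rf_list _ (Finset.nodup_toList _), S.neg_rf_e]
    by_cases h : j = i
    · simp [h]
    · simp [h]
  have hom : -rf S.hQ (e i) ∈ omegaGL Q := by
    rw [h1]
    apply prod_rf_mem_omega S.hQ C.card7 S.c0
    · intro v hv
      obtain ⟨j, -, rfl⟩ := List.mem_map.1 hv
      exact S.Qe j
    · rw [List.length_map, Finset.length_toList, Finset.card_erase_of_mem (Finset.mem_univ i), Finset.card_univ,
        Fintype.card_fin]
      obtain ⟨k, rfl⟩ := ht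
      exact ⟨k, by omega⟩
  refine S.mem_of_pres C hom (τ := 1) ?_
  intro j
  rw [S.neg_rf_e]
  by_cases h : j = i
  · exact ⟨1, by simp [h]⟩
  · exact ⟨-1, by simp [h]⟩

lemma Fr.perm_mem {σ : Equiv.Perm (Fin t)} (hσ : Equiv.Perm.sign σ = 1) :
    ∃ T ∈ M, ∀ j, (T : Matrix ι ι F) *ᵥ e j = e (σ j) := by
  obtain ⟨L, h1, h2, h3⟩ := S.perm_list σ
  refine ⟨_, ?_, h3⟩
  have hev : Even L.length := by
    rw [hσ] at h2
    by_contra h
    rw [Nat.not_even_iff_odd] at h
    rw [h.neg_one_pow] at h2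
    exact absurd h2 (by decide)
  have hom := prod_rf_mem_omega S.hQ C.card7 S.c2 L h1 hev
  exact S.mem_of_pres C hom (τ := σ) (fun j => ⟨1, by rw [h3, one_smul]⟩)

/-- Invariance of the closed system. -/
lemma Fr.lam_conj {g : GL ι F} (hg : g ∈ M) {a b : Fin t → F} (ha : a ∈ Lam S.hQ e M)
    (hb : Phi e b = (g : Matrix ι ι F) *ᵥ Phi e a) : b ∈ Lam S.hQ e M := by
  have hI := C.miso hg
  constructor
  · have h1 := (mem_isometryGroup_iff Q g).1 hI (Phi e a)
    rw [← hb, S.Q_Phi, S.Q_Phi, ha.1] at h1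
    have := S.c0
    apply mul_left_cancel₀ this
    rw [h1, mul_one]
  · rw [hb, ← rf_conj S.hQ g hI]
    have e1 : -(g * rf S.hQ (Phi e a) * g⁻¹) = g * (-rf S.hQ (Phi e a)) * g⁻¹ := by
      simp
    rw [e1]
    exact M.mul_mem (M.mul_mem hg ha.2) (M.inv_mem hg)

/-- **The closed system.** -/
theorem Fr.lam_cs (ht : Odd t) : CS (Lam S.hQ e M) where
  unit a ha := ha.1
  frame i := by
    refine ⟨single_dot_self, ?_⟩
    rw [Phi_single]
    exact S.neg_rf_e_mem C ht i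
  refl a ha b hb := by
    have h1 : (R a b) ⬝ᵥ (R a b) = 1 := by
      have h2 : b ⬝ᵥ a = a ⬝ᵥ b := dotProduct_comm _ _
      simp only [R, dotProduct_sub, sub_dotProduct, dotProduct_smul, smul_dotProduct, smul_eq_mul, ha.1, hb.1, h2]
      ring
    refine ⟨h1, ?_⟩
    have h3 := ha.2
    have h4 := hb.2
    have hI := rf_mem S.hQ (Phi e a)
    have h5 := rf_conj S.hQ _ hI (Phi e b)
    rw [S.rf_Phi ha.1, rf_inv] at h5
    rw [← h5]
    have e1 : -(rf S.hQ (Phi e a) * rf S.hQ (Phi e b) * rf S.hQ (Phi e a)) =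
        (-rf S.hQ (Phi e a)) * (-rf S.hQ (Phi e b)) * (-rf S.hQ (Phi e a)) := by
      simp
    rw [e1]
    exact M.mul_mem (M.mul_mem h3 h4) h3
  perm σ hσ a ha := by
    have hσ' : Equiv.Perm.sign σ⁻¹ = 1 := by
      rw [map_inv, hσ, inv_one]
    obtain ⟨T, hT, h1⟩ := S.perm_mem C hσ'
    refine S.lam_conj C hT ha ?_
    rw [mulVec_Phi, Phi, Phi]
    simp only [h1]
    rw [← Equiv.sum_comp σ⁻¹]
    apply Finset.sum_congr rfl
    intro i _
    simp

omit S C in
/-- Multiples in a prime field. -/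
lemma par_smul_prime {p₀ : ℕ} [Fact p₀.Prime] [CharP F p₀] (hcard : Fintype.card F = p₀)
    (hQ : IsNondegenerateQuadraticForm Q) {a v : ι → F} (ha : Q a = 0) (h : Par Q M a v) (k : F) :
    Par Q M a (k • v) := by
  obtain ⟨n, rfl⟩ := natCast_surj hcard k
  induction n with
  | zero =>
    simpa using Par.zero hQ a
  | succ n ih =>
    rw [Nat.cast_succ, add_smul, one_smul]
    exact Par.add hQ ha ih h

/-- A pair in the closed system gives an Eichler transformation in `M`. -/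
lemma Fr.par_pair {p₀ : ℕ} [Fact p₀.Prime] [CharP F p₀] (hcard : Fintype.card F = p₀) {u w : Fin t → F}
    (huu : u ⬝ᵥ u = 0) (hwu : w ⬝ᵥ u = 0) (hww : w ⬝ᵥ w = 1)
    (hp : w + u ∈ Lam S.hQ e M) (hm : w - u ∈ Lam S.hQ e M) : Par Q M (Phi e u) (Phi e w) := by
  have hQ := S.hQ
  have hc := S.c0
  have hQu : Q (Phi e u) = 0 := by rw [S.Q_Phi, huu, mul_zero]
  have hQx : Q (Phi e (w + u)) = c := by rw [S.Q_Phi, hp.1, mul_one]
  have hQy : Q (Phi e (w - u)) = c := by rw [S.Q_Phi, hm.1, mul_one]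
  set X := Phi e (w + u) with hX
  set Y := Phi e (w - u) with hY
  have hYX : Y - X = (-2 : F) • Phi e u := by
    rw [hX, hY, Phi_add, Phi_sub]
    module
  have hgM : rf hQ X * rf hQ Y ∈ M := by
    have := M.mul_mem hp.2 hm.2
    rwa [neg_mul_neg] at this
  have hw0 : Q (Y - X) = 0 := by
    rw [hYX, hQ.smul, hQu, mul_zero]
  have hw' : Q (Y - X) = 2 * c - pol Q Y X := by
    rw [Cfsg.Agent.Lib.GeoOmega.Eichler.Q_sub hQ, hQy, hQx]
    ring
  have huv : pol Q Y X = 2 * c := by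
    rw [hw0] at hw'
    linear_combination hw'
  have hE : Eich Q (rf hQ X * rf hQ Y) (Y - X) ((-c⁻¹) • Y) := by
    intro x
    rw [Units.val_mul, ← Matrix.mulVec_mulVec, rf_mulVec, rf_mulVec, hQy, hQx,
      pol_smul_right hQ, Cfsg.Agent.Lib.GeoOmega.Eichler.pol_sub_right hQ, hQ.smul, hQy]
    rw [Cfsg.Agent.Lib.GeoOmega.Eichler.pol_sub_left hQ, pol_smul_left hQ, huv]
    have hcc : c⁻¹ * c = 1 := inv_mul_cancel₀ hc
    have e1 : (-c⁻¹) ^ 2 * c = c⁻¹ := by
      field_simp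
    rw [e1]
    have e2 : c⁻¹ * (pol Q x X - c⁻¹ * pol Q x Y * (2 * c)) = c⁻¹ * pol Q x X - 2 * c⁻¹ * pol Q x Y := by
      field_simp
    rw [e2]
    module
  rw [hYX] at hE
  have hE2 := Eich.smul hQ (-2 : F) hE
  set V := ((-2 : F) • (-c⁻¹) • Y) with hV
  have hpolU : pol Q (Phi e u) V = 0 := by
    rw [hV, pol_smul_right hQ, pol_smul_right hQ, hY, S.pol_Phi, dotProduct_sub, dotProduct_comm u w, hwu, huu]
    ring
  have hP : Par Q M (Phi e u) V := by
    refine ⟨hpolU, fun g hg => ?_⟩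
    rw [Eich.unique' hg hE2]
    exact hgM
  have h1 := par_add_self hQ hQu hP (2 * c⁻¹)
  have h2 : V + (2 * c⁻¹) • Phi e u = (2 * c⁻¹) • Phi e w := by
    rw [hV, hY, Phi_sub]
    module
  rw [h2] at h1
  have h3 := par_smul_prime hcard hQ hQu h1 (c / 2)
  rwa [smul_smul, show c / 2 * (2 * c⁻¹) = 1 by
    have := S.two
    field_simp, one_smul] at h3

/-- **The final stage.** -/
theorem Fr.omega_le {p₀ : ℕ} [Fact p₀.Prime] [CharP F p₀] (hcard : Fintype.card F = p₀) (ht : Odd t)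
    (ht8 : 8 ≤ t) (hZ : HasZ (Lam S.hQ e M)) : omegaGL Q ≤ M := by
  classical
  have hQ := S.hQ
  have hΛ := S.lam_cs C ht
  obtain ⟨u, l, huu, hul, hT⟩ := vec_B hcard S.two hΛ (by simpa using ht8) hZ
  have hQu : Q (Phi e u) = 0 := by rw [S.Q_Phi, huu, mul_zero]
  have hPar0 : ∀ b ∈ TT (Lam S.hQ e M) u, Par Q M (Phi e u) (Phi e b) := by
    intro b hb'
    induction hb' using Submodule.span_induction with
    | mem x hx => exact S.par_pair C hcard huu hx.1 hx.2.1 hx.2.2.1 hx.2.2.2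
    | zero =>
      rw [Phi_zero]
      exact Par.zero hQ _
    | add x y _ _ ihx ihy =>
      rw [Phi_add]
      exact Par.add hQ hQu ihx ihy
    | smul k x _ ihx =>
      rw [Phi_smul]
      exact par_smul_prime hcard hQ hQu ihx k
  have hFull : Full Q M (Phi e u) := by
    intro b' g hb' hg
    obtain ⟨b, rfl⟩ := S.exists_coord b'
    have hb : b ⬝ᵥ u = 0 := by
      rw [S.pol_Phi] at hb'
      have := (mul_eq_zero.1 hb').resolve_left S.c2
      rwa [dotProduct_comm]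
    exact (hPar0 b (hT b hb)).2 g hg
  have hk := S.neg_rf_e_mem C ht l
  have hkI := C.miso hk
  have hFull' := Full.conj hFull hk hkI
  have hQu' : Q ((-rf hQ (e l) : GL ι F).val *ᵥ Phi e u) = 0 := by
    rw [(mem_isometryGroup_iff Q _).1 hkI, hQu]
  refine omega_le_of_full hQ C.card7 hQu hQu' hFull hFull' ?_
  have e1 : (-rf hQ (e l) : GL ι F).val *ᵥ Phi e u = (2 * u l) • e l - Phi e u := by
    rw [Units.val_neg, Matrix.neg_mulVec, rf_mulVec, S.Qe, S.pol_Phi_e]
    have : c⁻¹ * (2 * c * u l) = 2 * u l := by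
      have := S.c0
      field_simp
    rw [this]
    abel
  rw [e1, Cfsg.Agent.Lib.GeoOmega.Eichler.pol_sub_left hQ, pol_smul_left hQ, pol_symm hQ (e l), S.pol_Phi_e, S.pol_Phi,
    huu]
  have h2 := S.c2
  have h3 := S.two
  have : 2 * u l * (2 * c * u l) - 2 * c * 0 = 2 * (2 * c) * u l ^ 2 := by ring
  rw [this]
  exact mul_ne_zero (mul_ne_zero h3 h2) (pow_ne_zero 2 hul)

end Lam

end Cfsg.Agent.Lib.OmFrame.Group
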