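/-
Frames in `Ω_n(p)`, `n` odd: the stabiliser of a frame is maximal.
-/
import Cfsg.Agent.Lib.OmFrame.Group

set_option autoImplicit false
set_option linter.unusedSectionVars false
set_option linter.style.haveILetI false
set_option linter.unusedVariables false

namespace Cfsg.Agent.Lib.OmFrame.Final

open Cfsg Cfsg.Geo Cfsg.Agent.Lib.Geo.Basic Cfsg.Agent.Lib.Geo.Parabolic Cfsg.Agent.Lib.Geo.Centres
open Cfsg.Agent.Lib.Geo.Polar Cfsg.Agent.Lib.Geo.QForm
open Cfsg.Agent.Lib.GeoOmega.Basic Cfsg.Agent.Lib.GeoOmega.Eichler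
open Cfsg.Agent.Lib.GeoOmega.Levi (rf rf_mulVec rf_mem rf_mul_mem_omega rf_inv rf_conj prod_rf_mem_omega)
open Cfsg.Agent.Lib.Geo.OmSub (Par Par.add Par.zero Par.neg Par.sub Par.conj Par.swap pol_sum_left eich_zero)
open Cfsg.Agent.Lib.Geo.SpDecomp (exists_comps mem_decompositionStabilizer_of_forall)
open Cfsg.Agent.Lib.Geo.OmDec
open Cfsg.Agent.Lib.Geo.OmB
open Cfsg.Agent.Lib.OmFrame.Dick Cfsg.Agent.Lib.OmFrame.Vec Cfsg.Agent.Lib.OmFrame.VecMain
open Cfsg.Agent.Lib.OmFrame.VecB Cfsg.Agent.Lib.OmFrame.Group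
open scoped MatrixGroups Matrix

variable {ι : Type} [Fintype ι] [DecidableEq ι] {F : Type*} [Field F]
variable {Q : (ι → F) → F} {t : ℕ} {D : Fin t → Submodule F (ι → F)} {e : Fin t → ι → F} {c : F}

/-- The coordinates as a linear map. -/
noncomputable def PhiL (e : Fin t → ι → F) : (Fin t → F) →ₗ[F] (ι → F) where
  toFun := Phi e
  map_add' := Phi_add
  map_smul' := Phi_smul

section

/-- The coordinates as a linear equivalence. -/
noncomputable def PhiE (S : Fr Q D e c) : (Fin t → F) ≃ₗ[F] (ι → F) :=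
  LinearEquiv.ofBijective (PhiL e) ⟨fun _ _ h => S.Phi_inj h, S.exists_coord⟩

variable (S : Fr Q D e c)
include S

lemma PhiE_apply (a : Fin t → F) : (PhiE S) a = Phi e a := rfl

lemma Phi_symm (x : ι → F) : Phi e ((PhiE S).symm x) = x := (PhiE S).apply_symm_apply x

omit S in
/-- The matrix of an isometry in the frame. -/
noncomputable def Lg (S : Fr Q D e c) (g : GL ι F) : (Fin t → F) →ₗ[F] (Fin t → F) :=
  ((PhiE S).symm : (ι → F) →ₗ[F] (Fin t → F)) ∘ₗ Matrix.toLin' (g : Matrix ι ι F) ∘ₗ PhiL e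

lemma Phi_Lg (g : GL ι F) (a : Fin t → F) : Phi e (Lg S g a) = (g : Matrix ι ι F) *ᵥ Phi e a := by
  simp only [Lg, LinearMap.comp_apply, LinearEquiv.coe_coe]
  rw [Phi_symm S]
  rfl

lemma Lg_dot {g : GL ι F} (hg : g ∈ isometryGroup F Q) (a b : Fin t → F) :
    Lg S g a ⬝ᵥ Lg S g b = a ⬝ᵥ b := by
  apply mul_left_cancel₀ S.c2
  rw [← S.pol_Phi, ← S.pol_Phi, Phi_Lg S, Phi_Lg S, pol_isometry g hg]

/-- An isometry outside of the stabiliser moves a frame vector away from the lines. -/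
lemma exists_two (hfin : ∀ i, Module.finrank F (D i) = 1) {g : GL ι F} (hg : g ∈ isometryGroup F Q)
    (hgs : g ∉ decompositionStabilizer D) :
    ∃ i₀ r s, r ≠ s ∧ Lg S g (Pi.single i₀ 1) r ≠ 0 ∧ Lg S g (Pi.single i₀ 1) s ≠ 0 := by
  by_contra hcon
  push Not at hcon
  apply hgs
  have hne : ∀ i, ∃ r, Lg S g (Pi.single i 1) r ≠ 0 := by
    intro i
    by_contra h0
    push Not at h0
    have h1 : Lg S g (Pi.single i 1) = 0 := funext h0
    have h2 := Phi_Lg S g (Pi.single i 1)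
    rw [h1, Phi_zero, Phi_single] at h2
    have h3 := (mem_isometryGroup_iff Q g).1 hg (e i)
    rw [← h2, Q_zero S.hQ, S.Qe] at h3
    exact S.c0 h3.symm
  choose τ hτ using hne
  have hval : ∀ i, (g : Matrix ι ι F) *ᵥ e i = Lg S g (Pi.single i 1) (τ i) • e (τ i) := by
    intro i
    have h2 := Phi_Lg S g (Pi.single i 1)
    rw [Phi_single] at h2
    rw [← h2, Phi]
    rw [Finset.sum_eq_single (τ i)]
    · intro j _ hj
      have := hcon i (τ i) j (Ne.symm hj) (hτ i)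
      rw [this, zero_smul]
    · simp
  have hinj : Function.Injective τ := by
    intro i j hij
    by_contra hne
    have h1 := pol_isometry g hg (e i) (e j)
    rw [S.pol_ne hne, hval, hval, hij, pol_smul_left S.hQ, pol_smul_right S.hQ, S.pol_self] at h1
    have hi := hτ i
    rw [hij] at hi
    exact mul_ne_zero hi (mul_ne_zero (hτ j) S.c2) h1
  let σ : Equiv.Perm (Fin t) := Equiv.ofBijective τ (Finite.injective_iff_bijective.1 hinj)
  refine mem_decompositionStabilizer_of_forall (k := 1) hfin σ g ?_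
  intro i x hx
  obtain ⟨a, rfl⟩ := S.span i x hx
  rw [Matrix.mulVec_smul, hval]
  exact (D _).smul_mem _ ((D _).smul_mem _ (S.mem _))

/-- An element of `Ω` outside of the stabiliser. -/
lemma exists_not_stab [Fintype F] (hodd : Fintype.card F % 2 = 1) (h7 : 7 ≤ Fintype.card ι) (ht : 4 ≤ t) :
    ∃ g ∈ omegaGL Q, g ∉ decompositionStabilizer D := by
  obtain ⟨α, β, hαβ⟩ := exists_binary hodd (one_ne_zero (α := F)) (one_ne_zero (α := F)) (-1)
  let i₁ : Fin t := ⟨0, by omega⟩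
  let i₂ : Fin t := ⟨1, by omega⟩
  let i₃ : Fin t := ⟨2, by omega⟩
  let i₄ : Fin t := ⟨3, by omega⟩
  have h12 : i₁ ≠ i₂ := by simp [i₁, i₂, Fin.ext_iff]
  have h13 : i₁ ≠ i₃ := by simp [i₁, i₃, Fin.ext_iff]
  have h14 : i₁ ≠ i₄ := by simp [i₁, i₄, Fin.ext_iff]
  have h23 : i₂ ≠ i₃ := by simp [i₂, i₃, Fin.ext_iff]
  have h24 : i₂ ≠ i₄ := by simp [i₂, i₄, Fin.ext_iff]
  have h34 : i₃ ≠ i₄ := by simp [i₃, i₄, Fin.ext_iff]
  obtain ⟨x, hx⟩ : ∃ x : Fin t → F, x = Pi.single i₁ 1 + Pi.single i₂ 1 + α • Pi.single i₃ 1 + β • Pi.single i₄ 1 :=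
    ⟨_, rfl⟩
  have x1 : x i₁ = 1 := by
    rw [hx]
    simp [Pi.single_eq_of_ne h12, Pi.single_eq_of_ne h13, Pi.single_eq_of_ne h14]
  have x2 : x i₂ = 1 := by
    rw [hx]
    simp [Pi.single_eq_of_ne h12.symm, Pi.single_eq_of_ne h23, Pi.single_eq_of_ne h24]
  have x3 : x i₃ = α := by
    rw [hx]
    simp [Pi.single_eq_of_ne h13.symm, Pi.single_eq_of_ne h23.symm, Pi.single_eq_of_ne h34]
  have x4 : x i₄ = β := by
    rw [hx]
    simp [Pi.single_eq_of_ne h14.symm, Pi.single_eq_of_ne h24.symm, Pi.single_eq_of_ne h34.symm]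
  have hxx : x ⬝ᵥ x = 1 := by
    nth_rw 2 [hx]
    rw [dotProduct_add, dotProduct_add, dotProduct_add, dotProduct_smul, dotProduct_smul, dotProduct_single_one,
      dotProduct_single_one, dotProduct_single_one, dotProduct_single_one, x1, x2, x3, x4]
    simp only [smul_eq_mul]
    linear_combination hαβ
  have hQ := S.hQ
  have hQv : Q (Phi e x) = c := by rw [S.Q_Phi, hxx, mul_one]
  refine ⟨_, rf_mul_mem_omega hQ h7 (S.Qe i₁) hQv S.c0, ?_⟩
  rintro ⟨σ, hσ⟩
  have hm : (rf hQ (Phi e x) * rf hQ (e i₁) : GL ι F).val *ᵥ e i₁ ∈ D (σ i₁) := by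
    rw [← hσ i₁]
    exact ⟨e i₁, S.mem i₁, rfl⟩
  have h1 : (rf hQ (Phi e x) * rf hQ (e i₁) : GL ι F).val *ᵥ e i₁ = Phi e (-R x (Pi.single i₁ 1)) := by
    rw [Units.val_mul, ← Matrix.mulVec_mulVec, S.rf_e, if_pos rfl, Matrix.mulVec_neg, ← Phi_single (e := e) i₁,
      S.rf_Phi hxx, Phi_neg]
  rw [h1] at hm
  obtain ⟨a, ha⟩ := S.span _ _ hm
  rw [← Phi_single (e := e) (σ i₁), ← Phi_smul] at ha
  have h2 := S.Phi_inj ha
  have hc1 := congrFun h2 i₁
  have hc2 := congrFun h2 i₂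
  have h20 := S.two
  simp only [Pi.neg_apply, Vec.R_apply, dotProduct_single_one, x1, x2, Pi.smul_apply, smul_eq_mul,
    Pi.single_eq_same, Pi.single_eq_of_ne h12.symm] at hc1 hc2
  by_cases h5 : i₁ = σ i₁
  · rw [← h5, Pi.single_eq_of_ne h12.symm, mul_zero] at hc2
    apply h20
    linear_combination hc2
  · rw [Pi.single_eq_of_ne h5, mul_zero] at hc1
    have : (1 : F) = 0 := by linear_combination hc1
    exact one_ne_zero this

/-- **Frames are maximal.** -/
theorem frame_isMaximal [Fintype F] (hprime : (Fintype.card F).Prime) (hodd : Fintype.card F % 2 = 1)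
    (h7 : 7 ≤ Fintype.card ι) (ht : Odd t) (ht9 : 9 ≤ t) (hfin : ∀ i, Module.finrank F (D i) = 1)
    (hiso : ∀ i j, AreIsometricFor Q (D i) (D j)) :
    IsMaximalIn (omegaGL Q) (decompositionStabilizer D ⊓ omegaGL Q) := by
  classical
  haveI : Fact (Fintype.card F).Prime := ⟨hprime⟩
  haveI : CharP F (Fintype.card F) := charP_of_card_eq_prime rfl
  have hp2 : Fintype.card F ≠ 2 := by
    intro h
    rw [h] at hodd
    omega
  obtain ⟨g₀, hg₀, hg₀s⟩ := exists_not_stab S hodd h7 (by omega)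
  refine ⟨?_, ?_⟩
  · refine lt_of_le_of_ne inf_le_right ?_
    intro h
    apply hg₀s
    rw [← h] at hg₀
    exact hg₀.1
  · intro K hK hKO
    have C : CtxB Q D K 1 := ⟨S.hQ, S.blk, hfin, hiso, h7, hK, hKO⟩
    by_cases hle : K ≤ decompositionStabilizer D ⊓ omegaGL Q
    · exact Or.inl (le_antisymm hle hK)
    right
    apply le_antisymm hKO
    obtain ⟨g, hgK, hgn⟩ := SetLike.not_le_iff_exists.1 hle
    have hgs : g ∉ decompositionStabilizer D := fun h => hgn ⟨h, hKO hgK⟩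
    have hgI := C.miso hgK
    obtain ⟨i₀, r, s, hrs, h1, h2⟩ := exists_two S hfin hgI hgs
    have hΛ := S.lam_cs C ht
    refine S.omega_le C rfl ht (by omega) ?_
    refine vec_final rfl hp2 hΛ (by simpa using ht9) (Lg S g) (Lg_dot S hgI) ?_ hrs h1 h2
    intro x hx
    exact S.lam_conj C hgK hx (Phi_Lg S g x)

end

/-- A decomposition into isometric lines has a frame. -/
theorem exists_frame (hQ : IsNondegenerateQuadraticForm Q) (h2 : (2 : F) ≠ 0)
    (hD : IsOrthogonalMDecomposition Q 1 D) : ∃ (e : Fin t → ι → F) (c : F), Fr Q D e c := by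
  have B : Blk Q D := ⟨hD.decomp.nondegenerate, fun i j hij u hu v hv => hD.decomp.orthogonal i j hij u hu v hv,
    hD.decomp.decomp.iSup_eq_top⟩
  have hfin := hD.decomp.decomp.finrank_eq
  have h2t := hD.decomp.decomp.two_le
  let i₀ : Fin t := ⟨0, by omega⟩
  obtain ⟨v, hv0, hv⟩ := finrank_eq_one_iff'.1 (hfin i₀)
  have hv0' : (v : ι → F) ≠ 0 := fun h => hv0 (Subtype.ext h)
  have hQv : Q (v : ι → F) ≠ 0 := by
    obtain ⟨x, hx, hne⟩ := (B.nd i₀ v v.2 hv0').1
    obtain ⟨a, ha⟩ := hv ⟨x, hx⟩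
    have hxe : x = a • (v : ι → F) := (congrArg Subtype.val ha).symm
    rw [hxe] at hne
    change pol Q (a • (v : ι → F)) v ≠ 0 at hne
    rw [pol_smul_left hQ, Cfsg.Agent.Lib.Geo.QForm.pol_self hQ] at hne
    intro h0
    apply hne
    rw [h0]
    ring
  choose φ hφ using fun i => hD.isometric i₀ i
  refine ⟨fun i => (φ i v : ι → F), Q v, hQ, B, h2, fun i => (φ i v).2, fun i => hφ i v, hQv, ?_⟩
  intro i x hx
  have hne : φ i v ≠ 0 := by
    intro h0
    have := hφ i v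
    rw [h0] at this
    apply hQv
    rw [← this]
    exact Q_zero hQ
  obtain ⟨a, ha⟩ := (finrank_eq_one_iff_of_nonzero' (φ i v) hne).1 (hfin i) ⟨x, hx⟩
  exact ⟨a, (congrArg Subtype.val ha).symm⟩

end Cfsg.Agent.Lib.OmFrame.Final
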