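/-
Frames in `Ω_n(p)`, `n` even: the classes of unit vectors attached to a subgroup containing the frame stabiliser.
-/
import Cfsg.Agent.Lib.OmFrame.Final
import Cfsg.Agent.Lib.OmFrame.EvenV2
import Cfsg.Agent.Lib.Geo.Om2

set_option autoImplicit false
set_option linter.unusedSectionVars false
set_option linter.style.haveILetI false
set_option linter.unusedVariables false

namespace Cfsg.Agent.Lib.OmFrame.EvenA

open Cfsg Cfsg.Geo Cfsg.Agent.Lib.Geo.Basic Cfsg.Agent.Lib.Geo.Parabolic Cfsg.Agent.Lib.Geo.Centres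
open Cfsg.Agent.Lib.Geo.Polar Cfsg.Agent.Lib.Geo.QForm
open Cfsg.Agent.Lib.GeoOmega.Basic Cfsg.Agent.Lib.GeoOmega.Eichler
open Cfsg.Agent.Lib.GeoOmega.Levi (rf rf_mulVec rf_mem rf_mul_mem_omega rf_inv rf_conj prod_rf_mem_omega)
open Cfsg.Agent.Lib.Geo.OmSub (Par Par.add Par.zero Par.neg Par.sub Par.conj Par.swap pol_sum_left eich_zero)
open Cfsg.Agent.Lib.Geo.SpDecomp (exists_comps mem_decompositionStabilizer_of_forall)
open Cfsg.Agent.Lib.Geo.OmDec
open Cfsg.Agent.Lib.Geo.OmB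
open Cfsg.Agent.Lib.OmFrame.Dick Cfsg.Agent.Lib.OmFrame.Vec Cfsg.Agent.Lib.OmFrame.VecMain
open Cfsg.Agent.Lib.OmFrame.VecB Cfsg.Agent.Lib.OmFrame.Group Cfsg.Agent.Lib.OmFrame.Final
open Cfsg.Agent.Lib.OmFrame.EvenV2
open scoped MatrixGroups Matrix

variable {ι : Type} [Fintype ι] [DecidableEq ι] {F : Type*} [Field F] [Fintype F]
variable {Q : (ι → F) → F} {t : ℕ} {D : Fin t → Submodule F (ι → F)} {e : Fin t → ι → F} {c : F}

/-- The reflection attached to a coordinate vector. -/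
noncomputable def rr (S : Fr Q D e c) (a : Fin t → F) : GL ι F := rf S.hQ (Phi e a)

/-- The standard basis vectors. -/
abbrev eb (i : Fin t) : Fin t → F := Pi.single i 1

section Basic

variable (S : Fr Q D e c)
include S

lemma Lg_mul (g h : GL ι F) (a : Fin t → F) : Lg S (g * h) a = Lg S g (Lg S h a) := by
  apply S.Phi_inj
  rw [Phi_Lg, Phi_Lg, Phi_Lg, Units.val_mul, Matrix.mulVec_mulVec]

lemma Lg_one (a : Fin t → F) : Lg S 1 a = a := by
  apply S.Phi_inj
  rw [Phi_Lg, Units.val_one, Matrix.one_mulVec]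

lemma Lg_inv_self (g : GL ι F) (a : Fin t → F) : Lg S g⁻¹ (Lg S g a) = a := by
  rw [← Lg_mul, inv_mul_cancel, Lg_one]

lemma Lg_self_inv (g : GL ι F) (a : Fin t → F) : Lg S g (Lg S g⁻¹ a) = a := by
  rw [← Lg_mul, mul_inv_cancel, Lg_one]

lemma rr_mem (a : Fin t → F) : rr S a ∈ isometryGroup F Q := rf_mem S.hQ _

lemma rr_inv (a : Fin t → F) : (rr S a)⁻¹ = rr S a := rf_inv S.hQ _

lemma rr_mul_self (a : Fin t → F) : rr S a * rr S a = 1 := by
  have := rr_inv S a
  nth_rewrite 1 [← this]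
  exact inv_mul_cancel _

lemma rr_smul {s : F} (hs : s ≠ 0) (a : Fin t → F) : rr S (s • a) = rr S a := by
  rw [rr, rr, Phi_smul, Cfsg.Agent.Lib.Geo.Om2.rf_smul S.hQ hs]

lemma rr_conj {g : GL ι F} (hg : g ∈ isometryGroup F Q) (a : Fin t → F) : g * rr S a * g⁻¹ = rr S (Lg S g a) := by
  rw [rr, rr, rf_conj S.hQ g hg, Phi_Lg]

lemma Lg_rr1 {a : Fin t → F} (ha : a ⬝ᵥ a = 1) (b : Fin t → F) : Lg S (rr S a) b = R a b := by
  apply S.Phi_inj
  rw [Phi_Lg, rr, S.rf_Phi ha]

lemma Lg_rr2 {a : Fin t → F} (ha : a ⬝ᵥ a = 2) (b : Fin t → F) : Lg S (rr S a) b = R2 a b := by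
  apply S.Phi_inj
  rw [Phi_Lg, rr, rf_mulVec, S.Q_Phi, ha, S.pol_Phi, R2, Phi_sub, Phi_smul, dotProduct_comm b a]
  congr 2
  have := S.c0
  have := S.two
  field_simp

lemma stab_col {g : GL ι F} (hg : g ∈ decompositionStabilizer D) (j : Fin t) :
    ∃ k, ∃ α : F, Lg S g (eb j) = α • eb k := by
  obtain ⟨σ, hσ⟩ := hg
  have hm : (g : Matrix ι ι F) *ᵥ e j ∈ D (σ j) := by
    rw [← hσ j]
    exact ⟨e j, S.mem j, rfl⟩
  obtain ⟨a, ha⟩ := S.span _ _ hm
  refine ⟨σ j, a, S.Phi_inj ?_⟩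
  rw [Phi_Lg, Phi_single, Phi_smul, Phi_single, ha]

lemma stab_of_col (hfin : ∀ i, Module.finrank F (D i) = 1) {g : GL ι F} (hI : g ∈ isometryGroup F Q)
    (h : ∀ j, ∃ k, ∃ α : F, Lg S g (eb j) = α • eb k) : g ∈ decompositionStabilizer D := by
  by_contra hgs
  obtain ⟨i₀, r, s, hrs, h1, h2⟩ := exists_two S hfin hI hgs
  obtain ⟨k, α, hk⟩ := h i₀
  rw [hk] at h1 h2
  simp only [eb, Pi.smul_apply, smul_eq_mul] at h1 h2
  by_cases hr : r = k
  · by_cases hs : s = k
    · exact hrs (hr.trans hs.symm)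
    · rw [Pi.single_eq_of_ne hs, mul_zero] at h2
      exact h2 rfl
  · rw [Pi.single_eq_of_ne hr, mul_zero] at h1
    exact h1 rfl

/-- Reflections in frame vectors preserve the frame. -/
lemma Lg_rr_sg (i j : Fin t) : Lg S (rr S (eb i)) (eb j) = (if j = i then (-1 : F) else 1) • eb j := by
  rw [Lg_rr1 S single_dot_self]
  ext x
  simp only [Vec.R_apply, dotProduct_single_one, eb, Pi.smul_apply, smul_eq_mul]
  by_cases h : j = i
  · subst h
    by_cases hx : x = j
    · subst hx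
      simp
      ring
    · simp [Pi.single_eq_of_ne hx]
  · simp [h, Pi.single_eq_of_ne (Ne.symm h)]

lemma rr_sg_stab (hfin : ∀ i, Module.finrank F (D i) = 1) (i : Fin t) : rr S (eb i) ∈ decompositionStabilizer D := by
  refine stab_of_col S hfin (rr_mem S _) ?_
  intro j
  exact ⟨j, _, Lg_rr_sg S i j⟩

/-- Reflections in roots preserve the frame. -/
lemma rr_root_stab (hfin : ∀ i, Module.finrank F (D i) = 1) {ρ : Fin t → F} (hρ : IsRoot ρ) :
    rr S ρ ∈ decompositionStabilizer D := by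
  refine stab_of_col S hfin (rr_mem S _) ?_
  obtain ⟨a, b, hab, α, β, hα, hβ, rfl⟩ := hρ
  have hdot : (α • (Pi.single a 1 : Fin t → F) + β • (Pi.single b 1 : Fin t → F)) ⬝ᵥ
      (α • (Pi.single a 1 : Fin t → F) + β • (Pi.single b 1 : Fin t → F)) = 2 := by
    simp only [add_dotProduct, dotProduct_add, smul_dotProduct, dotProduct_smul, smul_eq_mul, single_dot_self,
      single_dot_single hab, single_dot_single hab.symm]
    linear_combination hα + hβ
  intro j
  rw [Lg_rr2 S hdot]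
  have dj : (α • (Pi.single a 1 : Fin t → F) + β • (Pi.single b 1 : Fin t → F)) ⬝ᵥ eb j =
      α * (Pi.single a 1 : Fin t → F) j + β * (Pi.single b 1 : Fin t → F) j := by
    simp [add_dotProduct, smul_dotProduct, dotProduct_single_one]
  by_cases h1 : j = a
  · subst h1
    refine ⟨b, -(α * β), ?_⟩
    rw [R2, dj]
    ext x
    simp only [eb, Pi.sub_apply, Pi.smul_apply, Pi.add_apply, smul_eq_mul, Pi.single_eq_same,
      Pi.single_eq_of_ne hab, mul_one, mul_zero, add_zero]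
    by_cases hx : x = j
    · subst hx
      simp [Pi.single_eq_of_ne hab]
      linear_combination -hα
    · simp [Pi.single_eq_of_ne hx]
      ring
  by_cases h2 : j = b
  · subst h2
    refine ⟨a, -(α * β), ?_⟩
    rw [R2, dj]
    ext x
    simp only [eb, Pi.sub_apply, Pi.smul_apply, Pi.add_apply, smul_eq_mul, Pi.single_eq_same,
      Pi.single_eq_of_ne (Ne.symm hab), mul_one, mul_zero, zero_add]
    by_cases hx : x = j
    · subst hx
      simp [Pi.single_eq_of_ne hab]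
      linear_combination -hβ
    · simp [Pi.single_eq_of_ne hx]
      ring
  · refine ⟨j, 1, ?_⟩
    rw [R2, dj, Pi.single_eq_of_ne h1, Pi.single_eq_of_ne h2]
    simp

end Basic

section Class

variable {M : Subgroup (GL ι F)} (S : Fr Q D e c) (C : CtxB Q D M 1)
include S C

lemma mem_of_stab_omega {g : GL ι F} (h1 : g ∈ decompositionStabilizer D) (h2 : g ∈ omegaGL Q) : g ∈ M :=
  C.hH ⟨h1, h2⟩

/-- Conjugates of elements of the frame stabiliser. -/
lemma stab_conj_mem {T k : GL ι F} (hT : T ∈ M) (hT' : T ∈ decompositionStabilizer D)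
    (hk : k ∈ decompositionStabilizer D) (hkI : k ∈ isometryGroup F Q) : k * T * k⁻¹ ∈ M :=
  mem_of_stab_omega S C (Subgroup.mul_mem _ (Subgroup.mul_mem _ hk hT') (Subgroup.inv_mem _ hk))
    (Cfsg.Agent.Lib.Geo.Om2.conj_mem_omega hkI (C.hM hT))

/-- The product of two reflections in vectors of the same norm. -/
lemma rr_mul_omega {a b : Fin t → F} {n : F} (hn : n ≠ 0) (ha : a ⬝ᵥ a = n) (hb : b ⬝ᵥ b = n) :
    rr S a * rr S b ∈ omegaGL Q := by
  refine rf_mul_mem_omega S.hQ C.card7 (c := c * n) ?_ ?_ (mul_ne_zero S.c0 hn)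
  · rw [S.Q_Phi, hb]
  · rw [S.Q_Phi, ha]

end Class

section Cl

variable {M : Subgroup (GL ι F)} (S : Fr Q D e c) (C : CtxB Q D M 1)

/-- The class of a frame vector. -/
def Cl (S : Fr Q D e c) (M : Subgroup (GL ι F)) (i₀ : Fin t) : Set (Fin t → F) :=
  {a | a ⬝ᵥ a = 1 ∧ rr S a * rr S (eb i₀) ∈ M}

include S C

lemma frame_mem (i j : Fin t) : rr S (eb i) * rr S (eb j) ∈ M :=
  mem_of_stab_omega S C (Subgroup.mul_mem _ (rr_sg_stab S C.fin i) (rr_sg_stab S C.fin j))
    (rr_mul_omega S C one_ne_zero single_dot_self single_dot_self)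

omit S C [Fintype F] in
lemma R_unit {a b : Fin t → F} (ha : a ⬝ᵥ a = 1) (hb : b ⬝ᵥ b = 1) : R a b ⬝ᵥ R a b = 1 := by
  have h2 : b ⬝ᵥ a = a ⬝ᵥ b := dotProduct_comm _ _
  simp only [R, dotProduct_sub, sub_dotProduct, dotProduct_smul, smul_dotProduct, smul_eq_mul, ha, hb, h2]
  ring

lemma rr_R {a : Fin t → F} (ha : a ⬝ᵥ a = 1) (b : Fin t → F) : rr S (R a b) = rr S a * rr S b * rr S a := by
  have h := rr_conj S (rr_mem S a) b
  rw [rr_inv, Lg_rr1 S ha] at h
  exact h.symm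

lemma rr_R2 {a : Fin t → F} (ha : a ⬝ᵥ a = 2) (b : Fin t → F) : rr S (R2 a b) = rr S a * rr S b * rr S a := by
  have h := rr_conj S (rr_mem S a) b
  rw [rr_inv, Lg_rr2 S ha] at h
  exact h.symm

/-- **The class is a closed system.** -/
theorem cl_cs (i₀ : Fin t) : CS (Cl S M i₀) where
  unit a ha := ha.1
  frame i := ⟨single_dot_self, frame_mem S C i i₀⟩
  refl a ha b hb := by
    refine ⟨R_unit ha.1 hb.1, ?_⟩
    rw [rr_R S C ha.1]
    have e : rr S a * rr S b * rr S a * rr S (eb i₀) =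
        (rr S a * rr S (eb i₀)) * (rr S b * rr S (eb i₀))⁻¹ * (rr S a * rr S (eb i₀)) := by
      rw [mul_inv_rev, rr_inv, rr_inv]
      have := rr_mul_self S (eb i₀)
      calc rr S a * rr S b * rr S a * rr S (eb i₀) = rr S a * (rr S (eb i₀) * rr S (eb i₀)) * rr S b * rr S a * rr S (eb i₀) := by
            rw [this, mul_one]
        _ = _ := by group
    rw [e]
    exact M.mul_mem (M.mul_mem ha.2 (M.inv_mem hb.2)) ha.2
  perm σ hσ a ha := by
    have hσ' : Equiv.Perm.sign σ⁻¹ = 1 := by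
      rw [map_inv, hσ, inv_one]
    obtain ⟨T, hT, h1⟩ := S.perm_mem C hσ'
    have hTI := C.miso hT
    have hLg : Lg S T a = a ∘ σ := by
      apply S.Phi_inj
      rw [Phi_Lg]
      symm
      rw [mulVec_Phi, Phi, Phi]
      simp only [h1]
      rw [← Equiv.sum_comp σ⁻¹]
      apply Finset.sum_congr rfl
      intro i _
      simp
    have hTs : T ∈ decompositionStabilizer D := by
      refine stab_of_col S C.fin hTI ?_
      intro j
      refine ⟨σ⁻¹ j, 1, S.Phi_inj ?_⟩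
      rw [Phi_Lg, Phi_single, h1, one_smul, Phi_single]
    refine ⟨?_, ?_⟩
    · rw [← hLg, Lg_dot S hTI, ha.1]
    · rw [← hLg, ← rr_conj S hTI]
      have h2 := stab_conj_mem S C (M.inv_mem hT) ((decompositionStabilizer D).inv_mem hTs)
        (rr_sg_stab S C.fin i₀) (rr_mem S (eb i₀))
      rw [rr_inv] at h2
      have e : T * rr S a * T⁻¹ * rr S (eb i₀) = T * (rr S a * rr S (eb i₀)) * (rr S (eb i₀) * T⁻¹ * rr S (eb i₀)) := by
        have := rr_mul_self S (eb i₀)
        calc T * rr S a * T⁻¹ * rr S (eb i₀) = T * rr S a * (rr S (eb i₀) * rr S (eb i₀)) * T⁻¹ * rr S (eb i₀) := by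
              rw [this, mul_one]
          _ = _ := by group
      rw [e]
      exact M.mul_mem (M.mul_mem hT ha.2) h2

/-- A pair in the class gives an Eichler transformation in `M`. -/
lemma par_pair' {p₀ : ℕ} [Fact p₀.Prime] [CharP F p₀] (hcard : Fintype.card F = p₀) {u w : Fin t → F}
    (huu : u ⬝ᵥ u = 0) (hwu : w ⬝ᵥ u = 0) (hww : w ⬝ᵥ w = 1) (hp1 : (w + u) ⬝ᵥ (w + u) = 1)
    (hm1 : (w - u) ⬝ᵥ (w - u) = 1)
    (hgM : rf S.hQ (Phi e (w + u)) * rf S.hQ (Phi e (w - u)) ∈ M) : Par Q M (Phi e u) (Phi e w) := by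
  have hQ := S.hQ
  have hc := S.c0
  have hQu : Q (Phi e u) = 0 := by rw [S.Q_Phi, huu, mul_zero]
  have hQx : Q (Phi e (w + u)) = c := by rw [S.Q_Phi, hp1, mul_one]
  have hQy : Q (Phi e (w - u)) = c := by rw [S.Q_Phi, hm1, mul_one]
  set X := Phi e (w + u) with hX
  set Y := Phi e (w - u) with hY
  have hYX : Y - X = (-2 : F) • Phi e u := by
    rw [hX, hY, Phi_add, Phi_sub]
    module
  have hw0 : Q (Y - X) = 0 := by
    rw [hYX, hQ.smul, hQu, mul_zero]
  have hw' : Q (Y - X) = 2 * c - pol Q Y X := by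
    rw [Cfsg.Agent.Lib.GeoOmega.Eichler.Q_sub hQ, hQy, hQx]
    ring
  have huv : pol Q Y X = 2 * c := by
    rw [hw0] at hw'
    linear_combination hw'
  have hE : Eich Q (rf hQ X * rf hQ Y) (Y - X) ((-c⁻¹) • Y) := by
    intro x
    rw [Units.val_mul, ← Matrix.mulVec_mulVec, rf_mulVec, rf_mulVec, hQy, hQx,
      pol_smul_right hQ, Cfsg.Agent.Lib.GeoOmega.Eichler.pol_sub_right hQ, hQ.smul, hQy]
    rw [Cfsg.Agent.Lib.GeoOmega.Eichler.pol_sub_left hQ, pol_smul_left hQ, huv]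
    have hcc : c⁻¹ * c = 1 := inv_mul_cancel₀ hc
    have e1 : (-c⁻¹) ^ 2 * c = c⁻¹ := by
      field_simp
    rw [e1]
    have e2 : c⁻¹ * (pol Q x X - c⁻¹ * pol Q x Y * (2 * c)) = c⁻¹ * pol Q x X - 2 * c⁻¹ * pol Q x Y := by
      field_simp
    rw [e2]
    module
  rw [hYX] at hE
  have hE2 := Eich.smul hQ (-2 : F) hE
  set V := ((-2 : F) • (-c⁻¹) • Y) with hV
  have hpolU : pol Q (Phi e u) V = 0 := by
    rw [hV, pol_smul_right hQ, pol_smul_right hQ, hY, S.pol_Phi, dotProduct_sub, dotProduct_comm u w, hwu, huu]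
    ring
  have hP : Par Q M (Phi e u) V := by
    refine ⟨hpolU, fun g hg => ?_⟩
    rw [Eich.unique' hg hE2]
    exact hgM
  have h1 := par_add_self hQ hQu hP (2 * c⁻¹)
  have h2 : V + (2 * c⁻¹) • Phi e u = (2 * c⁻¹) • Phi e w := by
    rw [hV, hY, Phi_sub]
    module
  rw [h2] at h1
  have h3 := par_smul_prime hcard hQ hQu h1 (c / 2)
  rwa [smul_smul, show c / 2 * (2 * c⁻¹) = 1 by
    have := S.two
    field_simp, one_smul] at h3

/-- **The final stage.** -/
theorem omega_le_even {p₀ : ℕ} [Fact p₀.Prime] [CharP F p₀] (hcard : Fintype.card F = p₀) (i₀ : Fin t)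
    (ht8 : 8 ≤ t) (hZ : HasZ (Cl S M i₀)) : omegaGL Q ≤ M := by
  classical
  have hQ := S.hQ
  have hΛ := cl_cs S C i₀
  obtain ⟨u, l, huu, hul, hT⟩ := vec_B hcard S.two hΛ (by simpa using ht8) hZ
  have hQu : Q (Phi e u) = 0 := by rw [S.Q_Phi, huu, mul_zero]
  have hPar0 : ∀ b ∈ TT (Cl S M i₀) u, Par Q M (Phi e u) (Phi e b) := by
    intro b hb'
    induction hb' using Submodule.span_induction with
    | mem x hx =>
      refine par_pair' S C hcard huu hx.1 hx.2.1 hx.2.2.1.1 hx.2.2.2.1 ?_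
      have h1 := hx.2.2.1.2
      have h2 := hx.2.2.2.2
      have e1 : rr S (x + u) * rr S (x - u) = (rr S (x + u) * rr S (eb i₀)) * (rr S (x - u) * rr S (eb i₀))⁻¹ := by
        rw [mul_inv_rev, rr_inv, rr_inv]
        have := rr_mul_self S (eb i₀)
        calc rr S (x + u) * rr S (x - u) = rr S (x + u) * (rr S (eb i₀) * rr S (eb i₀)) * rr S (x - u) := by
              rw [this, mul_one]
          _ = _ := by group
      have h3 : rr S (x + u) * rr S (x - u) ∈ M := by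
        rw [e1]
        exact M.mul_mem h1 (M.inv_mem h2)
      exact h3
    | zero =>
      rw [Phi_zero]
      exact Par.zero hQ _
    | add x y _ _ ihx ihy =>
      rw [Phi_add]
      exact Par.add hQ hQu ihx ihy
    | smul k x _ ihx =>
      rw [Phi_smul]
      exact par_smul_prime hcard hQ hQu ihx k
  have hFull : Full Q M (Phi e u) := by
    intro b' g hb' hg
    obtain ⟨b, rfl⟩ := S.exists_coord b'
    have hb : b ⬝ᵥ u = 0 := by
      rw [S.pol_Phi] at hb'
      have := (mul_eq_zero.1 hb').resolve_left S.c2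
      rwa [dotProduct_comm]
    exact (hPar0 b (hT b hb)).2 g hg
  -- a sign change moving `u` to a non-orthogonal vector
  obtain ⟨a, b, hab, hs⟩ : ∃ a b : Fin t, a ≠ b ∧ u a ^ 2 + u b ^ 2 ≠ 0 := by
    by_contra hcon
    push Not at hcon
    obtain ⟨m, hm⟩ := exists_outside ({l} : Finset (Fin t)) (by
      rw [Finset.card_singleton, Fintype.card_fin]
      omega)
    obtain ⟨n, hn⟩ := exists_outside ({l, m} : Finset (Fin t)) (by
      have := Finset.card_le_two (a := l) (b := m)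
      rw [Fintype.card_fin]
      omega)
    simp only [Finset.mem_insert, Finset.mem_singleton, not_or] at hm hn
    have h1 := hcon l m (Ne.symm hm)
    have h2 := hcon l n (Ne.symm hn.1)
    have h3 := hcon m n (Ne.symm hn.2)
    have h4 : 2 * u l ^ 2 = 0 := by linear_combination h1 + h2 - h3
    exact hul (pow_eq_zero_iff (by norm_num) |>.1 ((mul_eq_zero.1 h4).resolve_left S.two))
  have hk := frame_mem S C a b
  have hkI := C.miso hk
  have hFull' := Full.conj hFull hk hkI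
  have hQu' : Q ((rr S (eb a) * rr S (eb b) : GL ι F).val *ᵥ Phi e u) = 0 := by
    rw [(mem_isometryGroup_iff Q _).1 hkI, hQu]
  refine omega_le_of_full hQ C.card7 hQu hQu' hFull hFull' ?_
  have e1 : (rr S (eb a) * rr S (eb b) : GL ι F).val *ᵥ Phi e u = Phi e (R (eb a) (R (eb b) u)) := by
    rw [← Phi_Lg S, Lg_mul, Lg_rr1 S single_dot_self, Lg_rr1 S single_dot_self]
  rw [e1, S.pol_Phi]
  have hc2 := S.c2
  refine mul_ne_zero hc2 ?_
  have e2 : R (eb a) (R (eb b) u) ⬝ᵥ u = - 2 * (u a ^ 2 + u b ^ 2) := by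
    have d1 : (eb a : Fin t → F) ⬝ᵥ u = u a := single_one_dotProduct _ _
    have d2 : (eb b : Fin t → F) ⬝ᵥ u = u b := single_one_dotProduct _ _
    have d3 : (eb a : Fin t → F) ⬝ᵥ eb b = 0 := single_dot_single hab
    simp only [R, sub_dotProduct, smul_dotProduct, dotProduct_sub, dotProduct_smul, d1, d2, d3, huu, smul_eq_mul]
    ring
  rw [e2]
  exact mul_ne_zero (neg_ne_zero.2 S.two) hs

end Cl

end Cfsg.Agent.Lib.OmFrame.EvenA
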