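/-
Frames in `Ω_n(p)`, `n` even: elements of `M` sending a frame vector to a vector with many vanishing coordinates.
-/
import Cfsg.Agent.Lib.OmFrame.EvenA

set_option autoImplicit false
set_option linter.unusedSectionVars false
set_option linter.style.haveILetI false
set_option linter.unusedVariables false

namespace Cfsg.Agent.Lib.OmFrame.EvenB

open Cfsg Cfsg.Geo Cfsg.Agent.Lib.Geo.Basic Cfsg.Agent.Lib.Geo.Parabolic Cfsg.Agent.Lib.Geo.Centres
open Cfsg.Agent.Lib.Geo.Polar Cfsg.Agent.Lib.Geo.QForm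
open Cfsg.Agent.Lib.GeoOmega.Basic Cfsg.Agent.Lib.GeoOmega.Eichler
open Cfsg.Agent.Lib.GeoOmega.Levi (rf rf_mulVec rf_mem rf_mul_mem_omega rf_inv rf_conj prod_rf_mem_omega)
open Cfsg.Agent.Lib.Geo.OmDec
open Cfsg.Agent.Lib.Geo.OmB
open Cfsg.Agent.Lib.OmFrame.Dick Cfsg.Agent.Lib.OmFrame.Vec Cfsg.Agent.Lib.OmFrame.VecMain
open Cfsg.Agent.Lib.OmFrame.VecB Cfsg.Agent.Lib.OmFrame.Group Cfsg.Agent.Lib.OmFrame.Final
open Cfsg.Agent.Lib.OmFrame.EvenV2 Cfsg.Agent.Lib.OmFrame.EvenA
open scoped MatrixGroups Matrix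

variable {ι : Type} [Fintype ι] [DecidableEq ι] {F : Type*} [Field F] [Fintype F]
variable {Q : (ι → F) → F} {t : ℕ} {D : Fin t → Submodule F (ι → F)} {e : Fin t → ι → F} {c : F}
variable {M : Subgroup (GL ι F)}

omit [Fintype ι] [DecidableEq ι] [Fintype F] in
/-- Three pairwise orthogonal anisotropic vectors in the plane. -/
lemma no_three {x₁ y₁ x₂ y₂ x₃ y₃ : F} (h1 : x₁ ^ 2 + y₁ ^ 2 ≠ 0) (h2 : x₂ ^ 2 + y₂ ^ 2 ≠ 0) (h3 : x₃ ^ 2 + y₃ ^ 2 ≠ 0)
    (h12 : x₁ * x₂ + y₁ * y₂ = 0) (h13 : x₁ * x₃ + y₁ * y₃ = 0) (h23 : x₂ * x₃ + y₂ * y₃ = 0) : False := by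
  have hD : (x₁ * y₂ - x₂ * y₁) ^ 2 = (x₁ ^ 2 + y₁ ^ 2) * (x₂ ^ 2 + y₂ ^ 2) := by
    linear_combination -(x₁ * x₂ + y₁ * y₂) * h12
  have hD0 : x₁ * y₂ - x₂ * y₁ ≠ 0 := by
    intro h0
    rw [h0] at hD
    have : (x₁ ^ 2 + y₁ ^ 2) * (x₂ ^ 2 + y₂ ^ 2) = 0 := by
      rw [← hD]
      ring
    exact mul_ne_zero h1 h2 this
  have hx : x₃ = 0 := by
    apply mul_left_cancel₀ hD0
    linear_combination y₂ * h13 - y₁ * h23
  have hy : y₃ = 0 := by
    apply mul_left_cancel₀ hD0
    linear_combination -x₂ * h13 + x₁ * h23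
  apply h3
  rw [hx, hy]
  ring

section Flips

variable (S : Fr Q D e c)
include S

lemma Lg_rr_sg' (k : Fin t) (v : Fin t → F) : Lg S (rr S (eb k)) v = flp {k} v := by
  rw [Lg_rr1 S single_dot_self]
  ext x
  simp only [Vec.R_apply, flp, dotProduct_comm (eb k) v, dotProduct_single_one, Finset.mem_singleton, eb]
  by_cases hx : x = k
  · subst hx
    simp
    ring
  · simp [hx, Pi.single_eq_of_ne hx]

omit S [Fintype F] in
lemma flp_flp_disj {A B : Finset (Fin t)} (h : Disjoint A B) (v : Fin t → F) : flp A (flp B v) = flp (A ∪ B) v := by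
  ext x
  simp only [flp, Finset.mem_union]
  by_cases h1 : x ∈ A
  · have h2 : x ∉ B := Finset.disjoint_left.1 h h1
    simp [h1, h2]
  · simp [h1]

lemma Lg_e2 {k m : Fin t} (hkm : k ≠ m) (v : Fin t → F) : Lg S (rr S (eb k) * rr S (eb m)) v = flp {k, m} v := by
  rw [Lg_mul, Lg_rr_sg', Lg_rr_sg', flp_flp_disj (by simpa using hkm)]
  rfl

lemma Lg_e4 {k m m₂ m₃ : Fin t} (hkm : k ≠ m) (h23 : m₂ ≠ m₃) (h1 : k ≠ m₂) (h2 : k ≠ m₃) (h3 : m ≠ m₂) (h4 : m ≠ m₃)
    (v : Fin t → F) :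
    Lg S (rr S (eb k) * rr S (eb m) * (rr S (eb m₂) * rr S (eb m₃))) v = flp ({k, m} ∪ {m₂, m₃}) v := by
  rw [Lg_mul, Lg_e2 S hkm, Lg_e2 S h23, flp_flp_disj]
  simp [h1, h2, h3, h4, Ne.symm h1, Ne.symm h2, Ne.symm h3, Ne.symm h4]

omit S [Fintype F] in
lemma flp_fix {A : Finset (Fin t)} {v : Fin t → F} (h : ∀ x ∈ A, v x = 0) : flp A v = v := by
  ext x
  by_cases h1 : x ∈ A
  · simp [flp, h1, h x h1]
  · simp [flp, h1]

end Flips

section Main

variable (S : Fr Q D e c) (C : CtxB Q D M 1) {i₀ : Fin t}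
include S C

lemma cl_rel {a b : Fin t → F} (ha : a ∈ Cl S M i₀) (hb : b ∈ Cl S M i₀) : rr S b * rr S a ∈ M := by
  have e1 : rr S b * rr S a = (rr S b * rr S (eb i₀)) * (rr S a * rr S (eb i₀))⁻¹ := by
    rw [mul_inv_rev, rr_inv, rr_inv]
    have := rr_mul_self S (eb i₀)
    calc rr S b * rr S a = rr S b * (rr S (eb i₀) * rr S (eb i₀)) * rr S a := by rw [this, mul_one]
      _ = _ := by group
  rw [e1]
  exact M.mul_mem hb.2 (M.inv_mem ha.2)

lemma rel_conj {h : GL ι F} (hM : h ∈ M) {a b : Fin t → F} (hr : rr S b * rr S a ∈ M) :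
    rr S (Lg S h b) * rr S (Lg S h a) ∈ M := by
  have hI := C.miso hM
  rw [← rr_conj S hI, ← rr_conj S hI]
  have e1 : h * rr S b * h⁻¹ * (h * rr S a * h⁻¹) = h * (rr S b * rr S a) * h⁻¹ := by group
  rw [e1]
  exact M.mul_mem (M.mul_mem hM hr) (M.inv_mem hM)

/-- `M` permutes the classes. -/
lemma cl_move {h : GL ι F} (hM : h ∈ M) {a : Fin t → F} (ha : a ∈ Cl S M i₀) (hh : Lg S h a ∈ Cl S M i₀)
    {b : Fin t → F} (hb : b ∈ Cl S M i₀) : Lg S h b ∈ Cl S M i₀ := by
  have hI := C.miso hM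
  refine ⟨by rw [Lg_dot S hI, hb.1], ?_⟩
  have h1 := rel_conj S C hM (cl_rel S C ha hb)
  have e1 : rr S (Lg S h b) * rr S (eb i₀) = (rr S (Lg S h b) * rr S (Lg S h a)) * (rr S (Lg S h a) * rr S (eb i₀)) := by
    have := rr_mul_self S (Lg S h a)
    calc rr S (Lg S h b) * rr S (eb i₀) = rr S (Lg S h b) * (rr S (Lg S h a) * rr S (Lg S h a)) * rr S (eb i₀) := by
          rw [this, mul_one]
      _ = _ := by group
  rw [e1]
  exact M.mul_mem h1 hh.2

lemma sg_mem (i : Fin t) : eb i ∈ Cl S M i₀ := (cl_cs S C i₀).frame i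

lemma smul_sg_mem {α : F} (hα : α ^ 2 = 1) (i : Fin t) : α • eb i ∈ Cl S M i₀ := by
  have h1 : (α - 1) * (α + 1) = 0 := by linear_combination hα
  rcases mul_eq_zero.1 h1 with h2 | h2
  · have : α = 1 := by linear_combination h2
    rw [this, one_smul]
    exact sg_mem S C i
  · have : α = -1 := by linear_combination h2
    rw [this, neg_smul, one_smul]
    exact (cl_cs S C i₀).neg (sg_mem S C i)

/-- Vectors of norm one over a root. -/
lemma case2_mem {ω : F} (hω : ω ^ 2 = 2) {ρ : Fin t → F} (hρ : IsRoot ρ) : ω⁻¹ • ρ ∈ Cl S M i₀ := by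
  have hω0 : ω ≠ 0 := by
    rintro rfl
    exact S.two (by simpa using hω.symm)
  have hn : ρ ⬝ᵥ ρ = 2 := by
    obtain ⟨a, b, hab, α, β, hα, hβ, rfl⟩ := hρ
    simp only [add_dotProduct, dotProduct_add, smul_dotProduct, dotProduct_smul, smul_eq_mul, single_dot_self,
      single_dot_single hab, single_dot_single hab.symm]
    linear_combination hα + hβ
  have hu : (ω⁻¹ • ρ) ⬝ᵥ (ω⁻¹ • ρ) = 1 := by
    simp only [smul_dotProduct, dotProduct_smul, smul_eq_mul, hn]
    field_simp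
    linear_combination -hω
  refine ⟨hu, ?_⟩
  refine mem_of_stab_omega S C ?_ (rr_mul_omega S C one_ne_zero hu single_dot_self)
  rw [rr_smul S (inv_ne_zero hω0)]
  exact Subgroup.mul_mem _ (rr_root_stab S C.fin hρ) (rr_sg_stab S C.fin i₀)

/-- A non-zero row. -/
lemma row_ne {h : GL ι F} (hI : h ∈ isometryGroup F Q) (k : Fin t) : ∃ j, Lg S h (eb j) k ≠ 0 := by
  set v := Lg S h⁻¹ (eb k) with hv
  have h1 : Lg S h v = eb k := Lg_self_inv S h _
  have hv0 : v ≠ 0 := by
    intro h0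
    rw [h0, map_zero] at h1
    have := congrFun h1 k
    simp [eb] at this
  obtain ⟨j, hj⟩ : ∃ j, v j ≠ 0 := by
    by_contra hc
    push Not at hc
    exact hv0 (funext hc)
  refine ⟨j, ?_⟩
  have h2 := Lg_dot S hI (eb j) v
  rw [h1, dotProduct_single_one, single_one_dotProduct] at h2
  rw [h2]
  exact hj

variable {p₀ : ℕ} [Fact p₀.Prime] [CharP F p₀] (hcard : Fintype.card F = p₀) (hp2 : p₀ ≠ 2)
  (hnz : ¬ HasZ (Cl S M i₀)) (h14 : 14 ≤ t)
include hcard hp2 hnz h14

/-- Shapes of vectors in the class. -/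
lemma cl_shape {a : Fin t → F} (ha : a ∈ Cl S M i₀) : (∃ r, a r ^ 2 = 1 ∧ ∀ x, x ≠ r → a x = 0) ∨
    (∃ r s, r ≠ s ∧ 2 * a r ^ 2 = 1 ∧ 2 * a s ^ 2 = 1 ∧ ∀ x, x ≠ r → x ≠ s → a x = 0) := by
  classical
  have hΛ := cl_cs S C i₀
  have hh9 : 9 ≤ Fintype.card (Fin t) := by
    rw [Fintype.card_fin]
    omega
  obtain ⟨r, hr⟩ : ∃ r, a r ≠ 0 := by
    by_contra hc
    push Not at hc
    have : a = 0 := funext hc
    have h1 := ha.1
    rw [this] at h1
    simp at h1
  by_cases hs : ∃ s, s ≠ r ∧ a s ≠ 0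
  · obtain ⟨s, hsr, hs0⟩ := hs
    right
    by_cases hp3 : p₀ = 3
    · exact absurd (p3_two (hcard.trans hp3) hΛ ha (Ne.symm hsr) hr hs0) hnz
    have v0 : ∀ u, u ≠ r → u ≠ s → a u = 0 := by
      intro u h1 h3
      by_contra h0
      exact hnz (three_coord hcard hp2 hp3 hΛ hh9 ha (Ne.symm hsr) h1.symm h3.symm hr hs0 h0)
    obtain ⟨t1, t2⟩ := two_support hcard hp2 hp3 hΛ (by omega) ha (Ne.symm hsr) hr hs0 v0 hnz
    exact ⟨r, s, Ne.symm hsr, t1, t2, v0⟩
  · push Not at hs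
    left
    refine ⟨r, ?_, hs⟩
    have h1 := ha.1
    rw [dot_self_eq, Finset.sum_eq_single r] at h1
    · exact h1
    · intro b _ hb
      rw [hs b hb]
      ring
    · simp

/-- **Elements mapping the class to itself lie in the stabiliser.** -/
theorem s3 {h : GL ι F} (hM : h ∈ M) {a : Fin t → F} (ha : a ∈ Cl S M i₀) (hh : Lg S h a ∈ Cl S M i₀) :
    h ∈ decompositionStabilizer D := by
  classical
  have hI := C.miso hM
  have hcols : ∀ j, Lg S h (eb j) ∈ Cl S M i₀ := fun j => cl_move S C hM ha hh (sg_mem S C j)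
  refine stab_of_col S C.fin hI ?_
  intro j
  rcases cl_shape S C hcard hp2 hnz h14 (hcols j) with ⟨r, h1, h2⟩ | ⟨r, s, hrs, h1, h2, h3⟩
  · refine ⟨r, Lg S h (eb j) r, ?_⟩
    ext x
    by_cases hx : x = r
    · subst hx
      simp [eb]
    · simp [eb, h2 x hx, Pi.single_eq_of_ne hx]
  exfalso
  set x₀ := Lg S h (eb j) with hx₀
  have hrs0 : x₀ r ≠ 0 := by
    intro h0
    rw [h0] at h1
    simp at h1
  have hss0 : x₀ s ≠ 0 := by
    intro h0
    rw [h0] at h2
    simp at h2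
  set ω := 2 * x₀ r with hω
  have hω2 : ω ^ 2 = 2 := by
    rw [hω]
    linear_combination (2 : F) * h1
  have hω0 : ω ≠ 0 := mul_ne_zero S.two hrs0
  have key : ∀ j', j' ≠ j → ∀ u, u ≠ r → u ≠ s → Lg S h (eb j') u = 0 := by
    intro j' hj' u hur hus
    by_contra hne
    set x' := Lg S h (eb j') with hx'
    have hz : ω⁻¹ • (eb j + (1 : F) • eb j') ∈ Cl S M i₀ :=
      case2_mem S C hω2 (ρ := eb j + (1 : F) • eb j') ⟨j, j', Ne.symm hj', 1, 1, by norm_num, by norm_num, by simp⟩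
    have hy := cl_move S C hM (sg_mem S C j) (hcols j) hz
    have hval : Lg S h (ω⁻¹ • (eb j + (1 : F) • eb j')) = ω⁻¹ • (x₀ + x') := by
      rw [map_smul, map_add, map_smul, one_smul]
    rw [hval] at hy
    have hdot : x₀ ⬝ᵥ x' = 0 := by
      rw [hx₀, hx', Lg_dot S hI]
      exact single_dot_single (Ne.symm hj')
    have hωi : ω⁻¹ ≠ 0 := inv_ne_zero hω0
    have hyu : (ω⁻¹ • (x₀ + x')) u ≠ 0 := by
      simp only [Pi.smul_apply, Pi.add_apply, smul_eq_mul, h3 u hur hus, zero_add]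
      exact mul_ne_zero hωi hne
    -- one of the coordinates `r`, `s` of the sum vanishes
    have hvan : (x₀ + x') r = 0 ∨ (x₀ + x') s = 0 := by
      by_contra hc
      push Not at hc
      obtain ⟨hc1, hc2⟩ := hc
      have hyr : (ω⁻¹ • (x₀ + x')) r ≠ 0 := by
        simp only [Pi.smul_apply, smul_eq_mul]
        exact mul_ne_zero hωi hc1
      have hys : (ω⁻¹ • (x₀ + x')) s ≠ 0 := by
        simp only [Pi.smul_apply, smul_eq_mul]
        exact mul_ne_zero hωi hc2
      rcases cl_shape S C hcard hp2 hnz h14 hy with ⟨r', _, h5⟩ | ⟨r', s', _, _, _, h5⟩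
      · by_cases h6 : r = r'
        · by_cases h7 : s = r'
          · exact hrs (h6.trans h7.symm)
          · exact hys (h5 s h7)
        · exact hyr (h5 r h6)
      · by_cases h6 : r = r'
        · by_cases h7 : s = s'
          · exact hyu (h5 u (by rw [← h6]; exact hur) (by rw [← h7]; exact hus))
          · by_cases h8 : s = r'
            · exact hrs (h6.trans h8.symm)
            · exact hys (h5 s h8 h7)
        · by_cases h9 : r = s'
          · by_cases h7 : s = r'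
            · exact hyu (h5 u (by rw [← h7]; exact hus) (by rw [← h9]; exact hur))
            · by_cases h8 : s = s'
              · exact hrs (h9.trans h8.symm)
              · exact hys (h5 s h7 h8)
          · exact hyr (h5 r h6 h9)
    -- the two-coordinate shape of `x'`
    have hshape : ∀ w, w ≠ u → x' w ≠ 0 → ∀ z, z ≠ u → z ≠ w → x' z = 0 := by
      intro w hwu hw z hzu hzw
      rcases cl_shape S C hcard hp2 hnz h14 (hcols j') with ⟨r', _, h5⟩ | ⟨r', s', _, _, _, h5⟩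
      · exfalso
        by_cases h6 : u = r'
        · exact hw (h5 w (by rw [← h6]; exact hwu))
        · exact hne (h5 u h6)
      · by_contra hz0
        by_cases h6 : u = r'
        · by_cases h7 : w = s'
          · exact hz0 (h5 z (by rw [← h6]; exact hzu) (by rw [← h7]; exact hzw))
          · exact hw (h5 w (by rw [← h6]; exact hwu) h7)
        · by_cases h7 : u = s'
          · by_cases h8 : w = r'
            · exact hz0 (h5 z (by rw [← h8]; exact hzw) (by rw [← h7]; exact hzu))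
            · exact hw (h5 w h8 (by rw [← h7]; exact hwu))
          · exact hne (h5 u h6 h7)
    have hd2 := dot_two hrs (x := x₀) (fun v h5 h6 => h3 v h5 h6) x'
    rw [hdot] at hd2
    rcases hvan with hv | hv
    · have e1 : x' r = - x₀ r := by
        simp only [Pi.add_apply] at hv
        linear_combination hv
      have e2 : x' s = 0 := hshape r (Ne.symm hur) (by rw [e1]; exact neg_ne_zero.2 hrs0) s (Ne.symm hus) (Ne.symm hrs)
      rw [e1, e2] at hd2
      have : 2 * x₀ r ^ 2 = 0 := by linear_combination 2 * hd2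
      rw [h1] at this
      exact one_ne_zero this
    · have e1 : x' s = - x₀ s := by
        simp only [Pi.add_apply] at hv
        linear_combination hv
      have e2 : x' r = 0 := hshape s (Ne.symm hus) (by rw [e1]; exact neg_ne_zero.2 hss0) r (Ne.symm hur) hrs
      rw [e1, e2] at hd2
      have : 2 * x₀ s ^ 2 = 0 := by linear_combination 2 * hd2
      rw [h2] at this
      exact one_ne_zero this
  obtain ⟨u, hu⟩ := exists_outside ({r, s} : Finset (Fin t)) (by
    have := Finset.card_le_two (a := r) (b := s)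
    rw [Fintype.card_fin]
    omega)
  simp only [Finset.mem_insert, Finset.mem_singleton, not_or] at hu
  obtain ⟨j', hj'⟩ := row_ne S C hI u
  by_cases hjj : j' = j
  · rw [hjj] at hj'
    exact hj' (h3 u hu.1 hu.2)
  · exact hj' (key j' hjj u hu.1 hu.2)

/-- Elements of `M` fixing a column permute the columns. -/
lemma fix_col {h w : GL ι F} (hM : h ∈ M) (hw : w ∈ M) {i : Fin t} (hfix : Lg S w (Lg S h (eb i)) = Lg S h (eb i))
    (l : Fin t) : ∃ l', ∃ α : F, α ^ 2 = 1 ∧ Lg S w (Lg S h (eb l)) = α • Lg S h (eb l') := by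
  have hv : h⁻¹ * w * h ∈ M := M.mul_mem (M.mul_mem (M.inv_mem hM) hw) hM
  have hI := C.miso hv
  have h1 : Lg S (h⁻¹ * w * h) (eb i) = eb i := by
    rw [Lg_mul, Lg_mul, hfix, Lg_inv_self]
  have hst := s3 S C hcard hp2 hnz h14 hv (sg_mem S C i) (by rw [h1]; exact sg_mem S C i)
  obtain ⟨l', α, h2⟩ := stab_col S hst l
  refine ⟨l', α, ?_, ?_⟩
  · have h3 := Lg_dot S hI (eb l) (eb l)
    rw [h2, single_dot_self] at h3
    simp only [smul_dotProduct, dotProduct_smul, smul_eq_mul] at h3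
    rw [show (eb l' : Fin t → F) ⬝ᵥ eb l' = 1 from single_dot_self] at h3
    linear_combination h3
  · have h3 : Lg S (h⁻¹ * w * h) (eb l) = Lg S h⁻¹ (Lg S w (Lg S h (eb l))) := by
      rw [Lg_mul, Lg_mul]
    rw [h3] at h2
    have h4 := congrArg (Lg S h) h2
    rw [Lg_self_inv, map_smul] at h4
    exact h4

/-- The dichotomy for a column. -/
lemma fix_dot {h w : GL ι F} (hM : h ∈ M) (hw : w ∈ M) {i : Fin t} (hfix : Lg S w (Lg S h (eb i)) = Lg S h (eb i))
    (l : Fin t) : Lg S h (eb l) ⬝ᵥ Lg S w (Lg S h (eb l)) = 0 ∨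
      ∃ α : F, α ^ 2 = 1 ∧ Lg S w (Lg S h (eb l)) = α • Lg S h (eb l) := by
  obtain ⟨l', α, h1, h2⟩ := fix_col S C hcard hp2 hnz h14 hM hw hfix l
  by_cases hl : l' = l
  · right
    rw [hl] at h2
    exact ⟨α, h1, h2⟩
  · left
    rw [h2, dotProduct_smul, Lg_dot S (C.miso hM), single_dot_single (Ne.symm hl), smul_zero]

/-- **Many zero coordinates of a column force the stabiliser.** -/
theorem e_lemma {h : GL ι F} (hM : h ∈ M) {i : Fin t} {Y : Finset (Fin t)} (hY : 5 ≤ Y.card)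
    (hz : ∀ k ∈ Y, Lg S h (eb i) k = 0) : h ∈ decompositionStabilizer D := by
  have hI := C.miso hM
  set a := Lg S h (eb i) with ha
  -- the flips fixing `a`
  have flpa : ∀ {A : Finset (Fin t)}, A ⊆ Y → flp A a = a := fun hA => flp_fix (fun x hx => hz x (hA hx))
  obtain ⟨k, hk⟩ : Y.Nonempty := Finset.card_pos.1 (by omega)
  obtain ⟨l, hl⟩ := row_ne S C hI k
  set f := Lg S h (eb l) with hf
  have hff : f ⬝ᵥ f = 1 := by rw [hf, Lg_dot S hI]; exact single_dot_self
  have fsum : ∀ {k m : Fin t}, k ≠ m → f ⬝ᵥ flp {k, m} f = 1 - 2 * (f k ^ 2 + f m ^ 2) := by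
    intro k m hkm
    rw [dot_flp, hff, Finset.sum_pair hkm]
  have claim1 : ∀ k' ∈ Y, f k' ≠ 0 → ∀ m ∈ Y, m ≠ k' → 2 * (f k' ^ 2 + f m ^ 2) = 1 ∨ ∀ x, x ≠ k' → x ≠ m → f x = 0 := by
    intro k' hk' hk0 m hm hmk
    have hw := frame_mem S C k' m
    have hfix : Lg S (rr S (eb k') * rr S (eb m)) (Lg S h (eb i)) = Lg S h (eb i) := by
      rw [Lg_e2 S (Ne.symm hmk), ← ha]
      apply flpa
      intro x hx
      simp only [Finset.mem_insert, Finset.mem_singleton] at hx
      rcases hx with rfl | rfl <;> assumption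
    rcases fix_dot S C hcard hp2 hnz h14 hM hw hfix l with h1 | ⟨α, hα, h1⟩
    · left
      rw [Lg_e2 S (Ne.symm hmk), ← hf, fsum (Ne.symm hmk)] at h1
      linear_combination -h1
    · right
      rw [Lg_e2 S (Ne.symm hmk), ← hf] at h1
      intro x hx1 hx2
      have e1 := congrFun h1 k'
      simp only [flp, Finset.mem_insert, Finset.mem_singleton, true_or, if_true, Pi.smul_apply, smul_eq_mul] at e1
      have eα : α = -1 := by
        apply mul_right_cancel₀ hk0
        linear_combination -e1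
      have e2 := congrFun h1 x
      simp only [flp, Finset.mem_insert, Finset.mem_singleton, hx1, hx2, or_self, if_false, Pi.smul_apply, smul_eq_mul, eα] at e2
      have : 2 * f x = 0 := by linear_combination e2
      exact (mul_eq_zero.1 this).resolve_left S.two
  -- a column in the class finishes the proof
  have finish : f ∈ Cl S M i₀ → h ∈ decompositionStabilizer D := fun hc =>
    s3 S C hcard hp2 hnz h14 hM (sg_mem S C l) hc
  have hfk : f k ≠ 0 := hl
  by_cases hA : ∃ m ∈ Y, m ≠ k ∧ ∀ x, x ≠ k → x ≠ m → f x = 0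
  · obtain ⟨m, hm, hmk, hsupp⟩ := hA
    apply finish
    obtain ⟨m', hm', hm'1⟩ : ∃ m' ∈ Y, m' ≠ k ∧ m' ≠ m := by
      obtain ⟨m', hm'⟩ : ((Y.erase k).erase m).Nonempty := by
        apply Finset.card_pos.1
        rw [Finset.card_erase_of_mem (Finset.mem_erase.2 ⟨hmk, hm⟩), Finset.card_erase_of_mem hk]
        omega
      simp only [Finset.mem_erase] at hm'
      exact ⟨m', hm'.2.2, hm'.2.1, hm'.1⟩
    have hnorm : f k ^ 2 + f m ^ 2 = 1 := by
      rw [← hff, dot_self_eq]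
      symm
      apply Finset.sum_eq_add k m (Ne.symm hmk)
      · intro c _ hc
        rw [hsupp c hc.1 hc.2]
        ring
      · simp
      · simp
    rcases claim1 k hk hfk m' hm' hm'1.1 with h1 | h1
    · have h2 : f m' = 0 := hsupp m' hm'1.1 hm'1.2
      rw [h2] at h1
      have h3 : 2 * f k ^ 2 = 1 := by linear_combination h1
      set ω := 2 * f k with hω
      have hω2 : ω ^ 2 = 2 := by
        rw [hω]
        linear_combination (2 : F) * h3
      have hω0 : ω ≠ 0 := mul_ne_zero S.two hfk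
      have hβ : (f m / f k) ^ 2 = 1 := by
        rw [div_pow]
        have h4 : f m ^ 2 = f k ^ 2 := by
          apply mul_left_cancel₀ S.two
          linear_combination 2 * hnorm - 2 * h3
        rw [h4, div_self (pow_ne_zero 2 hfk)]
      have hz' := case2_mem S C (i₀ := i₀) hω2 (ρ := eb k + (f m / f k) • eb m)
        ⟨k, m, Ne.symm hmk, 1, _, by norm_num, hβ, by simp⟩
      convert hz' using 1
      have hinv : ω⁻¹ = f k := by
        rw [inv_eq_iff_eq_inv, eq_comm]
        apply inv_eq_of_mul_eq_one_right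
        rw [hω]
        linear_combination h3
      rw [hinv]
      ext x
      simp only [Pi.smul_apply, Pi.add_apply, smul_eq_mul, eb]
      by_cases hx : x = k
      · subst hx
        simp [Pi.single_eq_of_ne (Ne.symm hmk)]
      by_cases hx2 : x = m
      · subst hx2
        simp [Pi.single_eq_of_ne hx]
        field_simp
      · simp [Pi.single_eq_of_ne hx, Pi.single_eq_of_ne hx2, hsupp x hx hx2]
    · have h2 : f m = 0 := h1 m (Ne.symm hmk ∘ Eq.symm |> fun _ => hmk) (Ne.symm hm'1.2)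
      have h3 : f k ^ 2 = 1 := by
        rw [h2] at hnorm
        linear_combination hnorm
      have h4 := smul_sg_mem S C (i₀ := i₀) h3 k
      convert h4 using 1
      ext x
      simp only [Pi.smul_apply, smul_eq_mul, eb]
      by_cases hx : x = k
      · subst hx
        simp
      by_cases hx2 : x = m
      · subst hx2
        simp [Pi.single_eq_of_ne hx, h2]
      · simp [Pi.single_eq_of_ne hx, hsupp x hx hx2]
  exfalso
  push Not at hA
  -- the case of no small support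
  have hB : ∀ m ∈ Y, m ≠ k → 2 * (f k ^ 2 + f m ^ 2) = 1 := by
    intro m hm hmk
    rcases claim1 k hk hfk m hm hmk with h1 | h1
    · exact h1
    · obtain ⟨x, hx1, hx2, hx3⟩ := hA m hm hmk
      exact absurd (h1 x hx1 hx2) hx3
  -- four more coordinates
  obtain ⟨m₁, hm₁, m₂, hm₂, m₃, hm₃, m₄, hm₄, hd⟩ : ∃ m₁ ∈ Y, ∃ m₂ ∈ Y, ∃ m₃ ∈ Y, ∃ m₄ ∈ Y,
      m₁ ≠ k ∧ m₂ ≠ k ∧ m₃ ≠ k ∧ m₄ ≠ k ∧ m₁ ≠ m₂ ∧ m₁ ≠ m₃ ∧ m₁ ≠ m₄ ∧ m₂ ≠ m₃ ∧ m₂ ≠ m₄ ∧ m₃ ≠ m₄ := by
    have c1 : 2 < (Y.erase k).card := by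
      rw [Finset.card_erase_of_mem hk]
      omega
    obtain ⟨m₁, h1, m₂, h2, m₃, h3, h12, h13, h23⟩ := Finset.two_lt_card.1 c1
    have c2 : 0 < (((((Y.erase k).erase m₁).erase m₂)).erase m₃).card := by
      have e1 := Finset.pred_card_le_card_erase (s := ((Y.erase k).erase m₁).erase m₂) (a := m₃)
      have e2 := Finset.pred_card_le_card_erase (s := (Y.erase k).erase m₁) (a := m₂)
      have e3 := Finset.pred_card_le_card_erase (s := (Y.erase k)) (a := m₁)
      rw [Finset.card_erase_of_mem hk] at e3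
      omega
    obtain ⟨m₄, h4⟩ := Finset.card_pos.1 c2
    simp only [Finset.mem_erase] at h1 h2 h3 h4
    exact ⟨m₁, h1.2, m₂, h2.2, m₃, h3.2, m₄, h4.2.2.2.2, h1.1, h2.1, h3.1, h4.2.2.2.1, h12, h13, Ne.symm h4.2.2.1,
      h23, Ne.symm h4.2.1, Ne.symm h4.1⟩
  obtain ⟨d1, d2, d3, d4, d12, d13, d14, d23, d24, d34⟩ := hd
  have e1 := hB m₁ hm₁ d1
  have e2 := hB m₂ hm₂ d2
  have e3 := hB m₃ hm₃ d3
  have e4 := hB m₄ hm₄ d4
  have h2F := S.two
  have sq12 : f m₂ ^ 2 = f m₁ ^ 2 := by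
    apply mul_left_cancel₀ h2F
    linear_combination e2 - e1
  have sq13 : f m₃ ^ 2 = f m₁ ^ 2 := by
    apply mul_left_cancel₀ h2F
    linear_combination e3 - e1
  have sq14 : f m₄ ^ 2 = f m₁ ^ 2 := by
    apply mul_left_cancel₀ h2F
    linear_combination e4 - e1
  by_cases hm0 : f m₁ = 0
  · -- the coordinate `k` has square `1/2`
    have hm20 : f m₂ = 0 := by
      have : f m₂ ^ 2 = 0 := by rw [sq12, hm0]; ring
      exact pow_eq_zero_iff (two_ne_zero) |>.1 this
    have h3 : 2 * f k ^ 2 = 1 := by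
      rw [hm0] at e1
      linear_combination e1
    set ω := 2 * f k with hω
    have hω2 : ω ^ 2 = 2 := by
      rw [hω]
      linear_combination (2 : F) * h3
    have hω0 : ω ≠ 0 := mul_ne_zero S.two hfk
    have hinv : ω⁻¹ = f k := by
      rw [inv_eq_iff_eq_inv, eq_comm]
      apply inv_eq_of_mul_eq_one_right
      rw [hω]
      linear_combination h3
    have hz' := case2_mem S C (i₀ := i₀) hω2 (ρ := eb k + (-1 : F) • eb m₁)
      ⟨k, m₁, Ne.symm d1, 1, -1, by norm_num, by norm_num, by simp⟩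
    set z := ω⁻¹ • (eb k + (-1 : F) • eb m₁ : Fin t → F) with hzdef
    have hw : rr S z * rr S (eb m₂) ∈ M := by
      have hh1 := cl_rel S C (sg_mem S C m₂) hz'
      exact hh1
    have zv : ∀ v : Fin t → F, z ⬝ᵥ v = f k * (v k - v m₁) := by
      intro v
      rw [hzdef, smul_dotProduct, root_dot, hinv, smul_eq_mul]
      ring
    have hfix : Lg S (rr S z * rr S (eb m₂)) (Lg S h (eb i)) = Lg S h (eb i) := by
      rw [Lg_mul, Lg_rr_sg', Lg_rr1 S hz'.1, ← ha, flp_fix, R, zv, hz k hk, hz m₁ hm₁]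
      · simp
      · intro x hx
        rw [Finset.mem_singleton] at hx
        rw [hx]
        exact hz m₂ hm₂
    have hval : Lg S (rr S z * rr S (eb m₂)) f = f - z := by
      rw [Lg_mul, Lg_rr_sg', Lg_rr1 S hz'.1, flp_fix, R, zv, hm0, sub_zero]
      · have : 2 * (f k * f k) = 1 := by linear_combination h3
        rw [this, one_smul]
      · intro x hx
        rw [Finset.mem_singleton] at hx
        rw [hx]
        exact hm20
    rcases fix_dot S C hcard hp2 hnz h14 hM hw hfix l with h1 | ⟨α, hα, h1⟩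
    · rw [← hf, hval, dotProduct_sub, hff, dotProduct_comm, zv, hm0, sub_zero] at h1
      have : (1 : F) = 0 := by linear_combination 2 * h1 + h3
      exact one_ne_zero this
    · rw [← hf, hval] at h1
      have e5 := congrFun h1 m₁
      simp only [Pi.sub_apply, Pi.smul_apply, smul_eq_mul, hm0, mul_zero, zero_sub, hzdef, Pi.add_apply, hinv, eb,
        Pi.single_eq_same, Pi.single_eq_of_ne d1, zero_add, mul_neg, mul_one, neg_neg] at e5
      exact hfk e5
  · -- all coordinates have square `1/4`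
    have e6 : 2 * (f m₁ ^ 2 + f m₂ ^ 2) = 1 := by
      rcases claim1 m₁ hm₁ hm0 m₂ hm₂ (Ne.symm d12) with h1 | h1
      · exact h1
      · exact absurd (h1 k (Ne.symm d1) (Ne.symm d2)) hfk
    have q1 : 4 * f m₁ ^ 2 = 1 := by
      rw [sq12] at e6
      linear_combination e6
    have qk : 4 * f k ^ 2 = 1 := by
      linear_combination 2 * e1 - q1
    have hw : rr S (eb k) * rr S (eb m₁) * (rr S (eb m₂) * rr S (eb m₃)) ∈ M :=
      M.mul_mem (frame_mem S C k m₁) (frame_mem S C m₂ m₃)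
    have hne1 : k ≠ m₁ := Ne.symm d1
    have hne2 : k ≠ m₂ := Ne.symm d2
    have hne3 : k ≠ m₃ := Ne.symm d3
    have hfix : Lg S (rr S (eb k) * rr S (eb m₁) * (rr S (eb m₂) * rr S (eb m₃))) (Lg S h (eb i)) = Lg S h (eb i) := by
      rw [Lg_e4 S hne1 d23 hne2 hne3 d12 d13, ← ha]
      apply flpa
      intro x hx
      simp only [Finset.mem_union, Finset.mem_insert, Finset.mem_singleton] at hx
      rcases hx with (rfl | rfl) | (rfl | rfl) <;> assumption
    have hs : f ⬝ᵥ flp ({k, m₁} ∪ {m₂, m₃}) f = -1 := by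
      rw [dot_flp, hff, Finset.sum_union (by simp [hne2, hne3, d12, d13, Ne.symm hne2, Ne.symm hne3, Ne.symm d12, Ne.symm d13]),
        Finset.sum_pair hne1, Finset.sum_pair d23, sq12, sq13]
      linear_combination -e1 - q1
    rcases fix_dot S C hcard hp2 hnz h14 hM hw hfix l with h1 | ⟨α, hα, h1⟩
    · rw [Lg_e4 S hne1 d23 hne2 hne3 d12 d13, ← hf, hs] at h1
      have : (1 : F) = 0 := by linear_combination -h1
      exact one_ne_zero this
    · rw [Lg_e4 S hne1 d23 hne2 hne3 d12 d13, ← hf] at h1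
      have e7 := congrFun h1 k
      simp only [flp, Finset.mem_union, Finset.mem_insert, Finset.mem_singleton, true_or, or_true, if_true,
        Pi.smul_apply, smul_eq_mul] at e7
      have eα : α = -1 := by
        apply mul_right_cancel₀ hfk
        linear_combination -e7
      have e8 := congrFun h1 m₄
      have h4 : m₄ ≠ k := d4
      simp only [flp, Finset.mem_union, Finset.mem_insert, Finset.mem_singleton, h4, Ne.symm d14, Ne.symm d24, Ne.symm d34,
        or_self, if_false, Pi.smul_apply, smul_eq_mul, eα] at e8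
      have h5 : 2 * f m₄ = 0 := by linear_combination e8
      have h6 := (mul_eq_zero.1 h5).resolve_left S.two
      have h7 : f m₁ ^ 2 = 0 := by rw [← sq14, h6]; ring
      exact hm0 (pow_eq_zero_iff (two_ne_zero) |>.1 h7)

/-- **Rank two elements in the stabiliser.** -/
theorem p_lemma {h : GL ι F} (hM : h ∈ M) {i j : Fin t} (hij : i ≠ j)
    (hu : rr S (Lg S h (eb i)) * rr S (Lg S h (eb j)) ∈ decompositionStabilizer D) :
    h ∈ decompositionStabilizer D := by
  classical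
  have hI := C.miso hM
  set a := Lg S h (eb i) with ha
  set b := Lg S h (eb j) with hb
  have haa : a ⬝ᵥ a = 1 := by rw [ha, Lg_dot S hI]; exact single_dot_self
  have hbb : b ⬝ᵥ b = 1 := by rw [hb, Lg_dot S hI]; exact single_dot_self
  have hab : a ⬝ᵥ b = 0 := by rw [ha, hb, Lg_dot S hI]; exact single_dot_single hij
  have hba : b ⬝ᵥ a = 0 := by rw [dotProduct_comm, hab]
  have hval : ∀ x, Lg S (rr S a * rr S b) x = x - (2 * (b ⬝ᵥ x)) • b - (2 * (a ⬝ᵥ x)) • a := by
    intro x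
    rw [Lg_mul, Lg_rr1 S haa, Lg_rr1 S hbb, R, R]
    have e1 : a ⬝ᵥ (x - (2 * (b ⬝ᵥ x)) • b) = a ⬝ᵥ x := by
      rw [dotProduct_sub, dotProduct_smul, hab, smul_zero, sub_zero]
    rw [e1]
  have hcoord : ∀ k l : Fin t, Lg S (rr S a * rr S b) (eb k) l = (eb k : Fin t → F) l - 2 * (b k * b l) - 2 * (a k * a l) := by
    intro k l
    rw [hval]
    simp only [Pi.sub_apply, Pi.smul_apply, smul_eq_mul, dotProduct_single_one]
    ring
  choose τ α hτ using fun k => stab_col S hu k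
  set K := Finset.univ.filter (fun k => a k ≠ 0) with hK
  have hiso : ∀ k ∈ K, a k ^ 2 + b k ^ 2 ≠ 0 := by
    intro k hk h0
    have hk0 : a k ≠ 0 := (Finset.mem_filter.1 hk).2
    have h1 := hcoord k k
    rw [hτ k] at h1
    simp only [Pi.smul_apply, smul_eq_mul, eb, Pi.single_eq_same] at h1
    have h2 : α k * (Pi.single (τ k) 1 : Fin t → F) k = 1 := by
      rw [h1]
      linear_combination -2 * h0
    have h3 : τ k = k := by
      by_contra hne
      rw [Pi.single_eq_of_ne (Ne.symm hne), mul_zero] at h2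
      exact zero_ne_one h2
    rw [h3, Pi.single_eq_same, mul_one] at h2
    have h4 := hval (eb k)
    rw [hτ k, h3, h2, one_smul] at h4
    have h5 := congrArg (fun v => a ⬝ᵥ v) h4
    simp only [dotProduct_sub, dotProduct_smul, hab, haa, smul_eq_mul, dotProduct_single_one] at h5
    have : 2 * a k = 0 := by linear_combination h5
    exact hk0 ((mul_eq_zero.1 this).resolve_left S.two)
  have horth : ∀ k l : Fin t, l ≠ k → l ≠ τ k → a k * a l + b k * b l = 0 := by
    intro k l h1 h2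
    have h3 := hcoord k l
    rw [hτ k] at h3
    simp only [Pi.smul_apply, smul_eq_mul, eb, Pi.single_eq_of_ne h1, Pi.single_eq_of_ne h2, mul_zero] at h3
    have : 2 * (a k * a l + b k * b l) = 0 := by linear_combination h3
    exact (mul_eq_zero.1 this).resolve_left S.two
  by_cases hKc : K.card ≤ 4
  · refine e_lemma S C hcard hp2 hnz h14 hM (i := i) (Y := Kᶜ) ?_ ?_
    · rw [Finset.card_compl, Fintype.card_fin]
      omega
    · intro k hk
      rw [Finset.mem_compl] at hk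
      by_contra h0
      exact hk (Finset.mem_filter.2 ⟨Finset.mem_univ _, h0⟩)
  exfalso
  push Not at hKc
  obtain ⟨k₁, hk₁⟩ : K.Nonempty := Finset.card_pos.1 (by omega)
  set K₁ := (K.erase k₁).erase (τ k₁) with hK₁
  have cK₁ : 3 ≤ K₁.card := by
    have h1 : (K.erase k₁).card - 1 ≤ K₁.card := Finset.pred_card_le_card_erase
    have h2 := Finset.card_erase_of_mem hk₁
    omega
  obtain ⟨k₂, hk₂⟩ : K₁.Nonempty := Finset.card_pos.1 (by omega)
  set K₂ := (K₁.erase k₂).erase (τ k₂) with hK₂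
  have cK₂ : 1 ≤ K₂.card := by
    have h1 : (K₁.erase k₂).card - 1 ≤ K₂.card := Finset.pred_card_le_card_erase
    have h2 := Finset.card_erase_of_mem hk₂
    omega
  obtain ⟨k₃, hk₃⟩ : K₂.Nonempty := Finset.card_pos.1 (by omega)
  have m2 : ∀ l ∈ K₁, l ≠ k₁ ∧ l ≠ τ k₁ ∧ l ∈ K := by
    intro l hl
    simp only [hK₁, Finset.mem_erase] at hl
    exact ⟨hl.2.1, hl.1, hl.2.2⟩
  have m3 : ∀ l ∈ K₂, l ≠ k₂ ∧ l ≠ τ k₂ ∧ l ∈ K₁ := by
    intro l hl
    simp only [hK₂, Finset.mem_erase] at hl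
    exact ⟨hl.2.1, hl.1, hl.2.2⟩
  have a2 := m2 _ hk₂
  have a3 := m3 _ hk₃
  have a3' := m2 _ a3.2.2
  exact no_three (hiso k₁ hk₁) (hiso k₂ a2.2.2) (hiso k₃ a3'.2.2) (horth k₁ k₂ a2.1 a2.2.1)
    (horth k₁ k₃ a3'.1 a3'.2.1) (horth k₂ k₃ a3.1 a3.2.1)

end Main

end Cfsg.Agent.Lib.OmFrame.EvenB
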