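/-
Frames in `Ω_n(p)`, `n` even: the stabiliser of a frame is maximal.
-/
import Cfsg.Agent.Lib.OmFrame.EvenB

set_option autoImplicit false
set_option linter.unusedSectionVars false
set_option linter.style.haveILetI false
set_option linter.unusedVariables false

namespace Cfsg.Agent.Lib.OmFrame.EvenC

open Cfsg Cfsg.Geo Cfsg.Agent.Lib.Geo.Basic Cfsg.Agent.Lib.Geo.Parabolic Cfsg.Agent.Lib.Geo.Centres
open Cfsg.Agent.Lib.Geo.Polar Cfsg.Agent.Lib.Geo.QForm
open Cfsg.Agent.Lib.GeoOmega.Basic Cfsg.Agent.Lib.GeoOmega.Eichler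
open Cfsg.Agent.Lib.GeoOmega.Levi (rf rf_mulVec rf_mem rf_mul_mem_omega rf_inv rf_conj prod_rf_mem_omega)
open Cfsg.Agent.Lib.Geo.OmDec
open Cfsg.Agent.Lib.Geo.OmB
open Cfsg.Agent.Lib.OmFrame.Dick Cfsg.Agent.Lib.OmFrame.Vec Cfsg.Agent.Lib.OmFrame.VecMain
open Cfsg.Agent.Lib.OmFrame.VecB Cfsg.Agent.Lib.OmFrame.Group Cfsg.Agent.Lib.OmFrame.Final
open Cfsg.Agent.Lib.OmFrame.EvenV2 Cfsg.Agent.Lib.OmFrame.EvenA Cfsg.Agent.Lib.OmFrame.EvenB
open scoped MatrixGroups Matrix

variable {ι : Type} [Fintype ι] [DecidableEq ι] {F : Type*} [Field F] [Fintype F]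
variable {Q : (ι → F) → F} {t : ℕ} {D : Fin t → Submodule F (ι → F)} {e : Fin t → ι → F} {c : F}
variable {M : Subgroup (GL ι F)}

omit [Fintype ι] [DecidableEq ι] in
lemma root_norm {ρ : Fin t → F} (hρ : IsRoot ρ) : ρ ⬝ᵥ ρ = 2 := by
  obtain ⟨a, b, hab, α, β, hα, hβ, rfl⟩ := hρ
  simp only [add_dotProduct, dotProduct_add, smul_dotProduct, dotProduct_smul, smul_eq_mul, single_dot_self,
    single_dot_single hab, single_dot_single hab.symm]
  linear_combination hα + hβ

omit [Fintype ι] [DecidableEq ι] [Fintype F] in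
/-- A root with a non-zero coordinate. -/
lemma root_at {x : Fin t → F} (hx : IsRoot x) {u : Fin t} (hu : x u ≠ 0) :
    ∃ v, v ≠ u ∧ ∃ α β : F, α ^ 2 = 1 ∧ β ^ 2 = 1 ∧ x = α • eb u + β • eb v := by
  obtain ⟨a, b, hab, α, β, hα, hβ, rfl⟩ := hx
  by_cases h1 : u = a
  · subst h1
    exact ⟨b, Ne.symm hab, α, β, hα, hβ, rfl⟩
  · by_cases h2 : u = b
    · subst h2
      exact ⟨a, hab, β, α, hβ, hα, add_comm _ _⟩
    · exfalso
      apply hu
      simp [Pi.single_eq_of_ne h1, Pi.single_eq_of_ne h2]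

section Roots

variable (S : Fr Q D e c) (C : CtxB Q D M 1)
include S C

/-- Elements permuting the roots preserve the frame. -/
lemma stab_of_roots {s : GL ι F} (hI : s ∈ isometryGroup F Q) (h5 : 5 ≤ t)
    (hr : ∀ ρ, IsRoot ρ → IsRoot (Lg S s ρ)) : s ∈ decompositionStabilizer D := by
  have h2F := S.two
  refine stab_of_col S C.fin hI ?_
  intro i
  set a := Lg S s (eb i) with ha
  have hp : ∀ j, j ≠ i → IsRoot (a + Lg S s (eb j)) := by
    intro j hj
    have := hr (eb i + (1 : F) • eb j) ⟨i, j, Ne.symm hj, 1, 1, by norm_num, by norm_num, by simp⟩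
    rwa [map_add, map_smul, one_smul] at this
  have hm : ∀ j, j ≠ i → IsRoot (a - Lg S s (eb j)) := by
    intro j hj
    have := hr (eb i + (-1 : F) • eb j) ⟨i, j, Ne.symm hj, 1, -1, by norm_num, by norm_num, by simp⟩
    rwa [map_add, map_smul, neg_smul, one_smul, ← sub_eq_add_neg] at this
  -- a vanishing coordinate
  obtain ⟨j₀, hj₀⟩ := exists_outside ({i} : Finset (Fin t)) (by
    rw [Finset.card_singleton, Fintype.card_fin]
    omega)
  rw [Finset.mem_singleton] at hj₀
  obtain ⟨c₁, d₁, _, α₁, β₁, _, _, hx⟩ := hp j₀ hj₀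
  obtain ⟨c₂, d₂, _, α₂, β₂, _, _, hy⟩ := hm j₀ hj₀
  obtain ⟨u, hu⟩ := exists_outside ({c₁, d₁, c₂, d₂} : Finset (Fin t)) (by
    have := Finset.card_le_four (a := c₁) (b := d₁) (c := c₂) (d := d₂)
    rw [Fintype.card_fin]
    omega)
  simp only [Finset.mem_insert, Finset.mem_singleton, not_or] at hu
  have hau : a u = 0 := by
    have e1 := congrFun hx u
    have e2 := congrFun hy u
    simp only [Pi.add_apply, Pi.sub_apply, Pi.smul_apply, smul_eq_mul, eb, Pi.single_eq_of_ne hu.1,
      Pi.single_eq_of_ne hu.2.1, Pi.single_eq_of_ne hu.2.2.1, Pi.single_eq_of_ne hu.2.2.2, mul_zero, add_zero] at e1 e2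
    have : 2 * a u = 0 := by linear_combination e1 + e2
    exact (mul_eq_zero.1 this).resolve_left h2F
  obtain ⟨j', hj'⟩ := row_ne S C hI u
  have hji : j' ≠ i := by
    rintro rfl
    exact hj' hau
  have hX := hp j' hji
  have hY := hm j' hji
  have hXu : (a + Lg S s (eb j')) u ≠ 0 := by
    simpa [hau] using hj'
  have hYu : (a - Lg S s (eb j')) u ≠ 0 := by
    simpa [hau] using hj'
  obtain ⟨v, hv, α, β, hα, hβ, hx'⟩ := root_at hX hXu
  obtain ⟨w, hw, γ, δ, hγ, hδ, hy'⟩ := root_at hY hYu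
  have hdot : (a + Lg S s (eb j')) ⬝ᵥ (a - Lg S s (eb j')) = 0 := by
    have d1 : a ⬝ᵥ a = 1 := by rw [ha, Lg_dot S hI]; exact single_dot_self
    have d2 : Lg S s (eb j') ⬝ᵥ Lg S s (eb j') = 1 := by rw [Lg_dot S hI]; exact single_dot_self
    rw [add_dotProduct, dotProduct_sub, dotProduct_sub, d1, d2, dotProduct_comm (Lg S s (eb j')) a]
    ring
  rw [hx', hy'] at hdot
  have hα0 : α ≠ 0 := by
    rintro rfl
    norm_num at hα
  have hγ0 : γ ≠ 0 := by
    rintro rfl
    norm_num at hγ
  have hvw : v = w := by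
    by_contra hne
    simp only [add_dotProduct, dotProduct_add, smul_dotProduct, dotProduct_smul, smul_eq_mul, eb, single_dot_self,
      single_dot_single hv, single_dot_single (Ne.symm hv), single_dot_single hw, single_dot_single (Ne.symm hw),
      single_dot_single hne, mul_zero, mul_one, add_zero, zero_add] at hdot
    exact mul_ne_zero hα0 hγ0 (by linear_combination hdot)
  subst hvw
  have h2a : (2 : F) • a = (a + Lg S s (eb j')) + (a - Lg S s (eb j')) := by
    rw [two_smul]
    abel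
  rw [hx', hy'] at h2a
  have hαγ : α + γ = 0 := by
    have := congrFun h2a u
    simp only [Pi.smul_apply, Pi.add_apply, smul_eq_mul, eb, Pi.single_eq_same, Pi.single_eq_of_ne (Ne.symm hv), hau,
      mul_zero, mul_one, add_zero] at this
    linear_combination -this
  refine ⟨v, (β + δ) / 2, ?_⟩
  ext x
  have := congrFun h2a x
  simp only [Pi.smul_apply, Pi.add_apply, smul_eq_mul, eb] at this ⊢
  have e3 : a x = ((β + δ) / 2) * (Pi.single v 1 : Fin t → F) x := by
    apply mul_left_cancel₀ h2F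
    rw [this]
    field_simp
    linear_combination (Pi.single u 1 : Fin t → F) x * hαγ
  exact e3

lemma root_rel {ρ ρ' : Fin t → F} (h1 : IsRoot ρ) (h2 : IsRoot ρ') : rr S ρ * rr S ρ' ∈ M :=
  mem_of_stab_omega S C (Subgroup.mul_mem _ (rr_root_stab S C.fin h1) (rr_root_stab S C.fin h2))
    (rr_mul_omega S C S.two (root_norm h1) (root_norm h2))

/-- The reflections in the stabiliser, for a non-square `2`. -/
lemma root_of_stab (hsq : ¬ IsSquare (2 : F)) {y : Fin t → F} (hy : y ⬝ᵥ y = 2)
    (hs : rr S y ∈ decompositionStabilizer D) : IsRoot y := by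
  obtain ⟨m, hm⟩ : ∃ m, y m ≠ 0 := by
    by_contra hc
    push Not at hc
    have : y = 0 := funext hc
    rw [this] at hy
    simp at hy
    exact S.two hy.symm
  obtain ⟨k, α, h1⟩ := stab_col S hs m
  rw [Lg_rr2 S hy, R2] at h1
  have hdm : y ⬝ᵥ eb m = y m := dotProduct_single_one _ _
  rw [hdm] at h1
  have hα : α ^ 2 = 1 := by
    have h2 := Lg_dot S (rr_mem S y) (eb m) (eb m)
    rw [Lg_rr2 S hy, R2, hdm, h1] at h2
    simp only [smul_dotProduct, dotProduct_smul, smul_eq_mul, single_dot_self] at h2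
    linear_combination h2
  have h3 : y m • y = eb m - α • eb k := by
    rw [← h1]
    abel
  by_cases hk : k = m
  · exfalso
    apply hsq
    subst hk
    have h4 : y k • y = (1 - α) • eb k := by
      rw [h3, sub_smul, one_smul]
    have h5 := congrArg (fun v => v ⬝ᵥ v) h4
    simp only [smul_dotProduct, dotProduct_smul, smul_eq_mul, hy, single_dot_self] at h5
    refine ⟨(1 - α) / y k, ?_⟩
    field_simp
    linear_combination h5
  · have h4 := congrFun h3 m
    simp only [Pi.smul_apply, Pi.sub_apply, smul_eq_mul, eb, Pi.single_eq_same, Pi.single_eq_of_ne (Ne.symm hk), mul_zero,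
      sub_zero] at h4
    have h5 : y m ^ 2 = 1 := by linear_combination h4
    refine ⟨m, k, Ne.symm hk, y m, - α * y m, h5, ?_, ?_⟩
    · rw [mul_pow, neg_sq, hα, h5, mul_one]
    · ext x
      have h6 := congrFun h3 x
      simp only [Pi.smul_apply, Pi.sub_apply, smul_eq_mul, eb] at h6
      simp only [Pi.add_apply, Pi.smul_apply, smul_eq_mul]
      have hm0 := hm
      apply mul_left_cancel₀ hm0
      rw [h6]
      linear_combination (- (Pi.single m 1 : Fin t → F) x + α * (Pi.single k 1 : Fin t → F) x) * h5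

variable {p₀ : ℕ} [Fact p₀.Prime] [CharP F p₀] (hcard : Fintype.card F = p₀) (hp2 : p₀ ≠ 2) {i₀ : Fin t}
  (hnz : ¬ HasZ (Cl S M i₀)) (h14 : 14 ≤ t) (hev : Even t)
include hcard hp2 hnz h14 hev

/-- The system of vectors of norm two. -/
lemma cl2_cs (hsq : ¬ IsSquare (2 : F)) {ρ₀ : Fin t → F} (hρ₀ : IsRoot ρ₀) :
    CS2 {y : Fin t → F | y ⬝ᵥ y = 2 ∧ rr S y * rr S ρ₀ ∈ M} where
  norm y hy := hy.1
  root y hy := ⟨root_norm hy, root_rel S C hy hρ₀⟩
  refl a ha b hb := by
    have h1 := ha.1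
    constructor
    · have h2 : b ⬝ᵥ a = a ⬝ᵥ b := dotProduct_comm _ _
      simp only [R2, dotProduct_sub, sub_dotProduct, dotProduct_smul, smul_dotProduct, smul_eq_mul, ha.1, hb.1, h2]
      ring
    · rw [rr_R2 S C ha.1]
      have e : rr S a * rr S b * rr S a * rr S ρ₀ = (rr S a * rr S ρ₀) * (rr S b * rr S ρ₀)⁻¹ * (rr S a * rr S ρ₀) := by
        rw [mul_inv_rev, rr_inv, rr_inv]
        have := rr_mul_self S ρ₀
        calc rr S a * rr S b * rr S a * rr S ρ₀ = rr S a * (rr S ρ₀ * rr S ρ₀) * rr S b * rr S a * rr S ρ₀ := by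
              rw [this, mul_one]
          _ = _ := by group
      rw [e]
      exact M.mul_mem (M.mul_mem ha.2 (M.inv_mem hb.2)) ha.2
  zr y hy l hl := by
    apply root_of_stab S C hsq hy.1
    obtain ⟨a, ha⟩ := exists_outside ({l} : Finset (Fin t)) (by
      rw [Finset.card_singleton, Fintype.card_fin]
      omega)
    obtain ⟨b, hb⟩ := exists_outside ({l, a} : Finset (Fin t)) (by
      have := Finset.card_le_two (a := l) (b := a)
      rw [Fintype.card_fin]
      omega)
    simp only [Finset.mem_insert, Finset.mem_singleton, not_or] at ha hb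
    have hρ : IsRoot (eb a + (1 : F) • eb b : Fin t → F) := ⟨a, b, Ne.symm hb.2, 1, 1, by norm_num, by norm_num, by simp⟩
    set ρ := (eb a + (1 : F) • eb b : Fin t → F) with hρdef
    have h1 : rr S y * rr S ρ ∈ M := by
      have e : rr S y * rr S ρ = (rr S y * rr S ρ₀) * (rr S ρ₀ * rr S ρ) := by
        have := rr_mul_self S ρ₀
        calc rr S y * rr S ρ = rr S y * (rr S ρ₀ * rr S ρ₀) * rr S ρ := by rw [this, mul_one]
          _ = _ := by group
      rw [e]
      exact M.mul_mem hy.2 (root_rel S C hρ₀ hρ)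
    have hfix : Lg S (rr S y * rr S ρ) (eb l) = eb l := by
      rw [Lg_mul, Lg_rr2 S (root_norm hρ), Lg_rr2 S hy.1, R2, R2]
      have d1 : ρ ⬝ᵥ eb l = 0 := by
        rw [hρdef, root_dot]
        simp only [eb, Pi.single_eq_of_ne ha, Pi.single_eq_of_ne hb.1, mul_zero, add_zero]
      have d2 : y ⬝ᵥ eb l = 0 := by
        rw [dotProduct_single_one, hl]
      rw [d1, zero_smul, sub_zero, d2, zero_smul, sub_zero]
    have h2 := s3 S C hcard hp2 hnz h14 h1 (sg_mem S C l) (by rw [hfix]; exact sg_mem S C l)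
    have e : rr S y = (rr S y * rr S ρ) * rr S ρ := by
      rw [mul_assoc, rr_mul_self, mul_one]
    rw [e]
    exact Subgroup.mul_mem _ h2 (rr_root_stab S C.fin hρ)

/-- **Elements fixing a root lie in the stabiliser.** -/
theorem r_lemma {s : GL ι F} (hs : s ∈ M) {ρ : Fin t → F} (hρ : IsRoot ρ) (hfix : Lg S s ρ = ρ) :
    s ∈ decompositionStabilizer D := by
  classical
  have hI := C.miso hs
  by_cases hsq : IsSquare (2 : F)
  · obtain ⟨ω, hω⟩ := hsq
    have hω2 : ω ^ 2 = 2 := by rw [hω]; ring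
    have hz := case2_mem S C (i₀ := i₀) hω2 hρ
    refine s3 S C hcard hp2 hnz h14 hs hz ?_
    rw [map_smul, hfix]
    exact hz
  · have hcs := cl2_cs S C hcard hp2 hnz h14 hev hsq hρ
    have hev' : Even (Fintype.card (Fin t)) := by rwa [Fintype.card_fin]
    have h14' : 14 ≤ Fintype.card (Fin t) := by rwa [Fintype.card_fin]
    refine stab_of_roots S C hI (by omega) ?_
    intro ρ' hρ'
    refine hcs.all_root hcard hp2 hsq hev' h14' (y := Lg S s ρ') ?_
    refine ⟨by rw [Lg_dot S hI, root_norm hρ'], ?_⟩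
    have := rel_conj S C hs (root_rel S C hρ' hρ)
    rwa [hfix] at this

/-- **Centralisers of involutions with two fixed frame vectors.** -/
theorem l_lemma {w u : GL ι F} (hw : w ∈ M) (hws : w ∈ decompositionStabilizer D) (hw2 : w * w = 1) (hw1 : w ≠ 1)
    {i j : Fin t} (hij : i ≠ j) (hi : Lg S w (eb i) = eb i) (hj : Lg S w (eb j) = eb j) (hu : u ∈ M)
    (hc : w * u = u * w) : u ∈ decompositionStabilizer D := by
  have hIw := C.miso hw
  have hIu := C.miso hu
  set a := Lg S u (eb i) with ha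
  set b := Lg S u (eb j) with hb
  have haa : a ⬝ᵥ a = 1 := by rw [ha, Lg_dot S hIu]; exact single_dot_self
  have hbb : b ⬝ᵥ b = 1 := by rw [hb, Lg_dot S hIu]; exact single_dot_self
  have hs : rr S a * rr S b ∈ M := rel_conj S C hu (frame_mem S C i j)
  have hwa : Lg S w a = a := by
    rw [ha, ← Lg_mul, hc, Lg_mul, hi]
  have hwb : Lg S w b = b := by
    rw [hb, ← Lg_mul, hc, Lg_mul, hj]
  have hanti : ∀ {x v : Fin t → F}, Lg S w x = x → Lg S w v = -v → x ⬝ᵥ v = 0 := by
    intro x v h1 h2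
    have h3 := Lg_dot S hIw x v
    rw [h1, h2, dotProduct_neg] at h3
    have : 2 * (x ⬝ᵥ v) = 0 := by linear_combination -h3
    exact (mul_eq_zero.1 this).resolve_left S.two
  have hsfix : ∀ {v : Fin t → F}, Lg S w v = -v → Lg S (rr S a * rr S b) v = v := by
    intro v hv
    have e1 : R b v = v := by
      rw [R, hanti hwb hv]
      simp
    rw [Lg_mul, Lg_rr1 S hbb, Lg_rr1 S haa, e1, R, hanti hwa hv]
    simp
  suffices h : rr S a * rr S b ∈ decompositionStabilizer D from p_lemma S C hcard hp2 hnz h14 hu hij h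
  obtain ⟨b₀, hb₀⟩ : ∃ b₀, Lg S w (eb b₀) ≠ eb b₀ := by
    by_contra hcon
    push Not at hcon
    apply hw1
    apply S.gl_ext
    intro x
    rw [Units.val_one, Matrix.one_mulVec, ← Phi_single (e := e) x, ← Phi_Lg S, hcon]
  obtain ⟨k, α, h1⟩ := stab_col S hws b₀
  have hα : α ^ 2 = 1 := by
    have h2 := Lg_dot S hIw (eb b₀) (eb b₀)
    rw [h1] at h2
    simp only [smul_dotProduct, dotProduct_smul, smul_eq_mul, single_dot_self, eb] at h2
    linear_combination h2
  by_cases hk : k = b₀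
  · subst hk
    have hα2 : α = -1 := by
      have h3 : (α - 1) * (α + 1) = 0 := by linear_combination hα
      rcases mul_eq_zero.1 h3 with h4 | h4
      · exfalso
        apply hb₀
        rw [h1, show α = 1 by linear_combination h4, one_smul]
      · linear_combination h4
    have h3 : Lg S w (eb k) = - eb k := by
      rw [h1, hα2, neg_smul, one_smul]
    exact s3 S C hcard hp2 hnz h14 hs (sg_mem S C k) (by rw [hsfix h3]; exact sg_mem S C k)
  · have h2 : Lg S w (α • eb k) = eb b₀ := by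
      rw [← h1, ← Lg_mul, hw2, Lg_one]
    have hρ : IsRoot (eb b₀ + (-α) • eb k : Fin t → F) :=
      ⟨b₀, k, Ne.symm hk, 1, -α, by norm_num, by rw [neg_sq]; exact hα, by simp⟩
    have h3 : Lg S w (eb b₀ + (-α) • eb k) = - (eb b₀ + (-α) • eb k) := by
      rw [map_add, h1, map_smul, neg_smul, ← map_smul, h2]
      simp
    exact r_lemma S C hcard hp2 hnz h14 hev hs hρ (hsfix h3)

end Roots

section Dihedral

variable {G : Type*} [Group G]

omit [Fintype ι] [DecidableEq ι] [Fintype F] in
lemma dih_even [Finite G] {x y : G} (hx : x * x = 1) (hy : y * y = 1) (hn : Even (orderOf (x * y))) :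
    ∃ m : ℕ, (x * y) ^ m * (x * y) ^ m = 1 ∧ (x * y) ^ m ≠ 1 ∧ x * (x * y) ^ m = (x * y) ^ m * x ∧
      y * (x * y) ^ m = (x * y) ^ m * y := by
  obtain ⟨m, hm⟩ := hn
  have hpos : 0 < orderOf (x * y) := orderOf_pos _
  set w := (x * y) ^ m with hw
  have hw2 : w * w = 1 := by
    rw [hw, ← pow_add, ← hm, pow_orderOf_eq_one]
  have hinv : (y * x) ^ m = w := by
    have h1 : (x * y) * (y * x) = 1 := by
      calc (x * y) * (y * x) = x * (y * y) * x := by group
        _ = 1 := by rw [hy, mul_one, hx]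
    have h2 : (y * x) = (x * y)⁻¹ := eq_inv_of_mul_eq_one_right h1
    rw [h2, inv_pow, ← hw]
    exact inv_eq_of_mul_eq_one_left hw2
  have s1 : SemiconjBy x (x * y) (y * x) := by
    change x * (x * y) = (y * x) * x
    calc x * (x * y) = (x * x) * y := by group
      _ = y := by rw [hx, one_mul]
      _ = y * (x * x) := by rw [hx, mul_one]
      _ = _ := by group
  have s2 : SemiconjBy y (x * y) (y * x) := by
    change y * (x * y) = (y * x) * y
    group
  refine ⟨m, hw2, ?_, ?_, ?_⟩
  · apply pow_ne_one_of_lt_orderOf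
    · omega
    · omega
  · have := (s1.pow_right m).eq
    rwa [hinv] at this
  · have := (s2.pow_right m).eq
    rwa [hinv] at this

omit [Fintype ι] [DecidableEq ι] [Fintype F] in
lemma dih_odd [Finite G] {x y : G} (hx : x * x = 1) (hy : y * y = 1) (hn : Odd (orderOf (x * y))) :
    ∃ m : ℕ, (x * y) ^ m * y * ((x * y) ^ m)⁻¹ = x := by
  obtain ⟨k, hk⟩ := hn
  refine ⟨k + 1, ?_⟩
  have h1 : (x * y) * (y * x) = 1 := by
    calc (x * y) * (y * x) = x * (y * y) * x := by group
      _ = 1 := by rw [hy, mul_one, hx]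
  have h2 : ((x * y) ^ (k + 1))⁻¹ = (y * x) ^ (k + 1) := by
    have h3 : (x * y)⁻¹ = y * x := inv_eq_of_mul_eq_one_right h1
    rw [← inv_pow, h3]
  have s : SemiconjBy y (y * x) (x * y) := by
    change y * (y * x) = (x * y) * y
    calc y * (y * x) = (y * y) * x := by group
      _ = x := by rw [hy, one_mul]
      _ = x * (y * y) := by rw [hy, mul_one]
      _ = _ := by group
  have h4 := (s.pow_right (k + 1)).eq
  rw [h2, mul_assoc, h4, ← mul_assoc, ← pow_add, show k + 1 + (k + 1) = (2 * k + 1) + 1 by ring, ← hk,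
    pow_succ, pow_orderOf_eq_one, one_mul, mul_assoc, hy, mul_one]

end Dihedral

section Rank

variable (S : Fr Q D e c)
include S

/-- An involution of the stabiliser of small rank fixes two frame vectors. -/
lemma fixed_coords (hfin : ∀ i, Module.finrank F (D i) = 1) {w : GL ι F} (hws : w ∈ decompositionStabilizer D)
    (hIw : w ∈ isometryGroup F Q) (hw2 : w * w = 1) (h14 : 14 ≤ t) (W : Submodule F (Fin t → F))
    (hW6 : Module.finrank F W ≤ 6) (hW : ∀ k, eb k - Lg S w (eb k) ∈ W) :
    ∃ i j, i ≠ j ∧ Lg S w (eb i) = eb i ∧ Lg S w (eb j) = eb j := by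
  classical
  by_contra hcon
  push Not at hcon
  choose τ α hτ using fun k => stab_col S hws k
  have hα : ∀ k, α k ≠ 0 := by
    intro k h0
    have h2 := Lg_dot S hIw (eb k) (eb k)
    rw [hτ k, h0] at h2
    simp only [zero_smul, dotProduct_zero, single_dot_self, eb] at h2
    exact zero_ne_one h2
  have hww : ∀ k, α k • Lg S w (eb (τ k)) = eb k := by
    intro k
    rw [← map_smul, ← hτ k, ← Lg_mul, hw2, Lg_one]
  have hττ : ∀ k, τ (τ k) = k := by
    intro k
    have h1 := hww k
    rw [hτ (τ k), smul_smul] at h1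
    by_contra hne
    have h2 := congrFun h1 k
    simp only [Pi.smul_apply, smul_eq_mul, eb, Pi.single_eq_same] at h2
    rw [Pi.single_eq_of_ne (Ne.symm hne), mul_zero] at h2
    exact zero_ne_one h2
  set Mv := Finset.univ.filter (fun k => Lg S w (eb k) ≠ eb k) with hMv
  have hfix1 : Mvᶜ.card ≤ 1 := by
    apply Finset.card_le_one.2
    intro a ha b hb
    simp only [hMv, Finset.mem_compl, Finset.mem_filter, Finset.mem_univ, true_and, not_not] at ha hb
    by_contra hab
    exact hcon a b hab ha hb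
  have hMvc : 13 ≤ Mv.card := by
    have := Finset.card_add_card_compl Mv
    rw [Fintype.card_fin] at this
    omega
  set R := Mv.filter (fun k => k ≤ τ k) with hR
  have hcov : Mv ⊆ R ∪ R.image τ := by
    intro k hk
    by_cases hk' : k ≤ τ k
    · exact Finset.mem_union_left _ (Finset.mem_filter.2 ⟨hk, hk'⟩)
    · refine Finset.mem_union_right _ (Finset.mem_image.2 ⟨τ k, Finset.mem_filter.2 ⟨?_, ?_⟩, hττ k⟩)
      · simp only [hMv, Finset.mem_filter, Finset.mem_univ, true_and]
        intro hfix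
        have h1 := hww k
        rw [hfix] at h1
        have h2 := congrFun h1 k
        have hne : τ k ≠ k := fun e => hk' (by rw [e])
        simp only [Pi.smul_apply, smul_eq_mul, eb, Pi.single_eq_same, Pi.single_eq_of_ne (Ne.symm hne), mul_zero] at h2
        exact zero_ne_one h2
      · rw [hττ k]
        push Not at hk'
        exact hk'.le
  have hRc : 7 ≤ R.card := by
    have h1 := Finset.card_le_card hcov
    have h2 := Finset.card_union_le R (R.image τ)
    have h3 := Finset.card_image_le (s := R) (f := τ)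
    omega
  -- linear independence
  let v : R → Fin t → F := fun k => eb k.1 - Lg S w (eb k.1)
  have hvdiag : ∀ k : R, v k k.1 ≠ 0 := by
    intro k
    have hk := (Finset.mem_filter.1 (Finset.mem_filter.1 k.2).1).2
    simp only [v, Pi.sub_apply, eb, Pi.single_eq_same]
    rw [hτ k.1]
    simp only [Pi.smul_apply, smul_eq_mul, eb]
    by_cases hc : τ k.1 = k.1
    · rw [hc, Pi.single_eq_same, mul_one]
      intro h0
      apply hk
      rw [hτ k.1, hc, show α k.1 = 1 by linear_combination -h0, one_smul]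
    · rw [Pi.single_eq_of_ne (Ne.symm hc), mul_zero, sub_zero]
      exact one_ne_zero
  have hvoff : ∀ k k' : R, k ≠ k' → v k k'.1 = 0 := by
    intro k k' hne
    have hne' : k'.1 ≠ k.1 := fun e => hne (Subtype.ext e.symm)
    have h1 : k'.1 ≠ τ k.1 := by
      intro e
      have h2 := (Finset.mem_filter.1 k.2).2
      have h3 := (Finset.mem_filter.1 k'.2).2
      have h4 : k'.1 ≤ k.1 := by
        have h5 := h3
        rw [e, hττ k.1] at h5
        rw [e]
        exact h5
      rw [← e] at h2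
      exact hne' (le_antisymm h4 h2)
    simp only [v, Pi.sub_apply, eb, Pi.single_eq_of_ne hne']
    rw [hτ k.1]
    simp [eb, Pi.single_eq_of_ne h1]
  have hli : LinearIndependent F v := by
    rw [Fintype.linearIndependent_iff]
    intro g hg k
    have h1 := congrFun hg k.1
    rw [Finset.sum_apply, Finset.sum_eq_single k] at h1
    · simp only [Pi.smul_apply, smul_eq_mul, Pi.zero_apply] at h1
      exact (mul_eq_zero.1 h1).resolve_right (hvdiag k)
    · intro b _ hb
      simp only [Pi.smul_apply, smul_eq_mul]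
      rw [hvoff b k hb, mul_zero]
    · simp
  have h1 := finrank_span_eq_card hli
  have h2 : Submodule.span F (Set.range v) ≤ W := by
    rw [Submodule.span_le]
    rintro _ ⟨k, rfl⟩
    exact hW k.1
  have h3 := Submodule.finrank_mono h2
  rw [h1, Fintype.card_coe] at h3
  omega

end Rank

section Invol

variable (S : Fr Q D e c)
include S

lemma Lg_ext {A B : GL ι F} (h : ∀ v, Lg S A v = Lg S B v) : A = B := by
  apply S.gl_ext
  intro j
  rw [← Phi_single (e := e) j, ← Phi_Lg S, ← Phi_Lg S, h]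

omit S [Fintype F] in
lemma flp_invol (A : Finset (Fin t)) (v : Fin t → F) : flp A (flp A v) = v := by
  ext x
  by_cases h : x ∈ A
  · simp [flp, h]
  · simp [flp, h]

lemma rr_comm (a b : Fin t) : rr S (eb a) * rr S (eb b) = rr S (eb b) * rr S (eb a) := by
  by_cases h : a = b
  · rw [h]
  · apply Lg_ext S
    intro v
    rw [Lg_e2 S h, Lg_e2 S (Ne.symm h), Finset.pair_comm]

/-- An involution of the stabiliser commutes with a sign change. -/
lemma inv_pair {w : GL ι F} (hws : w ∈ decompositionStabilizer D) (hI : w ∈ isometryGroup F Q) (hw2 : w * w = 1) (h2 : 2 ≤ t) :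
    ∃ l l', l ≠ l' ∧ w * (rr S (eb l) * rr S (eb l')) = (rr S (eb l) * rr S (eb l')) * w := by
  classical
  choose τ α hτ using fun k => stab_col S hws k
  have hα : ∀ k, α k ≠ 0 := by
    intro k h0
    have h2 := Lg_dot S hI (eb k) (eb k)
    rw [hτ k, h0] at h2
    simp only [zero_smul, dotProduct_zero, single_dot_self, eb] at h2
    exact zero_ne_one h2
  have hww : ∀ k, α k • Lg S w (eb (τ k)) = eb k := by
    intro k
    rw [← map_smul, ← hτ k, ← Lg_mul, hw2, Lg_one]
  have hττ : ∀ k, τ (τ k) = k := by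
    intro k
    have h1 := hww k
    rw [hτ (τ k), smul_smul] at h1
    by_contra hne
    have h2 := congrFun h1 k
    simp only [Pi.smul_apply, smul_eq_mul, eb, Pi.single_eq_same] at h2
    rw [Pi.single_eq_of_ne (Ne.symm hne), mul_zero] at h2
    exact zero_ne_one h2
  have hconj : ∀ l l', w * (rr S (eb l) * rr S (eb l')) = (rr S (eb (τ l)) * rr S (eb (τ l'))) * w := by
    intro l l'
    have h3 := rr_conj S hI (eb l)
    have h4 := rr_conj S hI (eb l')
    rw [hτ l, rr_smul S (hα l)] at h3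
    rw [hτ l', rr_smul S (hα l')] at h4
    rw [← h3, ← h4]
    group
  let i₁ : Fin t := ⟨0, by omega⟩
  let i₂ : Fin t := ⟨1, by omega⟩
  have h12 : i₁ ≠ i₂ := by simp [i₁, i₂, Fin.ext_iff]
  by_cases h1 : τ i₁ = i₁
  · by_cases h3 : τ i₂ = i₂
    · exact ⟨i₁, i₂, h12, by rw [hconj, h1, h3]⟩
    · exact ⟨i₂, τ i₂, Ne.symm h3, by rw [hconj, hττ, rr_comm S (τ i₂)]⟩
  · exact ⟨i₁, τ i₁, Ne.symm h1, by rw [hconj, hττ, rr_comm S (τ i₁)]⟩

end Invol

section Final

variable (S : Fr Q D e c) (C : CtxB Q D M 1) {p₀ : ℕ} [Fact p₀.Prime] [CharP F p₀] (hcard : Fintype.card F = p₀)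
  (hp2 : p₀ ≠ 2) {i₀ : Fin t} (hnz : ¬ HasZ (Cl S M i₀)) (h14 : 14 ≤ t) (hev : Even t)
include S C hcard hp2 hnz h14 hev

/-- **All of `M` preserves the frame.** -/
theorem all_stab {g : GL ι F} (hg : g ∈ M) : g ∈ decompositionStabilizer D := by
  classical
  by_contra hgs
  have h2F := S.two
  haveI : Finite (GL ι F) := inferInstance
  have hgI := C.miso hg
  -- coordinates
  let i₁ : Fin t := ⟨0, by omega⟩
  let i₂ : Fin t := ⟨1, by omega⟩
  let i₃ : Fin t := ⟨2, by omega⟩
  let i₄ : Fin t := ⟨3, by omega⟩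
  let i₅ : Fin t := ⟨4, by omega⟩
  let i₆ : Fin t := ⟨5, by omega⟩
  have h12 : i₁ ≠ i₂ := by simp [i₁, i₂, Fin.ext_iff]
  have h13 : i₁ ≠ i₃ := by simp [i₁, i₃, Fin.ext_iff]
  have h14' : i₁ ≠ i₄ := by simp [i₁, i₄, Fin.ext_iff]
  have h15 : i₁ ≠ i₅ := by simp [i₁, i₅, Fin.ext_iff]
  have h16 : i₁ ≠ i₆ := by simp [i₁, i₆, Fin.ext_iff]
  have h23 : i₂ ≠ i₃ := by simp [i₂, i₃, Fin.ext_iff]
  have h24 : i₂ ≠ i₄ := by simp [i₂, i₄, Fin.ext_iff]
  have h25 : i₂ ≠ i₅ := by simp [i₂, i₅, Fin.ext_iff]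
  have h26 : i₂ ≠ i₆ := by simp [i₂, i₆, Fin.ext_iff]
  have h34 : i₃ ≠ i₄ := by simp [i₃, i₄, Fin.ext_iff]
  have h35 : i₃ ≠ i₅ := by simp [i₃, i₅, Fin.ext_iff]
  have h36 : i₃ ≠ i₆ := by simp [i₃, i₆, Fin.ext_iff]
  have h45 : i₄ ≠ i₅ := by simp [i₄, i₅, Fin.ext_iff]
  have h46 : i₄ ≠ i₆ := by simp [i₄, i₆, Fin.ext_iff]
  have h56 : i₅ ≠ i₆ := by simp [i₅, i₆, Fin.ext_iff]
  set x := rr S (eb i₁) * rr S (eb i₂) with hx
  set z := rr S (eb i₃) * rr S (eb i₄) with hz
  have hxM : x ∈ M := frame_mem S C i₁ i₂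
  have hzM : z ∈ M := frame_mem S C i₃ i₄
  have hxs : x ∈ decompositionStabilizer D := Subgroup.mul_mem _ (rr_sg_stab S C.fin i₁) (rr_sg_stab S C.fin i₂)
  have hzs : z ∈ decompositionStabilizer D := Subgroup.mul_mem _ (rr_sg_stab S C.fin i₃) (rr_sg_stab S C.fin i₄)
  -- the action of `x`, `x z`
  have hxa : ∀ v, Lg S x v = flp {i₁, i₂} v := fun v => Lg_e2 S h12 v
  have hxza : ∀ v, Lg S (x * z) v = flp ({i₁, i₂} ∪ {i₃, i₄}) v := fun v => by
    rw [hx, hz]
    exact Lg_e4 S h12 h34 h13 h14' h23 h24 v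
  have hxx : x * x = 1 := by
    apply Lg_ext S
    intro v
    rw [Lg_mul, hxa, hxa, flp_invol, Lg_one]
  have hxzxz : (x * z) * (x * z) = 1 := by
    apply Lg_ext S
    intro v
    rw [Lg_mul, hxza, hxza, flp_invol, Lg_one]
  set y := g * (x * z) * g⁻¹ with hy
  have hyy : y * y = 1 := by
    have e1 : y * y = g * ((x * z) * (x * z)) * g⁻¹ := by
      rw [hy]
      group
    rw [e1, hxzxz]
    group
  have hyM : y ∈ M := M.mul_mem (M.mul_mem hg (M.mul_mem hxM hzM)) (M.inv_mem hg)
  have hxym : ∀ m : ℕ, (x * y) ^ m ∈ M := fun m => M.pow_mem (M.mul_mem hxM hyM) m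
  have ebv : ∀ {u v : Fin t}, u ≠ v → (eb u : Fin t → F) v = 0 := fun h => Pi.single_eq_of_ne (Ne.symm h) _
  have ebs : ∀ u : Fin t, (eb u : Fin t → F) u = 1 := fun u => Pi.single_eq_same _ _
  rcases Nat.even_or_odd (orderOf (x * y)) with hn | hn
  · -- the central involution
    obtain ⟨m, hw2, hw1, hcx, hcy⟩ := dih_even hxx hyy hn
    set w := (x * y) ^ m with hw
    have hwM : w ∈ M := hxym m
    have hxne : x ≠ 1 := by
      intro h0
      have h1 := hxa (eb i₁)
      rw [h0, Lg_one] at h1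
      have h2 := congrFun h1 i₁
      simp only [flp, Finset.mem_insert, Finset.mem_singleton, true_or, if_true, ebs] at h2
      apply h2F
      linear_combination h2
    have hxzne : x * z ≠ 1 := by
      intro h0
      have h1 := hxza (eb i₁)
      rw [h0, Lg_one] at h1
      have h2 := congrFun h1 i₁
      simp only [flp, Finset.mem_union, Finset.mem_insert, Finset.mem_singleton, true_or, if_true, ebs] at h2
      apply h2F
      linear_combination h2
    have hwst : w ∈ decompositionStabilizer D := by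
      refine l_lemma S C hcard hp2 hnz h14 hev hxM hxs hxx hxne h34 ?_ ?_ hwM hcx
      · rw [hxa, flp_fix]
        intro u hu
        simp only [Finset.mem_insert, Finset.mem_singleton] at hu
        rcases hu with rfl | rfl
        · exact ebv (Ne.symm h13)
        · exact ebv (Ne.symm h23)
      · rw [hxa, flp_fix]
        intro u hu
        simp only [Finset.mem_insert, Finset.mem_singleton] at hu
        rcases hu with rfl | rfl
        · exact ebv (Ne.symm h14')
        · exact ebv (Ne.symm h24)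
    set w' := g⁻¹ * w * g with hw'
    have hw'M : w' ∈ M := M.mul_mem (M.mul_mem (M.inv_mem hg) hwM) hg
    have hw'I := C.miso hw'M
    have hw'2 : w' * w' = 1 := by
      have e1 : w' * w' = g⁻¹ * (w * w) * g := by
        rw [hw']
        group
      rw [e1, hw2]
      group
    have hcw' : (x * z) * w' = w' * (x * z) := by
      have e1 : (x * z) * w' = g⁻¹ * (y * w) * g := by
        rw [hw', hy]
        group
      have e2 : w' * (x * z) = g⁻¹ * (w * y) * g := by
        rw [hw', hy]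
        group
      rw [e1, e2, hcy]
    have hw'st : w' ∈ decompositionStabilizer D := by
      refine l_lemma S C hcard hp2 hnz h14 hev (M.mul_mem hxM hzM) (Subgroup.mul_mem _ hxs hzs) hxzxz hxzne h56 ?_ ?_ hw'M hcw'
      · rw [hxza, flp_fix]
        intro u hu
        simp only [Finset.mem_union, Finset.mem_insert, Finset.mem_singleton] at hu
        rcases hu with (rfl | rfl) | (rfl | rfl)
        · exact ebv (Ne.symm h15)
        · exact ebv (Ne.symm h25)
        · exact ebv (Ne.symm h35)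
        · exact ebv (Ne.symm h45)
      · rw [hxza, flp_fix]
        intro u hu
        simp only [Finset.mem_union, Finset.mem_insert, Finset.mem_singleton] at hu
        rcases hu with (rfl | rfl) | (rfl | rfl)
        · exact ebv (Ne.symm h16)
        · exact ebv (Ne.symm h26)
        · exact ebv (Ne.symm h36)
        · exact ebv (Ne.symm h46)
    -- the rank of `w`
    set A₁ := Lg S g (eb i₁) with hA₁
    set A₂ := Lg S g (eb i₂) with hA₂
    set A₃ := Lg S g (eb i₃) with hA₃
    set A₄ := Lg S g (eb i₄) with hA₄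
    have hyr : y = rr S A₁ * rr S A₂ * (rr S A₃ * rr S A₄) := by
      rw [← rr_conj S hgI, ← rr_conj S hgI, ← rr_conj S hgI, ← rr_conj S hgI, hy, hx, hz]
      group
    let s : Finset (Fin t → F) := {eb i₁, eb i₂, A₁, A₂, A₃, A₄}
    let W : Submodule F (Fin t → F) := Submodule.span F (s : Set (Fin t → F))
    have hW6 : Module.finrank F W ≤ 6 :=
      (finrank_span_finset_le_card s).trans Finset.card_le_six
    have hmemW : ∀ v ∈ s, v ∈ W := fun v hv => Submodule.subset_span hv
    have Pmul : ∀ {h₁ h₂ : GL ι F}, (∀ v, v - Lg S h₁ v ∈ W) → (∀ v, v - Lg S h₂ v ∈ W) → ∀ v, v - Lg S (h₁ * h₂) v ∈ W := by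
      intro h₁ h₂ p1 p2 v
      have e1 : v - Lg S (h₁ * h₂) v = (v - Lg S h₂ v) + (Lg S h₂ v - Lg S h₁ (Lg S h₂ v)) := by
        rw [Lg_mul]
        abel
      rw [e1]
      exact W.add_mem (p2 _) (p1 _)
    have Prr : ∀ {a : Fin t → F}, a ⬝ᵥ a = 1 → a ∈ W → ∀ v, v - Lg S (rr S a) v ∈ W := by
      intro a ha haW v
      rw [Lg_rr1 S ha, R, sub_sub_cancel]
      exact W.smul_mem _ haW
    have unitA : ∀ k, Lg S g (eb k) ⬝ᵥ Lg S g (eb k) = 1 := by
      intro k
      rw [Lg_dot S hgI]
      exact single_dot_self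
    have Px : ∀ v, v - Lg S x v ∈ W := Pmul (Prr single_dot_self (hmemW _ (by simp [s])))
      (Prr single_dot_self (hmemW _ (by simp [s])))
    have Py : ∀ v, v - Lg S y v ∈ W := by
      rw [hyr]
      exact Pmul (Pmul (Prr (unitA _) (hmemW _ (by simp [s]))) (Prr (unitA _) (hmemW _ (by simp [s]))))
        (Pmul (Prr (unitA _) (hmemW _ (by simp [s]))) (Prr (unitA _) (hmemW _ (by simp [s]))))
    have Pxy := Pmul Px Py
    have Ppow : ∀ n : ℕ, ∀ v, v - Lg S ((x * y) ^ n) v ∈ W := by
      intro n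
      induction n with
      | zero =>
        intro v
        rw [pow_zero, Lg_one, sub_self]
        exact W.zero_mem
      | succ n ih =>
        rw [pow_succ]
        exact Pmul ih Pxy
    obtain ⟨i, j, hij, hi, hj⟩ := fixed_coords S C.fin hwst (C.miso hwM) hw2 h14 W hW6 (fun k => Ppow m (eb k))
    -- a sign change commuting with `w'`
    obtain ⟨l, l', hll, hcomm⟩ := inv_pair S hw'st hw'I hw'2 (by omega)
    have hu : rr S (Lg S g (eb l)) * rr S (Lg S g (eb l')) ∈ M := rel_conj S C hg (frame_mem S C l l')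
    have hwu : w * (rr S (Lg S g (eb l)) * rr S (Lg S g (eb l'))) = (rr S (Lg S g (eb l)) * rr S (Lg S g (eb l'))) * w := by
      rw [← rr_conj S hgI, ← rr_conj S hgI]
      have e1 : w = g * w' * g⁻¹ := by
        rw [hw']
        group
      have e2 : g * rr S (eb l) * g⁻¹ * (g * rr S (eb l') * g⁻¹) = g * (rr S (eb l) * rr S (eb l')) * g⁻¹ := by group
      rw [e2, e1]
      have e3 : g * w' * g⁻¹ * (g * (rr S (eb l) * rr S (eb l')) * g⁻¹) = g * (w' * (rr S (eb l) * rr S (eb l'))) * g⁻¹ := by group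
      have e4 : g * (rr S (eb l) * rr S (eb l')) * g⁻¹ * (g * w' * g⁻¹) = g * ((rr S (eb l) * rr S (eb l')) * w') * g⁻¹ := by group
      rw [e3, e4, hcomm]
    have hust := l_lemma S C hcard hp2 hnz h14 hev hwM hwst hw2 hw1 hij hi hj hu hwu
    exact hgs (p_lemma S C hcard hp2 hnz h14 hg hll hust)
  · -- conjugate involutions
    obtain ⟨m, hm⟩ := dih_odd hxx hyy hn
    set c' := (x * y) ^ m with hc'
    have hc'M : c' ∈ M := hxym m
    set h := c' * g with hh
    have hhM : h ∈ M := M.mul_mem hc'M hg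
    have hhI := C.miso hhM
    have hrel : x * h = h * (x * z) := by
      have e0 : x * c' = c' * y := by
        calc x * c' = (c' * y * c'⁻¹) * c' := by rw [hm]
          _ = c' * y := by group
      have e1 : y * g = g * (x * z) := by
        rw [hy]
        group
      calc x * h = x * c' * g := by rw [hh]; group
        _ = c' * y * g := by rw [e0]
        _ = c' * (y * g) := by group
        _ = c' * (g * (x * z)) := by rw [e1]
        _ = h * (x * z) := by rw [hh]; group
    have hval : ∀ k, k = i₁ ∨ k = i₂ ∨ k = i₃ → ∀ u, u ≠ i₁ → u ≠ i₂ → Lg S h (eb k) u = 0 := by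
      intro k hk u h1 h2
      have e1 : Lg S x (Lg S h (eb k)) = Lg S h (Lg S (x * z) (eb k)) := by
        rw [← Lg_mul, hrel, Lg_mul]
      have e2 : Lg S (x * z) (eb k) = - eb k := by
        rw [hxza]
        ext a
        simp only [flp, Pi.neg_apply]
        by_cases ha : a ∈ ({i₁, i₂} ∪ {i₃, i₄} : Finset (Fin t))
        · rw [if_pos ha]
        · rw [if_neg ha]
          have hak : a ≠ k := by
            rintro rfl
            apply ha
            simp only [Finset.mem_union, Finset.mem_insert, Finset.mem_singleton]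
            tauto
          rw [ebv (Ne.symm hak)]
          simp
      rw [e2, map_neg, hxa] at e1
      have e3 := congrFun e1 u
      simp only [flp, Finset.mem_insert, Finset.mem_singleton, h1, h2, or_self, if_false, Pi.neg_apply] at e3
      have : 2 * Lg S h (eb k) u = 0 := by linear_combination e3
      exact (mul_eq_zero.1 this).resolve_left h2F
    have hd : ∀ k l, (k = i₁ ∨ k = i₂ ∨ k = i₃) → Lg S h (eb k) i₁ * Lg S h (eb l) i₁ + Lg S h (eb k) i₂ * Lg S h (eb l) i₂ =
        (eb k : Fin t → F) ⬝ᵥ eb l := by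
      intro k l hk
      rw [← Lg_dot S hhI, dot_two h12 (hval k hk)]
    have hn1 : ∀ k, (k = i₁ ∨ k = i₂ ∨ k = i₃) → Lg S h (eb k) i₁ ^ 2 + Lg S h (eb k) i₂ ^ 2 ≠ 0 := by
      intro k hk
      have := hd k k hk
      rw [single_dot_self] at this
      rw [sq, sq, this]
      exact one_ne_zero
    refine no_three (hn1 i₁ (Or.inl rfl)) (hn1 i₂ (Or.inr (Or.inl rfl))) (hn1 i₃ (Or.inr (Or.inr rfl))) ?_ ?_ ?_
    · rw [hd i₁ i₂ (Or.inl rfl)]
      exact single_dot_single h12
    · rw [hd i₁ i₃ (Or.inl rfl)]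
      exact single_dot_single h13
    · rw [hd i₂ i₃ (Or.inr (Or.inl rfl))]
      exact single_dot_single h23

end Final

/-- **Frames are maximal, `n` even.** -/
theorem even_frame_isMaximal (S : Fr Q D e c) (hprime : (Fintype.card F).Prime) (hodd : Fintype.card F % 2 = 1)
    (h7 : 7 ≤ Fintype.card ι) (hev : Even t) (h14 : 14 ≤ t) (hfin : ∀ i, Module.finrank F (D i) = 1)
    (hiso : ∀ i j, AreIsometricFor Q (D i) (D j)) :
    IsMaximalIn (omegaGL Q) (decompositionStabilizer D ⊓ omegaGL Q) := by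
  classical
  haveI : Fact (Fintype.card F).Prime := ⟨hprime⟩
  haveI : CharP F (Fintype.card F) := charP_of_card_eq_prime rfl
  have hp2 : Fintype.card F ≠ 2 := by
    intro h
    rw [h] at hodd
    omega
  obtain ⟨g₀, hg₀, hg₀s⟩ := exists_not_stab S hodd h7 (by omega)
  refine ⟨?_, ?_⟩
  · refine lt_of_le_of_ne inf_le_right ?_
    intro h
    apply hg₀s
    rw [← h] at hg₀
    exact hg₀.1
  · intro K hK hKO
    have C : CtxB Q D K 1 := ⟨S.hQ, S.blk, hfin, hiso, h7, hK, hKO⟩
    by_cases hle : K ≤ decompositionStabilizer D ⊓ omegaGL Q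
    · exact Or.inl (le_antisymm hle hK)
    right
    apply le_antisymm hKO
    obtain ⟨g, hgK, hgn⟩ := SetLike.not_le_iff_exists.1 hle
    have hgs : g ∉ decompositionStabilizer D := fun h => hgn ⟨h, hKO hgK⟩
    let i₀ : Fin t := ⟨0, by omega⟩
    by_cases hZ : HasZ (Cl S K i₀)
    · exact omega_le_even S C rfl i₀ (by omega) hZ
    · exact absurd (all_stab S C rfl hp2 hZ h14 hev hgK) hgs

end Cfsg.Agent.Lib.OmFrame.EvenC
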